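/-
Filters of the normal-form candidates: elements with a prescribed commutation rule, and counting them.
-/
import Cfsg.Agent.Lib.Golay.ClassUse

set_option autoImplicit false

namespace CfsgLib.Golay

open Cfsg
open scoped Pointwise

/-- The list `E48` with its elements evaluated. -/
def E48lit : List ℕ := [984818244535754528103549039458486304, 479663310730678034207776437455390752, 651239579074641248992907580101724192, 944319304547998642267612847938832416, 268195153026948482477577069584812064, 772944516003414818434737759861180448, 720981692062171673584743151055243296, 358662142733855540651195105552730144, 812852730107173232200347929486133280, 590072960059042287979885064796342304, 561475773312554808336860583768983584, 681942991418186671700734416290678816, 892716570080838209712931004353710112, 841384528646309054241536335100872736, 380679813245078647833929983948064800, 220213109803259289183002082616117280, 695226755442639250267515720785037344, 233256162770680474255234529480509472, 398162063758950117529135096646436896, 976531636853126291160407323722221600, 725895487971383339971559185675552800,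 839189432063784999460430720348031008, 796272651614488101787381665936541728, 484779504598900739471956968959215648, 275888336415583309645661167182514208, 645971039647582928216486911676614688, 569346817558524578111400892262615072, 930943920660663948730329567529633824, 760033286391170187665230726437111840, 886929711944160005978619293296855072, 592380006640023600238759116057708576, 351355605056243205221527583111350304, 935448248327800417350548951748675616, 341050705022823791076430286248052768, 608167165260361641911015062699608096, 693746729602969859613000454004377632, 801631358534969762014396067323414560, 894746484934289125327969612694915104, 260169027461259500880655131087046688, 231686213159500301704167581341026336, 734193695561696696727012081653614624, 399377704341898151808080305612490784, 570109986616782138932769284593649696, 972606645568131968584696805283956768, 849847670871825776943761462759884832, 754655545202909480824058658477410336, 637575554806371494695470741007206432, 477149684114315024567765310665492512]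

theorem E48lit_eq : E48lit = E48 := by decide +kernel

/-- Does `r ∘ c` conjugate `t` to `u`? -/
def twOn2 (r c t u : ℕ) : Bool :=
  (List.range 24).all fun i => Nat.beq (pa r (pa c (pa t i))) (pa u (pa r (pa c i)))

/-- The candidates in the cosets of `ys` conjugating `t` to `u`. -/
def twFilter (t u : ℕ) (ys : List (List ℕ)) : List ℕ :=
  ys.flatMap fun y => (E48lit.filter fun c => twOn2 (repL y) c t u).map (comp (repL y))

theorem twFilter_spec {t u : ℕ} {ys : List (List ℕ)} (hok : ys.all repOK = true) (ht : valid t = true)
    (hu : valid u = true) {x : ℕ} (hx : x ∈ twFilter t u ys) :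
    valid x = true ∧ CfsgLib.Golay.mk x ∈ M24 ∧ CfsgLib.Golay.mk x * CfsgLib.Golay.mk t = CfsgLib.Golay.mk u * CfsgLib.Golay.mk x := by
  obtain ⟨y, hy, hx'⟩ := List.mem_flatMap.mp hx
  obtain ⟨c, hc, rfl⟩ := List.mem_map.mp hx'
  obtain ⟨hc1, hc2⟩ := List.mem_filter.mp hc
  have h1 := List.all_eq_true.mp hok y hy
  simp only [repOK, Bool.and_eq_true] at h1
  have hc0 : c ∈ E48 := by rw [← E48lit_eq]; exact hc1
  have hc' := E48_aut c hc0
  have hvr := isAut_valid h1.1
  have hvc := isAut_valid hc'
  refine ⟨valid_comp hvr hvc, mk_comp_mem hvr hvc (mk_mem_M24 h1.1) (mk_mem_M24 hc'), ?_⟩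
  ext1 q
  apply idx_inj
  have hvx := valid_comp hvr hvc
  simp only [Equiv.Perm.mul_apply]
  rw [idx_mk hvx, idx_mk ht, idx_mk hu, idx_mk hvx, pa_comp _ _ (pa_lt ht (idx_lt q)), pa_comp _ _ (idx_lt q)]
  exact Nat.eq_of_beq_eq_true (List.all_eq_true.mp hc2 _ (List.mem_range.mpr (idx_lt q)))

/-- Elements conjugating `t` to `u` with their first five values in a list. -/
theorem mem_twFilter {t u : ℕ} {ys : List (List ℕ)} (hok : ys.all repOK = true) (ht : valid t = true)
    (hu : valid u = true) {g : Equiv.Perm GolayPt} (hg : g ∈ M24)
    (hc : g * CfsgLib.Golay.mk t = CfsgLib.Golay.mk u * g)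
    {y0 y1 y2 y3 y4 : ℕ} (hy : [y0, y1, y2, y3, y4] ∈ ys) (h0 : idx (g (pt 0)) = y0) (h1 : idx (g (pt 1)) = y1)
    (h2 : idx (g (pt 2)) = y2) (h3 : idx (g (pt 3)) = y3) (h4 : idx (g (pt 4)) = y4) :
    ∃ x ∈ twFilter t u ys, g = CfsgLib.Golay.mk x := by
  obtain ⟨x, hx, rfl⟩ := mem_nfCands hok hg hy h0 h1 h2 h3 h4
  obtain ⟨y', hy', hx'⟩ := List.mem_flatMap.mp hx
  obtain ⟨c, hc0, rfl⟩ := List.mem_map.mp hx'
  refine ⟨comp (repL y') c, List.mem_flatMap.mpr ⟨y', hy', List.mem_map.mpr ⟨c, ?_, rfl⟩⟩, rfl⟩
  apply List.mem_filter.mpr
  refine ⟨by rw [E48lit_eq]; exact hc0, ?_⟩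
  have hvx := (nfCands_mem hok hx).1
  unfold twOn2
  apply List.all_eq_true.mpr
  intro i hi
  have hi' := List.mem_range.mp hi
  have h5 : idx ((CfsgLib.Golay.mk (comp (repL y') c) * CfsgLib.Golay.mk t) (pt i)) =
      idx ((CfsgLib.Golay.mk u * CfsgLib.Golay.mk (comp (repL y') c)) (pt i)) := by rw [hc]
  simp only [Equiv.Perm.mul_apply] at h5
  rw [idx_mk hvx, idx_mk ht, idx_mk hu, idx_mk hvx, idx_pt hi', pa_comp _ _ (pa_lt ht hi'), pa_comp _ _ hi'] at h5
  rw [h5]
  exact Nat.beq_refl _

/-- Packed permutations below `2 ^ 120` are determined by their values. -/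
theorem eq_of_pa_eq {a b : ℕ} (ha : a < 2 ^ 120) (hb : b < 2 ^ 120) (h : ∀ i < 24, pa a i = pa b i) : a = b := by
  apply Nat.eq_of_testBit_eq
  intro t
  by_cases ht : t < 120
  · have hi : t / 5 < 24 := by omega
    have h1 := congrArg (fun v => v.testBit (t % 5)) (h _ hi)
    simp only [testBit_pa] at h1
    have h2 : t % 5 < 5 := Nat.mod_lt _ (by norm_num)
    have h3 : 5 * (t / 5) + t % 5 = t := Nat.div_add_mod t 5
    simpa [h2, h3] using h1
  · have h2 : 2 ^ 120 ≤ 2 ^ t := Nat.pow_le_pow_right (by norm_num) (by omega)
    rw [Nat.testBit_lt_two_pow (lt_of_lt_of_le ha h2), Nat.testBit_lt_two_pow (lt_of_lt_of_le hb h2)]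

/-- All entries are valid, canonical and distinct. -/
def listOK (L : List ℕ) : Bool := L.all (fun x => valid x && decide (x < 2 ^ 120)) && L.Nodup

theorem ncard_mk_list {L : List ℕ} (h : listOK L = true) :
    {g : Equiv.Perm GolayPt | ∃ x ∈ L, g = CfsgLib.Golay.mk x}.ncard = L.length := by
  classical
  simp only [listOK, Bool.and_eq_true, List.all_eq_true, decide_eq_true_eq] at h
  obtain ⟨h1, h2⟩ := h
  have h3 : {g : Equiv.Perm GolayPt | ∃ x ∈ L, g = CfsgLib.Golay.mk x} = ↑(L.map (fun x => CfsgLib.Golay.mk x)).toFinset := by
    ext g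
    simp only [Set.mem_ofPred_eq, List.coe_toFinset, List.mem_map]
    constructor
    · rintro ⟨x, hx, rfl⟩
      exact ⟨x, hx, rfl⟩
    · rintro ⟨x, hx, rfl⟩
      exact ⟨x, hx, rfl⟩
  rw [h3, Set.ncard_coe_finset, List.toFinset_card_of_nodup]
  · simp
  · refine List.Nodup.map_on ?_ h2
    intro a ha b hb he
    obtain ⟨va, la⟩ := h1 a ha
    obtain ⟨vb, lb⟩ := h1 b hb
    exact eq_of_pa_eq la lb ((mk_eq_iff va vb).mp he)

end CfsgLib.Golay
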