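/-
Commuting elements of order two and three in `M24`.
-/
import Cfsg.Agent.Lib.Golay.ClassUse

set_option autoImplicit false

namespace CfsgLib.Golay

open Cfsg
open scoped Pointwise

/-- The tails attached to a candidate `u`. -/
def partnerYs (u : ℕ) : List (List ℕ) :=
  ((List.range' 5 19).filter fun z => !Nat.beq (pa u z) z).map fun z => [1, 0, z, pa u z, pa u (pa u z)]

/-- No fixed-point-free involution commuting with `u`. -/
def noPartner (u : ℕ) : Bool :=
  (partnerYs u).all repOK &&
    (nfCands (partnerYs u)).all fun v => !(isPow2 v && isFpf v && samePerm (comp v u) (comp u v))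

/-- The candidates for the element of order three. -/
def threeYs : List (List ℕ) := [[0, 1, 3, 4, 2]]

theorem noPartner_all : threeYs.all repOK = true ∧
    (nfCands threeYs).all (fun u => !isPow3 u || noPartner u) = true := by
  decide +kernel

/-- An element of order three with fixed points does not commute with a fixed-point-free involution. -/
theorem no_3A_2B {x s : Equiv.Perm GolayPt} (hx : x ∈ M24) (hs : s ∈ M24) (h3 : x ^ 3 = 1) (h2 : s ^ 2 = 1)
    (hc : x * s = s * x) {a : GolayPt} (ha : x a = a) (hxne : x ≠ 1) (h0 : ∀ p, s p ≠ p) : False := by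
  classical
  have hss : ∀ p, s (s p) = p := by
    intro p
    rw [← Equiv.Perm.mul_apply, ← pow_two, h2]
    rfl
  have hxxx : ∀ p, x (x (x p)) = p := by
    intro p
    rw [← Equiv.Perm.mul_apply, ← Equiv.Perm.mul_apply, ← pow_three', h3]
    rfl
  have hcomm : ∀ p, x (s p) = s (x p) := fun p => by
    rw [← Equiv.Perm.mul_apply, hc, Equiv.Perm.mul_apply]
  obtain ⟨c, hcm, -⟩ := exists_moved_off hx hxne ∅ (by simp)
  have hb : x (s a) = s a := by rw [hcomm, ha]
  have hnd : [a, s a, c, x c, x (x c)].Nodup := by
    simp only [List.nodup_cons, List.mem_cons, List.not_mem_nil, or_false, not_or, List.nodup_nil, and_true,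
      not_false_eq_true]
    have := h0 a
    grind
  obtain ⟨k, hk, e0, e1, e2, e3, e4⟩ := exists_conj_five hnd
  obtain ⟨hok, hall⟩ := noPartner_all
  obtain ⟨u, hu, hue⟩ := mem_nfCands hok (conj_mem hk hx) (List.mem_singleton.mpr rfl)
    (conj_idx k x (by norm_num) e0 ha e0) (conj_idx k x (by norm_num) e1 hb e1)
    (conj_idx k x (by norm_num) e2 rfl e3) (conj_idx k x (by norm_num) e3 rfl e4)
    (conj_idx k x (by norm_num) e4 (hxxx c) e2)
  have huv := nfCands_mem hok hu
  have hup : isPow3 u = true := isPow3_of huv.1 (mk_pow_of_conj h3 hue)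
  have hun := List.all_eq_true.mp hall u hu
  simp only [hup, Bool.not_true, Bool.false_or] at hun
  simp only [noPartner, Bool.and_eq_true] at hun
  obtain ⟨hrep, hno⟩ := hun
  have hzlt : idx (k (s c)) < 24 := idx_lt _
  have hu1 : ∀ p, idx (k (x p)) = pa u (idx (k p)) := by
    intro p
    rw [← conj_apply, hue, idx_mk huv.1]
  have h5 : idx (k (s (x c))) = pa u (idx (k (s c))) := by rw [← hcomm, hu1]
  have h6 : idx (k (s (x (x c)))) = pa u (pa u (idx (k (s c)))) := by rw [← hcomm, hu1, h5]
  have hzm : pa u (idx (k (s c))) ≠ idx (k (s c)) := by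
    rw [← hu1]
    intro h7
    have h9 := k.injective (idx_inj h7)
    rw [hcomm] at h9
    exact hcm (s.injective h9)
  have hy : [1, 0, idx (k (s c)), pa u (idx (k (s c))), pa u (pa u (idx (k (s c))))] ∈ partnerYs u := by
    apply List.mem_map.mpr
    refine ⟨idx (k (s c)), ?_, rfl⟩
    apply List.mem_filter.mpr
    constructor
    · have hn0 := idx_ne_of k e0 (w := s c) (by grind)
      have hn1 := idx_ne_of k e1 (w := s c) (by grind)
      have hn2 := idx_ne_of k e2 (w := s c) (h0 c)
      have hn3 := idx_ne_of k e3 (w := s c) (by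
        intro h7
        have h8 : x (x c) = c := by
          have h9 := hss c
          rw [h7, ← hcomm, h7] at h9
          exact h9
        have h10 := hxxx c
        rw [h8] at h10
        exact hcm h10)
      have hn4 := idx_ne_of k e4 (w := s c) (by
        intro h7
        have h9 := hss c
        rw [h7, ← hcomm, ← hcomm, h7, hxxx] at h9
        exact hcm h9)
      exact List.mem_range'.mpr ⟨idx (k (s c)) - 5, by omega, by omega⟩
    · cases h : Nat.beq (pa u (idx (k (s c)))) (idx (k (s c))) with
      | false => rfl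
      | true => exact absurd (Nat.eq_of_beq_eq_true h) hzm
  obtain ⟨v, hv, hve⟩ := mem_nfCands hrep (conj_mem hk hs) hy
    (conj_idx k s (by norm_num) e0 rfl e1) (conj_idx k s (by norm_num) e1 (hss a) e0)
    (conj_idx' k s e2) ((conj_idx' k s e3).trans h5) ((conj_idx' k s e4).trans h6)
  have hvv := nfCands_mem hrep hv
  have hcm2 : CfsgLib.Golay.mk v * CfsgLib.Golay.mk u = CfsgLib.Golay.mk u * CfsgLib.Golay.mk v := by
    rw [← hve, ← hue]
    calc k * s * k⁻¹ * (k * x * k⁻¹) = k * (s * x) * k⁻¹ := by group
      _ = k * (x * s) * k⁻¹ := by rw [hc]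
      _ = k * x * k⁻¹ * (k * s * k⁻¹) := by group
  have h10 := List.all_eq_true.mp hno v hv
  have h11 : isPow2 v = true := isPow2_of hvv.1 (mk_pow_of_conj h2 hve)
  have h12 : isFpf v = true := fpf_of_conj h0 hvv.1 hve
  have h13 : samePerm (comp v u) (comp u v) = true := by
    apply samePerm_of_mk_eq (valid_comp hvv.1 huv.1) (valid_comp huv.1 hvv.1)
    rw [mk_comp hvv.1 huv.1, mk_comp huv.1 hvv.1, hcm2]
  simp [h11, h12, h13] at h10

/-- An element of order three without fixed points does not commute with an involution with fixed points. -/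
theorem no_3B_2A {x s : Equiv.Perm GolayPt} (h3 : x ^ 3 = 1) (hc : x * s = s * x)
    (h8 : (Finset.univ.filter fun p => s p = p).card = 8) (h0 : ∀ p, x p ≠ p) : False := by
  classical
  have hinv : ∀ p, (s p = p) → s (x p) = x p := by
    intro p hp
    have : s (x p) = x (s p) := by rw [← Equiv.Perm.mul_apply, ← hc, Equiv.Perm.mul_apply]
    rw [this, hp]
  have hinv2 : ∀ p, s (x p) = x p → s p = p := by
    intro p hp
    have : x (s p) = s (x p) := by rw [← Equiv.Perm.mul_apply, hc, Equiv.Perm.mul_apply]
    apply x.injective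
    rw [this, hp]
  let y : Equiv.Perm {p // s p = p} := x.subtypePerm (fun p => ⟨hinv2 p, hinv p⟩)
  have hy : y ^ (3 ^ 1) = 1 := by
    ext1 ⟨p, hp⟩
    apply Subtype.ext
    simp only [pow_one]
    rw [Equiv.Perm.subtypePerm_pow]
    have : (x ^ 3) p = p := by rw [h3]; rfl
    simpa [Equiv.Perm.subtypePerm_apply] using this
  have : Fact (Nat.Prime 3) := ⟨by norm_num⟩
  have h1 := Equiv.Perm.card_compl_support_modEq (p := 3) (n := 1) hy
  have h2 : Fintype.card {p // s p = p} = 8 := by
    rw [Fintype.card_subtype]
    exact h8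
  have h4 : (y.support)ᶜ.card = 0 := by
    rw [Finset.card_eq_zero]
    ext ⟨p, hp⟩
    simp only [Finset.mem_compl, Equiv.Perm.mem_support, not_not, Finset.notMem_empty, iff_false]
    intro h5
    apply h0 p
    have := congrArg Subtype.val h5
    simpa [y] using this
  rw [h2, h4] at h1
  exact absurd h1 (by decide)

end CfsgLib.Golay
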