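/-
Conjugating subgroups, normalisers and centralisers.
-/
import Mathlib

set_option autoImplicit false

namespace CfsgLib.Golay

open scoped Pointwise

section
variable {G : Type*} [Group G]

theorem mem_conj_smul_iff {H : Subgroup G} {k x : G} : x ∈ MulAut.conj k • H ↔ k⁻¹ * x * k ∈ H := by
  rw [Subgroup.mem_pointwise_smul_iff_inv_smul_mem, MulAut.smul_def, MulAut.conj_inv_apply]

theorem conj_mem_conj_smul {H : Subgroup G} {k h : G} : k * h * k⁻¹ ∈ MulAut.conj k • H ↔ h ∈ H := by
  rw [mem_conj_smul_iff]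
  have : k⁻¹ * (k * h * k⁻¹) * k = h := by group
  rw [this]

theorem normalizer_conj_iff {H : Subgroup G} {k g : G} :
    g ∈ Subgroup.normalizer (H : Set G) ↔
      k * g * k⁻¹ ∈ Subgroup.normalizer ((MulAut.conj k • H : Subgroup G) : Set G) := by
  rw [Subgroup.mem_normalizer_iff, Subgroup.mem_normalizer_iff]
  constructor
  · intro h y
    have h1 : y = k * (k⁻¹ * y * k) * k⁻¹ := by group
    have h2 : k * g * k⁻¹ * y * (k * g * k⁻¹)⁻¹ = k * (g * (k⁻¹ * y * k) * g⁻¹) * k⁻¹ := by group
    rw [h2, conj_mem_conj_smul, mem_conj_smul_iff]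
    exact h _
  · intro h y
    have h1 := h (k * y * k⁻¹)
    have h2 : k * g * k⁻¹ * (k * y * k⁻¹) * (k * g * k⁻¹)⁻¹ = k * (g * y * g⁻¹) * k⁻¹ := by group
    rw [h2, conj_mem_conj_smul, conj_mem_conj_smul] at h1
    exact h1

theorem centralizer_conj_iff {H : Subgroup G} {k g : G} :
    g ∈ Subgroup.centralizer (H : Set G) ↔
      k * g * k⁻¹ ∈ Subgroup.centralizer ((MulAut.conj k • H : Subgroup G) : Set G) := by
  rw [Subgroup.mem_centralizer_iff, Subgroup.mem_centralizer_iff]
  constructor
  · intro h y hy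
    have hy' : k⁻¹ * y * k ∈ H := mem_conj_smul_iff.mp hy
    have h1 := h _ hy'
    calc y * (k * g * k⁻¹) = k * ((k⁻¹ * y * k) * g) * k⁻¹ := by group
      _ = k * (g * (k⁻¹ * y * k)) * k⁻¹ := by rw [h1]
      _ = k * g * k⁻¹ * y := by group
  · intro h y hy
    have h1 := h (k * y * k⁻¹) (conj_mem_conj_smul.mpr hy)
    have h2 : k * (y * g) * k⁻¹ = k * (g * y) * k⁻¹ := by
      calc k * (y * g) * k⁻¹ = k * y * k⁻¹ * (k * g * k⁻¹) := by group
        _ = k * g * k⁻¹ * (k * y * k⁻¹) := h1
        _ = k * (g * y) * k⁻¹ := by group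
    have h3 := mul_left_cancel (mul_right_cancel h2)
    exact h3

theorem card_normalizer_conj (H : Subgroup G) (k : G) :
    Nat.card ↥(Subgroup.normalizer ((MulAut.conj k • H : Subgroup G) : Set G)) =
      Nat.card ↥(Subgroup.normalizer (H : Set G)) :=
  (Nat.card_congr (Equiv.subtypeEquiv (MulAut.conj k).toEquiv (fun _ => normalizer_conj_iff))).symm

theorem card_centralizer_conj (H : Subgroup G) (k : G) :
    Nat.card ↥(Subgroup.centralizer ((MulAut.conj k • H : Subgroup G) : Set G)) =
      Nat.card ↥(Subgroup.centralizer (H : Set G)) :=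
  (Nat.card_congr (Equiv.subtypeEquiv (MulAut.conj k).toEquiv (fun _ => centralizer_conj_iff))).symm

/-- Two subgroups of the same order `p`, with `p` exactly dividing the order of a finite group, are conjugate. -/
theorem exists_conj_of_card_prime [Finite G] {p : ℕ} [hp : Fact p.Prime] (hF : (Nat.card G).factorization p = 1)
    {S S' : Subgroup G} (h1 : Nat.card S = p) (h2 : Nat.card S' = p) : ∃ k : G, S' = MulAut.conj k • S := by
  let P : Sylow p G := Sylow.ofCard S (by rw [h1, hF, pow_one])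
  let P' : Sylow p G := Sylow.ofCard S' (by rw [h2, hF, pow_one])
  obtain ⟨k, hk⟩ := MulAction.exists_smul_eq G P P'
  refine ⟨k, ?_⟩
  have h3 := congrArg (fun Q : Sylow p G => (Q : Subgroup G)) hk
  simp only [Sylow.coe_subgroup_smul] at h3
  exact h3.symm

end

end CfsgLib.Golay
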