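/-
The subgroup of order 72 fixing a dodecad and three of its points.
-/
import Cfsg.Agent.Lib.Golay.Flags

set_option autoImplicit false

namespace CfsgLib.Golay

open Cfsg
open scoped Pointwise

/-- A subgroup of `M24` that is conjugate to a subgroup of permutations has the same order. -/
theorem card_bridge {A : Subgroup (Equiv.Perm GolayPt)} {B : Subgroup M24} {u : Equiv.Perm GolayPt}
    (hu : u ∈ M24) (hA : A ≤ M24) (h : ∀ g : M24, g ∈ B ↔ u⁻¹ * (g : Equiv.Perm GolayPt) * u ∈ A) :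
    Nat.card B = Nat.card A := by
  refine Nat.card_congr ?_
  refine
    { toFun := fun g => ⟨u⁻¹ * ((g : M24) : Equiv.Perm GolayPt) * u, (h g).mp g.2⟩
      invFun := fun a => ⟨⟨u * a * u⁻¹, M24.mul_mem (M24.mul_mem hu (hA a.2)) (M24.inv_mem hu)⟩, (h _).mpr (by
        have : u⁻¹ * (u * (a : Equiv.Perm GolayPt) * u⁻¹) * u = a := by group
        simpa [this] using a.2)⟩
      left_inv := ?_
      right_inv := ?_ }
  · rintro ⟨⟨g, hg⟩, hgB⟩
    simp only [Subtype.mk.injEq]
    group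
  · rintro ⟨a, ha⟩
    simp only [Subtype.mk.injEq]
    group

/-- Conjugating a dodecad and three of its points to the base. -/
theorem exists_conj_Dd0_triple {d : Finset GolayPt} (hd : d ∈ dodecads) {p q r : GolayPt} (hp : p ∈ d)
    (hq : q ∈ d) (hr : r ∈ d) (hpq : p ≠ q) (hpr : p ≠ r) (hqr : q ≠ r) :
    ∃ u ∈ M24, u • Dd0 = d ∧ u (pt 0) = p ∧ u (pt 1) = q ∧ u (pt 2) = r := by
  obtain ⟨h, hh, rfl⟩ := exists_conj_Dd0 hd
  have h12 : (h • Dd0).card = 12 := hd.2
  -- two further points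
  have hs : 2 ≤ ((h • Dd0) \ {p, q, r}).card := by
    have h3 : ({p, q, r} : Finset GolayPt).card ≤ 3 := Finset.card_le_three
    have h4 := Finset.le_card_sdiff ({p, q, r} : Finset GolayPt) (h • Dd0)
    omega
  obtain ⟨a, ha, b, hb, hab⟩ := Finset.one_lt_card.mp (by omega : 1 < ((h • Dd0) \ {p, q, r}).card)
  simp only [Finset.mem_sdiff, Finset.mem_insert, Finset.mem_singleton, not_or] at ha hb
  have hinj : Function.Injective ![p, q, r, a, b] := by
    intro i j hij
    fin_cases i <;> fin_cases j <;> first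
      | rfl
      | (exfalso; simp at hij; first
          | exact hpq hij | exact hpq hij.symm | exact hpr hij | exact hpr hij.symm
          | exact hqr hij | exact hqr hij.symm | exact hab hij | exact hab hij.symm
          | exact ha.2.1 hij | exact ha.2.1 hij.symm | exact ha.2.2.1 hij | exact ha.2.2.1 hij.symm
          | exact ha.2.2.2 hij | exact ha.2.2.2 hij.symm
          | exact hb.2.1 hij | exact hb.2.1 hij.symm | exact hb.2.2.1 hij | exact hb.2.2.1 hij.symm
          | exact hb.2.2.2 hij | exact hb.2.2.2 hij.symm)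
  obtain ⟨g, hg, hgx⟩ := base_tuple ((⟨_, hinj⟩ : Fin 5 ↪ GolayPt).trans (Equiv.toEmbedding h⁻¹)) (by
    intro i
    refine mem_Dd0_smul.mpr ?_
    fin_cases i
    · exact hp
    · exact hq
    · exact hr
    · exact ha.1
    · exact hb.1)
  obtain ⟨hg1, hg2⟩ := mem_stabS.mp hg
  refine ⟨h * g, M24.mul_mem hh hg1, by rw [mul_smul, hg2], ?_, ?_, ?_⟩
  · have := hgx 0
    simp only [bs5, Equiv.Perm.mul_apply] at this ⊢
    change g (pt 0) = _ at this
    rw [this]
    simp
  · have := hgx 1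
    simp only [bs5, Equiv.Perm.mul_apply] at this ⊢
    change g (pt 1) = _ at this
    rw [this]
    simp
  · have := hgx 2
    simp only [bs5, Equiv.Perm.mul_apply] at this ⊢
    change g (pt 2) = _ at this
    rw [this]
    simp

/-- The base subgroup of order 72. -/
def K72 : Subgroup (Equiv.Perm GolayPt) := fixIn (stabS Dd0) [2, 1, 0]

theorem K72_le : K72 ≤ M24 := fun _ hg => (mem_stabS.mp (mem_fixIn.mp hg).1).1

theorem card_K72 : Nat.card K72 = 72 := by
  have hnil : ∀ F, fixIn (fixIn (stabS Dd0) []) F = fixIn (stabS Dd0) F := by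
    intro F; rw [fixIn_nil]
  have h3 := card_level lvK3 (by norm_num) (by rw [DK3_eq]; exact offMask_nodup _ _)
    (fun g hg => by rw [DK3_eq]; exact mem_offMask_of_fix (by norm_num) (by simp) (by decide +kernel) hg)
  have h4 := card_level lvK4 (by norm_num) (by rw [DK4_eq]; exact offMask_nodup _ _)
    (fun g hg => by rw [DK4_eq]; exact mem_offMask_of_fix (by norm_num) (by simp) (by decide +kernel) hg)
  rw [hnil, hnil] at h3 h4
  rw [h4, fixIn_Dd0_bot] at h3
  have hl3 : DK3.length = 9 := by decide +kernel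
  have hl4 : DK4.length = 8 := by decide +kernel
  rw [hl3, hl4] at h3
  have h5 : Nat.card (⊥ : Subgroup (Equiv.Perm GolayPt)) = 1 := by simp
  rw [h5] at h3
  exact h3

theorem gensFG_sound : ∀ c ∈ gensFG, valid c = true ∧ mk c ∈ K72 :=
  gens_sound (m := dod0) (G := [2, 1, 0]) (by decide +kernel)

theorem coverFG : compS.all (fun c => (seenOf (walk (actG gensFG) 128 [1, 1, 1, 2, 1, 0, 2, 1, 2, 1, 1, 1])).testBit c) = true := by
  decide +kernel

theorem K72_trans {x y : GolayPt} (hx : x ∉ Dd0) (hy : y ∉ Dd0) : ∃ g ∈ K72, g x = y := by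
  have key : ∀ z : GolayPt, z ∉ Dd0 → ∃ g ∈ K72, g (pt 7) = z := by
    intro z hz
    have hz2 : idx z ∈ [7, 11, 12, 13, 14, 16, 18, 19, 20, 21, 22, 23] := by
      have h1 : ¬ dod0.testBit (idx z) = true := fun h => hz (mem_fs.mpr h)
      have h2 := idx_lt z
      generalize idx z = i at h1 h2
      revert h1
      interval_cases i <;> first | decide | (intro h; exact absurd (by decide) h)
    have hz3 : 2 ^ idx z ∈ compS := by
      simp only [List.mem_cons, List.not_mem_nil, or_false] at hz2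
      rcases hz2 with h | h | h | h | h | h | h | h | h | h | h | h <;> rw [h] <;> decide
    obtain ⟨g, hg, h1⟩ := inOrbit_of_cover gensFG_sound coverFG hz3
    refine ⟨g, hg, ?_⟩
    have h7 : fs 128 = {pt 7} := by
      ext q
      simp only [mem_fs, Finset.mem_singleton]
      revert q
      decide +kernel
    have h8 : fs (2 ^ idx z) = {z} := by
      rw [← mask_singleton, fs_mask]
    rw [h7, h8, Finset.smul_finset_singleton, Finset.singleton_inj] at h1
    exact h1
  obtain ⟨g1, h1, rfl⟩ := key x hx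
  obtain ⟨g2, h2, rfl⟩ := key y hy
  refine ⟨g2 * g1⁻¹, K72.mul_mem h2 (K72.inv_mem h1), ?_⟩
  simp

/-- S1600. -/
theorem dod_three_stab (d : Finset GolayPt) (hd : d ∈ dodecads) (p q r : GolayPt) (hp : p ∈ d) (hq : q ∈ d)
    (hr : r ∈ d) (hpq : p ≠ q) (hpr : p ≠ r) (hqr : q ≠ r) :
    Nat.card ↥(MulAction.stabilizer M24 d ⊓ MulAction.stabilizer M24 p ⊓ MulAction.stabilizer M24 q ⊓
      MulAction.stabilizer M24 r) = 72 ∧
    ∀ x ∉ d, ∀ y ∉ d, ∃ g ∈ (MulAction.stabilizer M24 d ⊓ MulAction.stabilizer M24 p ⊓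
      MulAction.stabilizer M24 q ⊓ MulAction.stabilizer M24 r), ((g : M24) : Equiv.Perm GolayPt) x = y := by
  obtain ⟨u, hu, rfl, rfl, rfl, rfl⟩ := exists_conj_Dd0_triple hd hp hq hr hpq hpr hqr
  have hmem : ∀ g : M24, g ∈ (MulAction.stabilizer M24 (u • Dd0) ⊓ MulAction.stabilizer M24 (u (pt 0)) ⊓
      MulAction.stabilizer M24 (u (pt 1)) ⊓ MulAction.stabilizer M24 (u (pt 2))) ↔
      u⁻¹ * (g : Equiv.Perm GolayPt) * u ∈ K72 := by
    intro g
    simp only [Subgroup.mem_inf, MulAction.mem_stabilizer_iff]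
    rw [K72, mem_fixIn, mem_stabS]
    have hgm : u⁻¹ * (g : Equiv.Perm GolayPt) * u ∈ M24 := M24.mul_mem (M24.mul_mem (M24.inv_mem hu) g.2) hu
    have e1 : ∀ a : GolayPt, g • (u a) = u a ↔ (u⁻¹ * (g : Equiv.Perm GolayPt) * u) a = a := by
      intro a
      change (g : Equiv.Perm GolayPt) (u a) = u a ↔ _
      simp only [Equiv.Perm.mul_apply]
      rw [Equiv.Perm.inv_eq_iff_eq]
    have e2 : g • (u • Dd0) = u • Dd0 ↔ (u⁻¹ * (g : Equiv.Perm GolayPt) * u) • Dd0 = Dd0 := by
      change (g : Equiv.Perm GolayPt) • (u • Dd0) = u • Dd0 ↔ _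
      rw [mul_smul, mul_smul, inv_smul_eq_iff]
    rw [e1, e1, e1, e2]
    constructor
    · rintro ⟨⟨⟨h1, h2⟩, h3⟩, h4⟩
      refine ⟨⟨hgm, h1⟩, ?_⟩
      intro a ha
      simp only [List.mem_cons, List.not_mem_nil, or_false] at ha
      rcases ha with ha | ha | ha
      · rw [← pt_idx a, ha]; exact h4
      · rw [← pt_idx a, ha]; exact h3
      · rw [← pt_idx a, ha]; exact h2
    · rintro ⟨⟨-, h1⟩, h2⟩
      refine ⟨⟨⟨h1, h2 _ ?_⟩, h2 _ ?_⟩, h2 _ ?_⟩
      · rw [idx_pt (by norm_num)]; simp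
      · rw [idx_pt (by norm_num)]; simp
      · rw [idx_pt (by norm_num)]; simp
  constructor
  · rw [card_bridge hu K72_le hmem, card_K72]
  · intro x hx y hy
    have hx' : u⁻¹ x ∉ Dd0 := fun h => hx (mem_Dd0_smul.mp h)
    have hy' : u⁻¹ y ∉ Dd0 := fun h => hy (mem_Dd0_smul.mp h)
    obtain ⟨g, hg, hgxy⟩ := K72_trans hx' hy'
    have hg' : u * g * u⁻¹ ∈ M24 := M24.mul_mem (M24.mul_mem hu (K72_le hg)) (M24.inv_mem hu)
    refine ⟨⟨u * g * u⁻¹, hg'⟩, (hmem _).mpr ?_, ?_⟩
    · have : u⁻¹ * (u * g * u⁻¹) * u = g := by group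
      change u⁻¹ * (u * g * u⁻¹) * u ∈ K72
      rw [this]
      exact hg
    · simp only [Equiv.Perm.mul_apply]
      rw [hgxy]
      simp

end CfsgLib.Golay
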