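/-
Orbits of sextet, trio and octad stabilisers on sextets, trios and octads.
-/
import Cfsg.Agent.Lib.Golay.FamChk

set_option autoImplicit false

namespace CfsgLib.Golay

open Cfsg
open scoped Pointwise

theorem oct0_ok : famOK 1 5279 = true := by decide +kernel

theorem famDec_oct0 : famDec 1 5279 = {O0} := by
  have : unp 1 5279 = [octO] := by decide +kernel
  unfold famDec
  rw [this]
  rfl

/-- Sextets as seen from a sextet. -/
theorem lv_SS {S : Finset (Finset GolayPt)} (hS : S ∈ sextets) :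
    FamLevels sextets sqF S (sqTab 6 sext0 6 sextKeys) := by
  obtain ⟨u, hu, rfl⟩ := M24_sextet_trans famDec_sext0 hS
  exact famMasterSq sext0_ok sextKeys_ok sextets_invariant sextets_eq chk_gS chk_SS hu

theorem lv_TT {T : Finset (Finset GolayPt)} (hT : T ∈ trios) :
    FamLevels trios sqF T (sqTab 3 trio0 3 trioKeys) := by
  obtain ⟨u, hu, rfl⟩ := M24_trio_trans famDec_trio0 hT
  exact famMasterSq trio0_ok trioKeys_ok trios_invariant trios_eq chk_gT chk_TT hu

theorem lv_ST {S : Finset (Finset GolayPt)} (hS : S ∈ sextets) :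
    FamLevels trios sqF S (sqTab 6 sext0 3 trioKeys) := by
  obtain ⟨u, hu, rfl⟩ := M24_sextet_trans famDec_sext0 hS
  exact famMasterSq sext0_ok trioKeys_ok trios_invariant trios_eq chk_gS chk_ST hu

theorem lv_TS {T : Finset (Finset GolayPt)} (hT : T ∈ trios) :
    FamLevels sextets sqF T (sqTab 3 trio0 6 sextKeys) := by
  obtain ⟨u, hu, rfl⟩ := M24_trio_trans famDec_trio0 hT
  exact famMasterSq trio0_ok sextKeys_ok sextets_invariant sextets_eq chk_gT chk_TS hu

theorem lv_OT {o : Finset GolayPt} (ho : o ∈ octads) :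
    FamLevels trios sqF ({o} : Finset (Finset GolayPt)) (sqTab 1 5279 3 trioKeys) := by
  obtain ⟨u, hu, rfl⟩ := exists_conj_O0 ho
  have := famMasterSq oct0_ok trioKeys_ok trios_invariant trios_eq chk_gO chk_OT hu
  rwa [famDec_oct0, Finset.smul_finset_singleton] at this

theorem lv_OS {o : Finset GolayPt} (ho : o ∈ octads) :
    FamLevels sextets sqF ({o} : Finset (Finset GolayPt)) (sqTab 1 5279 6 sextKeys) := by
  obtain ⟨u, hu, rfl⟩ := exists_conj_O0 ho
  have := famMasterSq oct0_ok sextKeys_ok sextets_invariant sextets_eq chk_gO chk_OS hu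
  rwa [famDec_oct0, Finset.smul_finset_singleton] at this

theorem lv_SO {S : Finset (Finset GolayPt)} (hS : S ∈ sextets) :
    FamLevels octads sqO S (octTab 6 sext0) := by
  obtain ⟨u, hu, rfl⟩ := M24_sextet_trans famDec_sext0 hS
  exact famMasterOct sext0_ok chk_gS chk_SO hu

theorem lv_TO {T : Finset (Finset GolayPt)} (hT : T ∈ trios) :
    FamLevels octads sqO T (octTab 3 trio0) := by
  obtain ⟨u, hu, rfl⟩ := M24_trio_trans famDec_trio0 hT
  exact famMasterOct trio0_ok chk_gT chk_TO hu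

theorem stab_sing (g : M24) (o : Finset GolayPt) :
    g ∈ MulAction.stabilizer M24 o ↔ (g : Equiv.Perm GolayPt) • ({o} : Finset (Finset GolayPt)) = {o} := by
  rw [Finset.smul_finset_singleton, Finset.singleton_inj]
  exact Iff.rfl

/-- S1552. -/
theorem sextet_orbits (S : Finset (Finset GolayPt)) (hS : S ∈ sextets) :
    ∃ X₁ ∈ sextets, ∃ X₂ ∈ sextets, ∃ X₃ ∈ sextets,
      (MulAction.orbit ↥(MulAction.stabilizer M24 S) X₁).ncard = 90 ∧
      (MulAction.orbit ↥(MulAction.stabilizer M24 S) X₂).ncard = 240 ∧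
      (MulAction.orbit ↥(MulAction.stabilizer M24 S) X₃).ncard = 1440 ∧
      sextets = {S} ∪ MulAction.orbit ↥(MulAction.stabilizer M24 S) X₁ ∪
        MulAction.orbit ↥(MulAction.stabilizer M24 S) X₂ ∪ MulAction.orbit ↥(MulAction.stabilizer M24 S) X₃ ∧
      IsCoatom (MulAction.stabilizer M24 S) := by
  have L := lv_SS hS
  have hself : sqF S S = 96 := by
    obtain ⟨u, hu, rfl⟩ := M24_sextet_trans famDec_sext0 hS
    rw [sqF_self_transport sext0_ok]
    decide +kernel
  have hone : (List.filter (fun e => Nat.beq e.2 96) (sqTab 6 sext0 6 sextKeys)).length = 1 := famSizes_len sz_SS (by simp)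
  obtain ⟨X₁, h1, l1, o1, c1⟩ := L.level_spec (H := MulAction.stabilizer M24 S) sextets_invariant sqF_smul (fun _ => Iff.rfl) (i := 48) (n := 90) (famSizes_len sz_SS (by simp)) (by norm_num)
  obtain ⟨X₂, h2, l2, o2, c2⟩ := L.level_spec (H := MulAction.stabilizer M24 S) sextets_invariant sqF_smul (fun _ => Iff.rfl) (i := 36) (n := 240) (famSizes_len sz_SS (by simp)) (by norm_num)
  obtain ⟨X₃, h3, l3, o3, c3⟩ := L.level_spec (H := MulAction.stabilizer M24 S) sextets_invariant sqF_smul (fun _ => Iff.rfl) (i := 32) (n := 1440) (famSizes_len sz_SS (by simp)) (by norm_num)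
  refine ⟨X₁, h1, X₂, h2, X₃, h3, c1, c2, c3, ?_, ?_⟩
  · rw [o1, o2, o3]
    ext y
    simp only [Set.mem_union, Set.mem_singleton_iff, Set.mem_ofPred_eq]
    constructor
    · intro hy
      obtain ⟨p, hp, h4⟩ := L.lev_sizes sz_SS hy
      simp only [List.mem_cons, List.not_mem_nil, or_false] at hp
      rcases hp with rfl | rfl | rfl | rfl
      · exact Or.inl (Or.inl (Or.inr ⟨hy, h4⟩))
      · exact Or.inl (Or.inr ⟨hy, h4⟩)
      · exact Or.inr ⟨hy, h4⟩
      · exact Or.inl (Or.inl (Or.inl (L.level_one hone hS hself hy h4)))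
    · rintro (((rfl | h4) | h4) | h4)
      · exact hS
      · exact h4.1
      · exact h4.1
      · exact h4.1
  · refine L.coatom (Set.toFinite _) hS sextets_invariant (fun y hy => M24_sextet_trans hS hy) sz_SS (I := {96, 48, 36, 32})
      (size := fun i => if i = 96 then 1 else if i = 48 then 90 else if i = 36 then 240 else 1440)
      (by decide) ?_ ?_ ?_ ?_
    · intro i hi
      simp only [Finset.mem_insert, Finset.mem_singleton] at hi
      rcases hi with rfl | rfl | rfl | rfl <;> decide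
    · rw [hself]; rfl
    · exact ⟨X₁, h1, by
        rintro rfl
        rw [hself] at l1
        norm_num at l1⟩
    · rw [hself]
      decide +kernel

/-- S1559. -/
theorem trio_orbits (T : Finset (Finset GolayPt)) (hT : T ∈ trios) :
    ∃ X₁ ∈ trios, ∃ X₂ ∈ trios, ∃ X₃ ∈ trios, ∃ X₄ ∈ trios,
      (MulAction.orbit ↥(MulAction.stabilizer M24 T) X₁).ncard = 42 ∧
      (MulAction.orbit ↥(MulAction.stabilizer M24 T) X₂).ncard = 56 ∧
      (MulAction.orbit ↥(MulAction.stabilizer M24 T) X₃).ncard = 1008 ∧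
      (MulAction.orbit ↥(MulAction.stabilizer M24 T) X₄).ncard = 2688 ∧
      trios = {T} ∪ MulAction.orbit ↥(MulAction.stabilizer M24 T) X₁ ∪
        MulAction.orbit ↥(MulAction.stabilizer M24 T) X₂ ∪ MulAction.orbit ↥(MulAction.stabilizer M24 T) X₃ ∪
        MulAction.orbit ↥(MulAction.stabilizer M24 T) X₄ ∧
      IsCoatom (MulAction.stabilizer M24 T) := by
  have L := lv_TT hT
  have hself : sqF T T = 192 := by
    obtain ⟨u, hu, rfl⟩ := M24_trio_trans famDec_trio0 hT
    rw [sqF_self_transport trio0_ok]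
    decide +kernel
  have hone : (List.filter (fun e => Nat.beq e.2 192) (sqTab 3 trio0 3 trioKeys)).length = 1 := famSizes_len sz_TT (by simp)
  obtain ⟨X₁, h1, l1, o1, c1⟩ := L.level_spec (H := MulAction.stabilizer M24 T) trios_invariant sqF_smul (fun _ => Iff.rfl) (i := 128) (n := 42) (famSizes_len sz_TT (by simp)) (by norm_num)
  obtain ⟨X₂, h2, l2, o2, c2⟩ := L.level_spec (H := MulAction.stabilizer M24 T) trios_invariant sqF_smul (fun _ => Iff.rfl) (i := 96) (n := 56) (famSizes_len sz_TT (by simp)) (by norm_num)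
  obtain ⟨X₃, h3, l3, o3, c3⟩ := L.level_spec (H := MulAction.stabilizer M24 T) trios_invariant sqF_smul (fun _ => Iff.rfl) (i := 80) (n := 1008) (famSizes_len sz_TT (by simp)) (by norm_num)
  obtain ⟨X₄, h4, l4, o4, c4⟩ := L.level_spec (H := MulAction.stabilizer M24 T) trios_invariant sqF_smul (fun _ => Iff.rfl) (i := 72) (n := 2688) (famSizes_len sz_TT (by simp)) (by norm_num)
  refine ⟨X₁, h1, X₂, h2, X₃, h3, X₄, h4, c1, c2, c3, c4, ?_, ?_⟩
  · rw [o1, o2, o3, o4]
    ext y
    simp only [Set.mem_union, Set.mem_singleton_iff, Set.mem_ofPred_eq]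
    constructor
    · intro hy
      obtain ⟨p, hp, h5⟩ := L.lev_sizes sz_TT hy
      simp only [List.mem_cons, List.not_mem_nil, or_false] at hp
      rcases hp with rfl | rfl | rfl | rfl | rfl
      · exact Or.inl (Or.inl (Or.inl (Or.inr ⟨hy, h5⟩)))
      · exact Or.inl (Or.inl (Or.inr ⟨hy, h5⟩))
      · exact Or.inl (Or.inr ⟨hy, h5⟩)
      · exact Or.inr ⟨hy, h5⟩
      · exact Or.inl (Or.inl (Or.inl (Or.inl (L.level_one hone hT hself hy h5))))
    · rintro ((((rfl | h5) | h5) | h5) | h5)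
      · exact hT
      · exact h5.1
      · exact h5.1
      · exact h5.1
      · exact h5.1
  · refine L.coatom (Set.toFinite _) hT trios_invariant (fun y hy => M24_trio_trans hT hy) sz_TT (I := {192, 128, 96, 80, 72})
      (size := fun i => if i = 192 then 1 else if i = 128 then 42 else if i = 96 then 56 else if i = 80 then 1008 else 2688)
      (by decide) ?_ ?_ ?_ ?_
    · intro i hi
      simp only [Finset.mem_insert, Finset.mem_singleton] at hi
      rcases hi with rfl | rfl | rfl | rfl | rfl <;> decide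
    · rw [hself]; rfl
    · exact ⟨X₁, h1, by
        rintro rfl
        rw [hself] at l1
        norm_num at l1⟩
    · rw [hself]
      decide +kernel

/-- S5610. -/
theorem octad_trio_sextet_orbits (o : Finset GolayPt) (ho : o ∈ octads) :
    (∃ X₁ ∈ trios, ∃ X₂ ∈ trios, ∃ X₃ ∈ trios,
      (MulAction.orbit ↥(MulAction.stabilizer M24 o) X₁).ncard = 15 ∧
      (MulAction.orbit ↥(MulAction.stabilizer M24 o) X₂).ncard = 420 ∧
      (MulAction.orbit ↥(MulAction.stabilizer M24 o) X₃).ncard = 3360 ∧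
      trios = MulAction.orbit ↥(MulAction.stabilizer M24 o) X₁ ∪
        MulAction.orbit ↥(MulAction.stabilizer M24 o) X₂ ∪ MulAction.orbit ↥(MulAction.stabilizer M24 o) X₃) ∧
    (∃ Y₁ ∈ sextets, ∃ Y₂ ∈ sextets, ∃ Y₃ ∈ sextets,
      (MulAction.orbit ↥(MulAction.stabilizer M24 o) Y₁).ncard = 35 ∧
      (MulAction.orbit ↥(MulAction.stabilizer M24 o) Y₂).ncard = 840 ∧
      (MulAction.orbit ↥(MulAction.stabilizer M24 o) Y₃).ncard = 896 ∧
      sextets = MulAction.orbit ↥(MulAction.stabilizer M24 o) Y₁ ∪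
        MulAction.orbit ↥(MulAction.stabilizer M24 o) Y₂ ∪ MulAction.orbit ↥(MulAction.stabilizer M24 o) Y₃) := by
  constructor
  · exact (lv_OT ho).three_orbits trios_invariant sqF_smul (stab_sing · o) sz_OT (by norm_num) (by norm_num) (by norm_num)
  · exact (lv_OS ho).three_orbits sextets_invariant sqF_smul (stab_sing · o) sz_OS (by norm_num) (by norm_num) (by norm_num)

/-- S5611. -/
theorem sextet_octad_trio_orbits (S : Finset (Finset GolayPt)) (hS : S ∈ sextets) :
    (∃ X₁ ∈ octads, ∃ X₂ ∈ octads, ∃ X₃ ∈ octads,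
      (MulAction.orbit ↥(MulAction.stabilizer M24 S) X₁).ncard = 15 ∧
      (MulAction.orbit ↥(MulAction.stabilizer M24 S) X₂).ncard = 360 ∧
      (MulAction.orbit ↥(MulAction.stabilizer M24 S) X₃).ncard = 384 ∧
      octads = MulAction.orbit ↥(MulAction.stabilizer M24 S) X₁ ∪
        MulAction.orbit ↥(MulAction.stabilizer M24 S) X₂ ∪ MulAction.orbit ↥(MulAction.stabilizer M24 S) X₃) ∧
    (∃ Y₁ ∈ trios, ∃ Y₂ ∈ trios, ∃ Y₃ ∈ trios, ∃ Y₄ ∈ trios,
      (MulAction.orbit ↥(MulAction.stabilizer M24 S) Y₁).ncard = 15 ∧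
      (MulAction.orbit ↥(MulAction.stabilizer M24 S) Y₂).ncard = 180 ∧
      (MulAction.orbit ↥(MulAction.stabilizer M24 S) Y₃).ncard = 720 ∧
      (MulAction.orbit ↥(MulAction.stabilizer M24 S) Y₄).ncard = 2880 ∧
      trios = MulAction.orbit ↥(MulAction.stabilizer M24 S) Y₁ ∪
        MulAction.orbit ↥(MulAction.stabilizer M24 S) Y₂ ∪ MulAction.orbit ↥(MulAction.stabilizer M24 S) Y₃ ∪
        MulAction.orbit ↥(MulAction.stabilizer M24 S) Y₄) := by
  constructor
  · exact (lv_SO hS).three_orbits octads_invariant sqO_smul (fun _ => Iff.rfl) sz_SO (by norm_num) (by norm_num) (by norm_num)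
  · exact (lv_ST hS).four_orbits trios_invariant sqF_smul (fun _ => Iff.rfl) sz_ST (by norm_num) (by norm_num) (by norm_num) (by norm_num)

/-- S5612. -/
theorem trio_octad_sextet_orbits (T : Finset (Finset GolayPt)) (hT : T ∈ trios) :
    (∃ X₁ ∈ octads, ∃ X₂ ∈ octads, ∃ X₃ ∈ octads,
      (MulAction.orbit ↥(MulAction.stabilizer M24 T) X₁).ncard = 3 ∧
      (MulAction.orbit ↥(MulAction.stabilizer M24 T) X₂).ncard = 84 ∧
      (MulAction.orbit ↥(MulAction.stabilizer M24 T) X₃).ncard = 672 ∧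
      octads = MulAction.orbit ↥(MulAction.stabilizer M24 T) X₁ ∪
        MulAction.orbit ↥(MulAction.stabilizer M24 T) X₂ ∪ MulAction.orbit ↥(MulAction.stabilizer M24 T) X₃) ∧
    (∃ Y₁ ∈ sextets, ∃ Y₂ ∈ sextets, ∃ Y₃ ∈ sextets, ∃ Y₄ ∈ sextets,
      (MulAction.orbit ↥(MulAction.stabilizer M24 T) Y₁).ncard = 7 ∧
      (MulAction.orbit ↥(MulAction.stabilizer M24 T) Y₂).ncard = 84 ∧
      (MulAction.orbit ↥(MulAction.stabilizer M24 T) Y₃).ncard = 336 ∧
      (MulAction.orbit ↥(MulAction.stabilizer M24 T) Y₄).ncard = 1344 ∧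
      sextets = MulAction.orbit ↥(MulAction.stabilizer M24 T) Y₁ ∪
        MulAction.orbit ↥(MulAction.stabilizer M24 T) Y₂ ∪ MulAction.orbit ↥(MulAction.stabilizer M24 T) Y₃ ∪
        MulAction.orbit ↥(MulAction.stabilizer M24 T) Y₄) := by
  constructor
  · exact (lv_TO hT).three_orbits octads_invariant sqO_smul (fun _ => Iff.rfl) sz_TO (by norm_num) (by norm_num) (by norm_num)
  · exact (lv_TS hT).four_orbits sextets_invariant sqF_smul (fun _ => Iff.rfl) sz_TS (by norm_num) (by norm_num) (by norm_num) (by norm_num)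

end CfsgLib.Golay
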