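/-
Orbit statements: pairs of octads, dodecad pairs on sextets, triads on sextets.
-/
import Cfsg.Agent.Lib.Golay.FamChk2
import Cfsg.Agent.Lib.Golay.DodPair

set_option autoImplicit false

namespace CfsgLib.Golay

open Cfsg
open scoped Pointwise

/-- The joint stabiliser of two octads. -/
theorem card_stab_two_octads_aux {o o' : Finset GolayPt} (ho : o ∈ octads) (ho' : o' ∈ octads) :
    322560 = (octadList.filter (fun c => Nat.beq (pop (octO &&& c)) (o ∩ o').card)).length *
      Nat.card ↥(MulAction.stabilizer M24 o ⊓ MulAction.stabilizer M24 o') := by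
  have h1 := card_set_step (MulAction.stabilizer M24 o) o'
    {x : Finset GolayPt | x ∈ octads ∧ (o ∩ x).card = (o ∩ o').card}
    (by
      intro g hg
      refine ⟨M24_smul_octad g.2 ho', ?_⟩
      have h2 : (g : Equiv.Perm GolayPt) • o = o := hg
      change (o ∩ (g : Equiv.Perm GolayPt) • o').card = _
      conv_lhs => rw [← h2]
      rw [card_smul_inter])
    (by
      rintro y ⟨hy, hc⟩
      obtain ⟨g, hg, h2⟩ := oct_orbit ho ho' hy hc.symm
      obtain ⟨h3, h4⟩ := mem_stabS.mp hg
      exact ⟨⟨g, h3⟩, h4, h2⟩)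
  rw [count_oct_oct ho, card_stabilizer_M24, card_stabS_octad ho] at h1
  exact h1

/-- S5613. -/
theorem card_stab_two_octads (o o' : Finset GolayPt) (ho : o ∈ octads) (ho' : o' ∈ octads) :
    ((o ∩ o').card = 0 → Nat.card ↥(MulAction.stabilizer M24 o ⊓ MulAction.stabilizer M24 o') = 10752) ∧
    ((o ∩ o').card = 4 → Nat.card ↥(MulAction.stabilizer M24 o ⊓ MulAction.stabilizer M24 o') = 1152) ∧
    ((o ∩ o').card = 2 → Nat.card ↥(MulAction.stabilizer M24 o ⊓ MulAction.stabilizer M24 o') = 720) := by
  have h := card_stab_two_octads_aux ho ho'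
  refine ⟨fun h0 => ?_, fun h0 => ?_, fun h0 => ?_⟩
  · rw [h0] at h
    have h2 : (octadList.filter (fun c => Nat.beq (pop (octO &&& c)) 0)).length = 30 := by decide +kernel
    rw [h2] at h
    omega
  · rw [h0] at h
    have h2 : (octadList.filter (fun c => Nat.beq (pop (octO &&& c)) 4)).length = 280 := by decide +kernel
    rw [h2] at h
    omega
  · rw [h0] at h
    have h2 : (octadList.filter (fun c => Nat.beq (pop (octO &&& c)) 2)).length = 448 := by decide +kernel
    rw [h2] at h
    omega

/-- The base family of a complementary pair of dodecads. -/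
theorem famDec_dp0 : famDec 2 dp0 = {Dd0, Dd0ᶜ} := by
  have h1 : unp 2 dp0 = [dod0, dodC] := by decide +kernel
  unfold famDec
  rw [h1]
  simp only [List.map_cons, List.map_nil, List.toFinset_cons, List.toFinset_nil, insert_empty_eq]
  rw [fs_dodC]

theorem lv_DS {d : Finset GolayPt} (hd : d ∈ dodecads) :
    FamLevels sextets sqF ({d, Finset.univ \ d} : Finset (Finset GolayPt)) (sqTab 2 dp0 6 sextKeys) := by
  obtain ⟨u, hu, rfl⟩ := exists_conj_Dd0 hd
  have := famMasterSq dp0_ok sextKeys_ok sextets_invariant sextets_eq chk_gD chk_DS hu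
  rw [famDec_dp0, pair_smul, compl_smul] at this
  rwa [Finset.compl_eq_univ_sdiff] at this

/-- S5617. -/
theorem dod_pair_sextet_orbits (d : Finset GolayPt) (hd : d ∈ dodecads) :
    ∃ X₁ ∈ sextets, ∃ X₂ ∈ sextets, ∃ X₃ ∈ sextets,
      (MulAction.orbit ↥(MulAction.stabilizer M24 ({d, Finset.univ \ d} : Finset (Finset GolayPt))) X₁).ncard = 396 ∧
      (MulAction.orbit ↥(MulAction.stabilizer M24 ({d, Finset.univ \ d} : Finset (Finset GolayPt))) X₂).ncard = 495 ∧
      (MulAction.orbit ↥(MulAction.stabilizer M24 ({d, Finset.univ \ d} : Finset (Finset GolayPt))) X₃).ncard = 880 ∧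
      sextets = MulAction.orbit ↥(MulAction.stabilizer M24 ({d, Finset.univ \ d} : Finset (Finset GolayPt))) X₁ ∪
        MulAction.orbit ↥(MulAction.stabilizer M24 ({d, Finset.univ \ d} : Finset (Finset GolayPt))) X₂ ∪
        MulAction.orbit ↥(MulAction.stabilizer M24 ({d, Finset.univ \ d} : Finset (Finset GolayPt))) X₃ :=
  (lv_DS hd).three_orbits sextets_invariant sqF_smul (fun _ => Iff.rfl) sz_DS (by norm_num) (by norm_num) (by norm_num)

/-! ### Triads against sextets -/

/-- The number of tetrads of a family meeting a set. -/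
def levMeet (Y : Finset GolayPt) (S : Finset (Finset GolayPt)) : ℕ :=
  (S.filter (fun t => (t ∩ Y).Nonempty)).card

theorem levMeet_smul (g : Equiv.Perm GolayPt) (Y : Finset GolayPt) (S : Finset (Finset GolayPt)) :
    levMeet (g • Y) (g • S) = levMeet Y S := by
  classical
  unfold levMeet
  rw [Finset.card_filter, Finset.card_filter, sum_smul_finset]
  refine Finset.sum_congr rfl fun t _ => ?_
  rw [← Finset.smul_finset_inter]
  simp only [Finset.smul_finset_nonempty]

theorem levMeet_famDec {n k : ℕ} (h : famOK n k = true) (m : ℕ) :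
    levMeet (fs m) (famDec n k) = meetL m (unp n k) := by
  classical
  unfold levMeet meetL famDec
  rw [Finset.card_filter, sum_toFinset_map_fs _ (unp_lt _ _) (famOK_nodup h)]
  congr 1
  apply List.map_congr_left
  intro a _
  by_cases h0 : pop (Nat.land a m) = 0
  · have h1 : (fs a ∩ fs m) = ∅ := by
      rw [← Finset.card_eq_zero, card_inter_fs]
      exact h0
    rw [h1, h0]
    simp
  · have h1 : (fs a ∩ fs m).Nonempty := by
      rw [← Finset.card_pos, card_inter_fs]
      exact Nat.pos_of_ne_zero h0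
    rw [if_pos h1, if_neg]
    intro h2
    exact h0 (Nat.eq_of_beq_eq_true h2)

theorem lv_3S {Y : Finset GolayPt} (hY : Y.card = 3) :
    FamLevels (Z := Finset GolayPt) sextets levMeet Y tab3S := by
  have h7 : (fs 7).card = 3 := by decide +kernel
  obtain ⟨u, hu, rfl⟩ := small_set_trans (by norm_num) h7 hY
  refine famMaster (dec := famDec 6) (act := famAct 6) (fun c k hv => famDec_act 6 c k hv) sextets_invariant
    ?_ ?_ ?_ levMeet_smul ?_ ?_ chk_3S hu
  · rw [sextets_eq]
    ext y
    simp [tab3S]
  · intro e he e' he' h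
    obtain ⟨k, hk, rfl⟩ := List.mem_map.mp he
    obtain ⟨k', hk', rfl⟩ := List.mem_map.mp he'
    exact famDec_inj (keysOK_famOK sextKeys_ok hk) (keysOK_famOK sextKeys_ok hk') h
  · have : tab3S.map Prod.fst = sextKeys := by
      simp [tab3S, List.map_map, Function.comp_def]
    rw [this]
    exact keysOK_nodup sextKeys_ok
  · intro e he
    obtain ⟨k, hk, rfl⟩ := List.mem_map.mp he
    exact levMeet_famDec (keysOK_famOK sextKeys_ok hk) 7
  · intro c hc
    have h1 := List.all_eq_true.mp chk_g3 c hc
    simp only [Bool.and_eq_true] at h1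
    refine ⟨h1.1, ?_⟩
    rw [← fs_img (isAut_valid h1.1), Nat.eq_of_beq_eq_true h1.2]

/-- S5616. -/
theorem triad_sextet_orbits (Y : Finset GolayPt) (hY : Y.card = 3) :
    {S : Finset (Finset GolayPt) | S ∈ sextets ∧ (S.filter fun t => (t ∩ Y).Nonempty).card = 1}.ncard = 21 ∧
    {S : Finset (Finset GolayPt) | S ∈ sextets ∧ (S.filter fun t => (t ∩ Y).Nonempty).card = 2}.ncard = 630 ∧
    {S : Finset (Finset GolayPt) | S ∈ sextets ∧ (S.filter fun t => (t ∩ Y).Nonempty).card = 3}.ncard = 1120 ∧
    ∀ S S' : Finset (Finset GolayPt), S ∈ sextets → S' ∈ sextets →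
      (S.filter fun t => (t ∩ Y).Nonempty).card = (S'.filter fun t => (t ∩ Y).Nonempty).card →
      ∃ g ∈ M24, g • Y = Y ∧ g • S = S' := by
  have L := lv_3S hY
  refine ⟨?_, ?_, ?_, ?_⟩
  · have := L.count 1
    rw [famSizes_len (i := 1) (n := 21) sz_3S (by simp)] at this
    exact this
  · have := L.count 2
    rw [famSizes_len (i := 2) (n := 630) sz_3S (by simp)] at this
    exact this
  · have := L.count 3
    rw [famSizes_len (i := 3) (n := 1120) sz_3S (by simp)] at this
    exact this
  · intro S S' hS hS' h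
    exact L.same S hS S' hS' h

end CfsgLib.Golay
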