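/-
Coset leaders of the binary Golay code and the punctured code.
-/
import Mathlib
import Cfsg.Agent.Lib.Golay.Sextet

set_option autoImplicit false

namespace CfsgLib.Golay

open Cfsg

theorem xor_lt24 {a b : ℕ} (ha : a < 2 ^ 24) (hb : b < 2 ^ 24) : a ^^^ b < 2 ^ 24 := Nat.xor_lt_two_pow ha hb

theorem lt_of_mem_allCode {c : ℕ} (hc : c ∈ allCode) : c < 2 ^ 24 := allCode_lt_aux c hc

theorem pop_xor_le (a c : ℕ) : pop (a ^^^ c) ≤ pop a + pop c := by
  have := pop_xor_add a c
  omega

theorem word_mem_iff {a : ℕ} (ha : a < 2 ^ 24) : word a ∈ golayCode ↔ a ∈ allCode := by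
  constructor
  · intro h
    obtain ⟨c, hc, hac⟩ := (mem_golayCode_iff _).1 h
    have h1 : fs a = fs c := by
      rw [← support_word, ← support_word, hac]
    rw [eq_of_fs_eq ha (lt_of_mem_allCode hc) h1]
    exact hc
  · exact word_mem_golayCode

/-- Every word is at distance at most 4 of the code. -/
theorem exists_leader : ∀ (n m : ℕ), pop m = n → m < 2 ^ 24 → ∃ v, v < 2 ^ 24 ∧ pop v ≤ 4 ∧ m ^^^ v ∈ allCode := by
  intro n
  induction n using Nat.strong_induction_on with
  | _ n ih =>
    intro m hm hlt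
    by_cases h4 : pop m ≤ 4
    · refine ⟨m, hlt, h4, ?_⟩
      rw [Nat.xor_self]; exact zero_mem_allCode
    · have hcard : 5 ≤ (fs m).card := by rw [card_fs]; omega
      obtain ⟨s, hs, hs5⟩ := Finset.exists_subset_card_eq hcard
      obtain ⟨o, ⟨ho, hso⟩, -⟩ := octads_steiner.2 s hs5
      obtain ⟨c, hc, hc8, rfl⟩ := (mem_octads_iff o).1 ho
      have h1 := pop_xor_add m c
      have h2 : 5 ≤ pop (m &&& c) := by
        rw [← card_fs, fs_land, ← hs5]
        exact Finset.card_le_card (Finset.subset_inter hs hso)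
      obtain ⟨v, hv, hv4, hx⟩ := ih (pop (m ^^^ c)) (by omega) (m ^^^ c) rfl
        (xor_lt24 hlt (lt_of_mem_allCode hc))
      refine ⟨v, hv, hv4, ?_⟩
      have h3 := xor_mem_allCode hx hc
      have h4 : m ^^^ c ^^^ v ^^^ c = m ^^^ v := by
        rw [Nat.xor_assoc, Nat.xor_assoc, Nat.xor_comm v c, ← Nat.xor_assoc c, Nat.xor_self, Nat.zero_xor]
      rwa [h4] at h3

theorem xor_cancel_left (a b : ℕ) : a ^^^ (a ^^^ b) = b := by
  rw [← Nat.xor_assoc, Nat.xor_self, Nat.zero_xor]

theorem xor_xor_xor (m a b : ℕ) : (m ^^^ a) ^^^ (m ^^^ b) = a ^^^ b := by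
  rw [Nat.xor_assoc, Nat.xor_comm a, Nat.xor_assoc, xor_cancel_left, Nat.xor_comm]

/-- A word of small weight in the code is zero. -/
theorem code_small {c : ℕ} (hc : c ∈ allCode) (h : pop c ≤ 7) : c = 0 := by
  have h1 := weight_cases c hc
  have h2 : pop c = 0 := by omega
  have h3 : fs c = fs 0 := by
    rw [fs_zero, ← Finset.card_eq_zero, card_fs, h2]
  exact eq_of_fs_eq (lt_of_mem_allCode hc) (by norm_num) h3

theorem sub_eq_add₂ (w v : GolayPt → ZMod 2) : w - v = w + v := by
  ext i
  have : ∀ a b : ZMod 2, a - b = a + b := by decide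
  exact this _ _

theorem xor_eq_zero' {a b : ℕ} (h : a ^^^ b = 0) : a = b := by
  exact Nat.eq_of_testBit_eq fun i => by
    have := congrArg (fun t => t.testBit i) h
    simp only [Nat.testBit_xor, Nat.zero_testBit] at this
    cases h1 : a.testBit i <;> cases h2 : b.testBit i <;> simp_all

/-- Coset structure: the statement on leaders. -/
theorem coset_leaders (w : GolayPt → ZMod 2) :
    ({v : GolayPt → ZMod 2 | hammingNorm v ≤ 4 ∧ w - v ∈ golayCode}.ncard = 1 ∧
      ∃ v : GolayPt → ZMod 2, hammingNorm v ≤ 3 ∧ w - v ∈ golayCode) ∨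
    ({v : GolayPt → ZMod 2 | hammingNorm v ≤ 4 ∧ w - v ∈ golayCode}.ncard = 6 ∧
      ∀ v : GolayPt → ZMod 2, w - v ∈ golayCode → hammingNorm v ≤ 4 → hammingNorm v = 4) := by
  classical
  set m := mask (support₂ w) with hm
  have hmlt : m < 2 ^ 24 := mask_lt _
  have hw : w = word m := (word_support_eq w).symm
  obtain ⟨v₀, hv₀, hv₀4, hcode⟩ := exists_leader _ m rfl hmlt
  -- translation of membership
  have htr : ∀ v : GolayPt → ZMod 2, w - v ∈ golayCode ↔ m ^^^ mask (support₂ v) ∈ allCode := by
    intro v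
    rw [sub_eq_add₂]
    conv_lhs => rw [hw, ← word_support_eq v, ← word_xor]
    exact word_mem_iff (xor_lt24 hmlt (mask_lt _))
  have hnorm : ∀ v : GolayPt → ZMod 2, hammingNorm v = pop (mask (support₂ v)) := by
    intro v
    rw [← card_fs, fs_mask]; rfl
  have hxcode : ∀ v : GolayPt → ZMod 2, w - v ∈ golayCode → mask (support₂ v) ^^^ v₀ ∈ allCode := by
    intro v hv
    have h1 := (htr v).1 hv
    have h2 := xor_mem_allCode h1 hcode
    rwa [xor_xor_xor] at h2
  by_cases h3 : pop v₀ ≤ 3
  · left
    have huniq : ∀ v : GolayPt → ZMod 2, hammingNorm v ≤ 4 → w - v ∈ golayCode → v = word v₀ := by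
      intro v hv4 hv
      have h1 := hxcode v hv
      have h2 := pop_xor_le (mask (support₂ v)) v₀
      rw [hnorm] at hv4
      have h4 := code_small h1 (by omega)
      have h5 := xor_eq_zero' h4
      rw [← h5, word_support_eq]
    have hmem : word v₀ - word v₀ = 0 := sub_self _
    have hv0mem : w - word v₀ ∈ golayCode := by
      rw [sub_eq_add₂, hw, ← word_xor]
      exact word_mem_golayCode hcode
    refine ⟨?_, word v₀, ?_, hv0mem⟩
    · rw [Set.ncard_eq_one]
      refine ⟨word v₀, ?_⟩
      ext v
      simp only [Set.mem_ofPred_eq, Set.mem_singleton_iff]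
      constructor
      · rintro ⟨h1, h2⟩
        exact huniq v h1 h2
      · rintro rfl
        refine ⟨?_, hv0mem⟩
        rw [hammingNorm_word]; omega
    · rw [hammingNorm_word]; exact h3
  · right
    have hv4 : pop v₀ = 4 := by omega
    set T := fs v₀ with hT
    have hTc : T.card = 4 := by rw [hT, card_fs, hv4]
    have hv₀T : mask T = v₀ := mask_fs hv₀
    have hset : {v : GolayPt → ZMod 2 | hammingNorm v ≤ 4 ∧ w - v ∈ golayCode} =
        (fun t => word (mask t)) '' (sextOf T : Set (Finset GolayPt)) := by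
      ext v
      simp only [Set.mem_ofPred_eq, Set.mem_image, Finset.mem_coe]
      constructor
      · rintro ⟨h1, h2⟩
        have h4 := hxcode v h2
        have h5 := pop_xor_add (mask (support₂ v)) v₀
        rw [hnorm] at h1
        refine ⟨support₂ v, ?_, word_support_eq v⟩
        rw [mem_sextOf]
        rcases weight_cases _ h4 with h6 | h6 | h6 | h6 | h6
        · left
          have h7 : fs (mask (support₂ v) ^^^ v₀) = fs 0 := by
            rw [fs_zero, ← Finset.card_eq_zero, card_fs, h6]
          have h8 := eq_of_fs_eq (xor_lt24 (mask_lt _) hv₀) (by norm_num) h7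
          have h9 := xor_eq_zero' h8
          rw [← fs_mask (support₂ v), h9]
        · right
          have h7 : pop (mask (support₂ v) &&& v₀) = 0 := by omega
          have hdisj : Disjoint (support₂ v) T := by
            rw [Finset.disjoint_iff_inter_eq_empty, ← Finset.card_eq_zero]
            rw [hT]
            have h8 : (fs (mask (support₂ v)) ∩ fs v₀).card = 0 := by
              rw [← fs_land, card_fs, h7]
            rwa [fs_mask] at h8
          have hfs : fs (mask (support₂ v) ^^^ v₀) = support₂ v ∪ T := by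
            rw [fs_xor, fs_mask, ← hT, hdisj.symmDiff_eq_sup, Finset.sup_eq_union]
          refine ⟨support₂ v ∪ T, ?_, Finset.subset_union_right, ?_⟩
          · rw [← hfs]
            exact (mem_octads_iff _).2 ⟨_, h4, h6, rfl⟩
          · rw [Finset.union_sdiff_right, Finset.sdiff_eq_self_of_disjoint hdisj]
        · omega
        · omega
        · omega
      · rintro ⟨t, ht, rfl⟩
        have hcode2 : ∀ t : Finset GolayPt, mask t ^^^ v₀ ∈ allCode → w - word (mask t) ∈ golayCode := by
          intro t ht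
          rw [sub_eq_add₂, hw, ← word_xor]
          apply word_mem_golayCode
          have h3 := xor_mem_allCode hcode (by rw [Nat.xor_comm]; exact ht : v₀ ^^^ mask t ∈ allCode)
          have h4 : (m ^^^ v₀) ^^^ (v₀ ^^^ mask t) = m ^^^ mask t := by
            rw [Nat.xor_assoc, xor_cancel_left]
          rwa [h4] at h3
        rcases mem_sextOf.1 ht with rfl | ⟨o, ho, hTo, rfl⟩
        · refine ⟨?_, hcode2 _ ?_⟩
          · rw [hammingNorm_word, hv₀T, hv4]
          · rw [hv₀T, Nat.xor_self]; exact zero_mem_allCode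
        · obtain ⟨c, hc, hc8, rfl⟩ := (mem_octads_iff o).1 ho
          refine ⟨?_, hcode2 _ ?_⟩
          · rw [hammingNorm_word, ← card_fs, fs_mask, card_sdiff_octad hTc ho hTo]
          · have h1 : fs (mask (fs c \ T) ^^^ v₀) = fs c := by
              rw [fs_xor, fs_mask, ← hT]
              have hd : Disjoint (fs c \ T) T := Finset.sdiff_disjoint
              rw [hd.symmDiff_eq_sup, Finset.sup_eq_union, Finset.sdiff_union_of_subset hTo]
            have h2 : mask (fs c \ T) ^^^ v₀ = c :=
              eq_of_fs_eq (xor_lt24 (mask_lt _) hv₀) (lt_of_mem_allCode hc) h1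
            rw [h2]; exact hc
    refine ⟨?_, ?_⟩
    · rw [hset, Set.ncard_image_of_injOn, Set.ncard_coe_finset, card_sextOf hTc]
      intro t _ t' _ h
      have h1 := congrArg support₂ h
      simp only [support_word, fs_mask] at h1
      exact h1
    · intro v hv hv2
      by_contra hne
      have h1 := hxcode v hv
      have h2 := pop_xor_le (mask (support₂ v)) v₀
      rw [hnorm] at hv2 hne
      have h4 := code_small h1 (by omega)
      have h5 := xor_eq_zero' h4
      rw [h5] at hne
      exact hne hv4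

/-! ### The punctured code -/

/-- Puncturing at the extra point. -/
def punct (c : ℕ) : ZMod 23 → ZMod 2 := fun x => word c (some x)

def lowMask : ℕ := 0x7fffff

theorem punct_xor (a b : ℕ) : punct (a ^^^ b) = punct a + punct b := by
  ext x
  simp only [punct, word_xor, Pi.add_apply]

theorem fs_low (a : ℕ) : fs (a &&& lowMask) = fs a \ {none} := by
  ext p
  simp only [mem_fs, Nat.testBit_and, Finset.mem_sdiff, Finset.mem_singleton, Bool.and_eq_true]
  constructor
  · rintro ⟨h1, h2⟩
    refine ⟨h1, ?_⟩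
    rintro rfl
    revert h2
    simp only [idx]
    decide
  · rintro ⟨h1, h2⟩
    refine ⟨h1, ?_⟩
    cases p with
    | none => exact absurd rfl h2
    | some x =>
      simp only [idx]
      have : ∀ y : Fin 23, lowMask.testBit y.val = true := by decide
      exact this x

theorem hammingNorm_punct (c : ℕ) : hammingNorm (punct c) = pop (c &&& lowMask) := by
  classical
  rw [← card_fs, fs_low]
  unfold hammingNorm
  rw [← Finset.card_map (Function.Embedding.some)]
  congr 1
  ext p
  simp only [Finset.mem_map, Finset.mem_filter, Finset.mem_univ, true_and, Function.Embedding.some_apply,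
    Finset.mem_sdiff, Finset.mem_singleton, mem_fs, punct, word_apply]
  constructor
  · rintro ⟨x, hx, rfl⟩
    refine ⟨?_, by simp⟩
    by_contra h
    simp [h] at hx
  · rintro ⟨h1, h2⟩
    cases p with
    | none => exact absurd rfl h2
    | some x =>
      refine ⟨x, ?_, rfl⟩
      simp [h1]

theorem punct_set_eq : {u : ZMod 23 → ZMod 2 | ∃ w ∈ golayCode, ∀ x : ZMod 23, u x = w (some x)} = punct '' {c | c ∈ allCode} := by
  ext u
  simp only [Set.mem_ofPred_eq, Set.mem_image]
  constructor
  · rintro ⟨w, hw, hu⟩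
    obtain ⟨c, hc, rfl⟩ := (mem_golayCode_iff w).1 hw
    refine ⟨c, hc, ?_⟩
    ext x
    exact (hu x).symm
  · rintro ⟨c, hc, rfl⟩
    exact ⟨word c, word_mem_golayCode hc, fun _ => rfl⟩

theorem low_pos : ∀ c ∈ allCode, c = 0 ∨ 7 ≤ pop (c &&& lowMask) := by
  have : (allCode.all fun c => Nat.beq c 0 || Nat.ble 7 (pop (c &&& lowMask))) = true := by decide +kernel
  intro c hc
  have h1 := List.all_eq_true.1 this c hc
  rw [Bool.or_eq_true] at h1
  rcases h1 with h1 | h1
  · left; exact Nat.eq_of_beq_eq_true h1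
  · right; exact Nat.le_of_ble_eq_true h1

theorem punct_zero : punct 0 = 0 := by
  ext x
  simp [punct, word_zero]

theorem punct_injOn : Set.InjOn punct {c | c ∈ allCode} := by
  intro a ha b hb h
  have hx : punct (a ^^^ b) = 0 := by
    rw [punct_xor, h]
    ext x
    have : ∀ t : ZMod 2, t + t = 0 := by decide
    exact this _
  have h1 := xor_mem_allCode ha hb
  have h2 : pop ((a ^^^ b) &&& lowMask) = 0 := by
    rw [← hammingNorm_punct, hx]; simp
  rcases low_pos _ h1 with h3 | h3
  · exact xor_eq_zero' h3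
  · omega

theorem ncard_punct_list (l : List ℕ) (hl : ∀ c ∈ l, c ∈ allCode) (hn : l.Nodup) :
    (punct '' {c | c ∈ l}).ncard = l.length := by
  classical
  have hinj : Set.InjOn punct {c | c ∈ l} := punct_injOn.mono hl
  rw [Set.ncard_image_of_injOn hinj]
  have : {c | c ∈ l} = ((l.toFinset : Finset ℕ) : Set ℕ) := by
    ext c; simp
  rw [this, Set.ncard_coe_finset, List.toFinset_card_of_nodup hn]

theorem punct_weight_count (i : ℕ) :
    {u : ZMod 23 → ZMod 2 | u ∈ {u : ZMod 23 → ZMod 2 | ∃ w ∈ golayCode, ∀ x : ZMod 23, u x = w (some x)} ∧ hammingNorm u = i}.ncard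
      = (allCode.filter (fun c => Nat.beq (pop (c &&& lowMask)) i)).length := by
  rw [← ncard_punct_list _ (fun c hc => List.mem_of_mem_filter hc) (allCode_nodup.filter _), punct_set_eq]
  congr 1
  ext u
  simp only [Set.mem_ofPred_eq, Set.mem_image, List.mem_filter]
  constructor
  · rintro ⟨⟨c, hc, rfl⟩, h⟩
    refine ⟨c, ⟨hc, ?_⟩, rfl⟩
    rw [← hammingNorm_punct, h]
    exact Nat.beq_refl i
  · rintro ⟨c, ⟨hc, h⟩, rfl⟩
    refine ⟨⟨c, hc, rfl⟩, ?_⟩
    rw [hammingNorm_punct]
    exact Nat.eq_of_beq_eq_true h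

end CfsgLib.Golay
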