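/-
The permutation module of the code's group on binary words: the action, the invariant subspaces
between the all-ones word and the code, and the action on the quotient by the code.
-/
import Cfsg.Agent.Lib.Golay.Leader
import Cfsg.Agent.Lib.Golay.Dodecad2
import Cfsg.Agent.Lib.Golay.Trans

set_option autoImplicit false
set_option maxRecDepth 100000

namespace CfsgLib.Golay

open Cfsg
open scoped Pointwise

/-- The action on words. -/
def actW (σ : Equiv.Perm GolayPt) (w : GolayPt → ZMod 2) : GolayPt → ZMod 2 := fun p => w (σ.symm p)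

theorem word_mask_fs (a : ℕ) : word (mask (fs a)) = word a := by
  rw [← support_word, word_support_eq]

theorem actW_word (σ : Equiv.Perm GolayPt) (m : ℕ) : actW σ (word m) = word (mask (σ • fs m)) := by
  ext p
  have h1 : (mask (σ • fs m)).testBit (idx p) = true ↔ p ∈ σ • fs m := by
    rw [← mem_fs, fs_mask]
  have h2 : p ∈ σ • fs m ↔ σ⁻¹ • p ∈ fs m := Finset.inv_smul_mem_iff.symm
  have h3 : σ⁻¹ • p ∈ fs m ↔ m.testBit (idx (σ.symm p)) = true := by
    rw [mem_fs]; rfl
  simp only [actW, word_apply]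
  by_cases h : m.testBit (idx (σ.symm p)) = true
  · rw [if_pos h, if_pos (h1.mpr (h2.mpr (h3.mpr h)))]
  · rw [if_neg h, if_neg (fun h' => h (h3.mp (h2.mp (h1.mp h'))))]

theorem actW_mk {c : ℕ} (hv : valid c = true) (m : ℕ) : actW (mk c) (word m) = word (img c m) := by
  rw [actW_word, ← fs_img hv, word_mask_fs]

theorem actW_add (σ : Equiv.Perm GolayPt) (a b : GolayPt → ZMod 2) :
    actW σ (a + b) = actW σ a + actW σ b := rfl

theorem actW_mul (σ τ : Equiv.Perm GolayPt) (w : GolayPt → ZMod 2) :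
    actW (σ * τ) w = actW σ (actW τ w) := rfl

theorem actW_one (w : GolayPt → ZMod 2) : actW 1 w = w := rfl

theorem actW_inv_act (σ : Equiv.Perm GolayPt) (w : GolayPt → ZMod 2) : actW σ⁻¹ (actW σ w) = w := by
  rw [← actW_mul, inv_mul_cancel, actW_one]

theorem actW_mem_code {σ : Equiv.Perm GolayPt} (hσ : σ ∈ M24) {w : GolayPt → ZMod 2} (hw : w ∈ golayCode) :
    actW σ w ∈ golayCode := by
  obtain ⟨c, hc, rfl⟩ := (mem_golayCode_iff w).1 hw
  rw [actW_word]
  exact word_mem_golayCode ((mask_mem_allCode_iff _).1 (M24_smul_mem hσ (fs_mem_supports hc)))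

theorem actW_mem_code_iff {σ : Equiv.Perm GolayPt} (hσ : σ ∈ M24) {w : GolayPt → ZMod 2} :
    actW σ w ∈ golayCode ↔ w ∈ golayCode :=
  ⟨fun h => by
    have := actW_mem_code (M24.inv_mem hσ) h
    rwa [actW_inv_act] at this, actW_mem_code hσ⟩

theorem word_mem_submod_of_span {S : Submodule (ZMod 2) (GolayPt → ZMod 2)} {B : List ℕ}
    (hB : ∀ b ∈ B, word b ∈ S) {c : ℕ} (hc : c ∈ spanList B) : word c ∈ S := by
  induction B generalizing c with
  | nil =>
    simp only [spanList, List.mem_singleton] at hc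
    subst hc
    rw [word_zero]
    exact Submodule.zero_mem _
  | cons b B ih =>
    have hB' : ∀ x ∈ B, word x ∈ S := fun x hx => hB x (by simp [hx])
    rcases mem_spanList_cons.mp hc with h | ⟨d, hd, rfl⟩
    · exact ih hB' h
    · rw [word_xor]
      exact Submodule.add_mem _ (ih hB' hd) (hB b (by simp))

theorem basis_weight8 : basis.all (fun b => Nat.beq (pop b) 8 && isCode b) = true := by decide +kernel

theorem basis_mem_w8 {b : ℕ} (hb : b ∈ basis) : pop b = 8 ∧ b ∈ allCode := by
  have h := List.all_eq_true.mp basis_weight8 b hb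
  rw [Bool.and_eq_true] at h
  exact ⟨Nat.eq_of_beq_eq_true h.1, (isCode_iff b).1 h.2⟩

section Invariant

variable {W : Submodule (ZMod 2) (GolayPt → ZMod 2)}

theorem code_le_of_octad (hW : ∀ σ ∈ M24, ∀ w ∈ W, actW σ w ∈ W) {c : ℕ} (hc : c ∈ allCode)
    (h8 : pop c = 8) (hcW : word c ∈ W) : golayCode ≤ W := by
  have hall : ∀ d ∈ allCode, pop d = 8 → word d ∈ W := by
    intro d hd hd8
    obtain ⟨g, hg, hgd⟩ := M24_octad_trans ((mem_octads_iff _).2 ⟨c, hc, h8, rfl⟩)
      ((mem_octads_iff _).2 ⟨d, hd, hd8, rfl⟩)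
    have := hW g hg _ hcW
    rw [actW_word, hgd, word_mask_fs] at this
    exact this
  intro w hw
  obtain ⟨e, he, rfl⟩ := (mem_golayCode_iff w).1 hw
  exact word_mem_submod_of_span (fun b hb => hall b (basis_mem_w8 hb).2 (basis_mem_w8 hb).1) he

/-- A permutation of the code sending the base dodecad to one meeting it in eight points. -/
def tDod : ℕ := 265474779929526197753711446365344865

theorem isAut_tDod : isAut tDod = true := by decide +kernel

theorem dod_step : Nat.beq (pop (dod0 ^^^ img tDod dod0)) 8 = true ∧ isCode (dod0 ^^^ img tDod dod0) = true := by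
  constructor <;> decide +kernel

theorem code_le_of_dodecad (hW : ∀ σ ∈ M24, ∀ w ∈ W, actW σ w ∈ W) {c : ℕ} (hc : c ∈ allCode)
    (h12 : pop c = 12) (hcW : word c ∈ W) : golayCode ≤ W := by
  obtain ⟨k, hk, hkd⟩ := exists_conj_Dd0 ((mem_dodecads_iff _).2 ⟨c, hc, h12, rfl⟩)
  have h0 : word dod0 ∈ W := by
    have := hW k⁻¹ (M24.inv_mem hk) _ hcW
    rw [actW_word, ← hkd, inv_smul_smul, word_mask_fs] at this
    exact this
  have h1 : word (img tDod dod0) ∈ W := by
    have := hW _ (mk_mem_M24 isAut_tDod) _ h0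
    rwa [actW_mk (isAut_valid isAut_tDod)] at this
  have h2 : word (dod0 ^^^ img tDod dod0) ∈ W := by
    rw [word_xor]; exact W.add_mem h0 h1
  exact code_le_of_octad hW ((isCode_iff _).1 dod_step.2) (Nat.eq_of_beq_eq_true dod_step.1) h2

end Invariant

/-- The all-ones mask. -/
theorem full_mem : (0xffffff : ℕ) ∈ allCode := by
  rw [← isCode_iff]; decide +kernel

theorem fs_xor_full (c : ℕ) : fs (c ^^^ 0xffffff) = (fs c)ᶜ := by
  ext p
  have h : (0xffffff : ℕ).testBit (idx p) = true := by
    rw [← mem_fs, fs_full]; exact Finset.mem_univ _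
  rw [Finset.mem_compl, mem_fs, mem_fs, Nat.testBit_xor, h]
  simp

theorem pop16_allCode : allCode.all (fun c => !(Nat.beq (pop c) 16) || Nat.beq (pop (c ^^^ 0xffffff)) 8) = true := by
  decide +kernel

theorem pop24_allCode : allCode.all (fun c => !(Nat.beq (pop c) 24) || Nat.beq c 0xffffff) = true := by
  decide +kernel

theorem pop_xor_full_of_16 {c : ℕ} (hc : c ∈ allCode) (h : pop c = 16) : pop (c ^^^ 0xffffff) = 8 := by
  have h1 := List.all_eq_true.mp pop16_allCode c hc
  rw [h] at h1
  exact Nat.eq_of_beq_eq_true (by simpa using h1)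

theorem eq_full_of_24 {c : ℕ} (hc : c ∈ allCode) (h : pop c = 24) : c = 0xffffff := by
  have h1 := List.all_eq_true.mp pop24_allCode c hc
  rw [h] at h1
  exact Nat.eq_of_beq_eq_true (by simpa using h1)

/-- The all-ones word. -/
theorem one_fun_eq_word : (fun _ : GolayPt => (1 : ZMod 2)) = word 0xffffff := one_eq_word

theorem invariant_in_code (W : Submodule (ZMod 2) (GolayPt → ZMod 2)) (h1 : (fun _ => (1 : ZMod 2)) ∈ W)
    (hle : W ≤ golayCode) (hW : ∀ σ ∈ M24, ∀ w ∈ W, actW σ w ∈ W) :
    W = Submodule.span (ZMod 2) {fun _ => (1 : ZMod 2)} ∨ W = golayCode := by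
  have h1' : word 0xffffff ∈ W := one_fun_eq_word ▸ h1
  by_cases hex : ∃ c ∈ allCode, (pop c = 8 ∨ pop c = 12 ∨ pop c = 16) ∧ word c ∈ W
  · right
    refine le_antisymm hle ?_
    obtain ⟨c, hc, hp, hcW⟩ := hex
    rcases hp with h | h | h
    · exact code_le_of_octad hW hc h hcW
    · exact code_le_of_dodecad hW hc h hcW
    · refine code_le_of_octad hW (xor_mem_allCode hc full_mem) (pop_xor_full_of_16 hc h) ?_
      rw [word_xor]
      exact W.add_mem hcW h1'
  · left
    apply le_antisymm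
    · intro w hw
      obtain ⟨c, hc, rfl⟩ := (mem_golayCode_iff w).1 (hle hw)
      rcases weight_cases c hc with h | h | h | h | h
      · rw [code_small hc (by omega), word_zero]
        exact Submodule.zero_mem _
      · exact absurd ⟨c, hc, Or.inl h, hw⟩ hex
      · exact absurd ⟨c, hc, Or.inr (Or.inl h), hw⟩ hex
      · exact absurd ⟨c, hc, Or.inr (Or.inr h), hw⟩ hex
      · rw [eq_full_of_24 hc h, ← one_fun_eq_word]
        exact Submodule.mem_span_singleton_self _
    · rw [Submodule.span_singleton_le_iff_mem]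
      exact h1

theorem result_5393 : (fun _ : GolayPt => (1 : ZMod 2)) ∈ golayCode ∧
    ∀ W : Submodule (ZMod 2) (GolayPt → ZMod 2), (fun _ => (1 : ZMod 2)) ∈ W → W ≤ golayCode →
      (∀ σ ∈ M24, ∀ w ∈ W, (fun p => w (σ.symm p)) ∈ W) →
      W = Submodule.span (ZMod 2) {fun _ => (1 : ZMod 2)} ∨ W = golayCode := by
  refine ⟨?_, fun W h1 hle hW => invariant_in_code W h1 hle hW⟩
  rw [one_fun_eq_word]
  exact word_mem_golayCode full_mem

/-! ### The action on the quotient -/

/-- Every point outside the code is moved modulo the code by the stabiliser of `s`. -/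
def MovQ (s : Finset GolayPt) : Prop :=
  ∀ w, w ∉ golayCode → ∃ σ ∈ M24, σ • s = s ∧ actW σ w + w ∉ golayCode

theorem MovQ.conj {s : Finset GolayPt} (h : MovQ s) {k : Equiv.Perm GolayPt} (hk : k ∈ M24) : MovQ (k • s) := by
  intro w hw
  have hw' : actW k⁻¹ w ∉ golayCode := by rwa [actW_mem_code_iff (M24.inv_mem hk)]
  obtain ⟨τ, hτ, hs, hm⟩ := h _ hw'
  refine ⟨k * τ * k⁻¹, M24.mul_mem (M24.mul_mem hk hτ) (M24.inv_mem hk), ?_, ?_⟩
  · rw [mul_smul, mul_smul, inv_smul_smul, hs]
  · intro hc
    apply hm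
    have h1 := actW_mem_code (M24.inv_mem hk) hc
    have e : k⁻¹ * (k * τ * k⁻¹) = τ * k⁻¹ := by group
    rw [actW_add, ← actW_mul, e, actW_mul] at h1
    exact h1

theorem MovQ.of_imp {s t : Finset GolayPt} (h : MovQ s) (himp : ∀ σ : Equiv.Perm GolayPt, σ • s = s → σ • t = t) :
    MovQ t := by
  intro w hw
  obtain ⟨σ, hσ, hs, hm⟩ := h w hw
  exact ⟨σ, hσ, himp σ hs, hm⟩

theorem smul_compl_fix {σ : Equiv.Perm GolayPt} {s : Finset GolayPt} (h : σ • s = s) : σ • sᶜ = sᶜ := by
  ext q
  rw [← Finset.inv_smul_mem_iff, Finset.mem_compl, Finset.mem_compl, Finset.inv_smul_mem_iff, h]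

/-- The list of small coset leaders. -/
def smallLeaders : List ℕ := subs 24 1 ++ subs 24 2 ++ subs 24 3 ++ subs 24 4

theorem mem_smallLeaders {v : ℕ} (hv : v < 2 ^ 24) (h0 : pop v ≠ 0) (h4 : pop v ≤ 4) : v ∈ smallLeaders := by
  have h := mask_mem_subs (fs v)
  rw [mask_fs hv, card_fs] at h
  simp only [smallLeaders, List.mem_append]
  have : pop v = 1 ∨ pop v = 2 ∨ pop v = 3 ∨ pop v = 4 := by omega
  rcases this with h1 | h1 | h1 | h1 <;> rw [h1] at h <;> simp [h]

theorem movQ_of_list {s0 : ℕ} {L : List ℕ} (hL : ∀ τ ∈ L, isAut τ = true ∧ img τ s0 = s0)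
    (hcheck : smallLeaders.all (fun v => L.any fun τ => !isCode (img τ v ^^^ v)) = true) : MovQ (fs s0) := by
  intro w hw
  have hm : word (mask (support₂ w)) = w := word_support_eq w
  set m := mask (support₂ w) with hmdef
  have hmlt : m < 2 ^ 24 := mask_lt _
  obtain ⟨v, hv, hv4, hc⟩ := exists_leader _ m rfl hmlt
  have hv0 : pop v ≠ 0 := by
    intro h0
    apply hw
    have : fs v = fs 0 := by
      rw [fs_zero, ← Finset.card_eq_zero, card_fs, h0]
    have hv00 : v = 0 := eq_of_fs_eq hv (by norm_num) this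
    rw [hv00, Nat.xor_zero] at hc
    rw [← hm]
    exact word_mem_golayCode hc
  have h1 := List.all_eq_true.mp hcheck v (mem_smallLeaders hv hv0 hv4)
  obtain ⟨τ, hτ, hm1⟩ := List.any_eq_true.mp h1
  have hm2 : isCode (img τ v ^^^ v) = false := by simpa using hm1
  obtain ⟨hA, hfix⟩ := hL τ hτ
  have hval := isAut_valid hA
  refine ⟨mk τ, mk_mem_M24 hA, ?_, ?_⟩
  · rw [← fs_img hval, hfix]
  · intro hin
    have hcw : word (m ^^^ v) ∈ golayCode := word_mem_golayCode hc
    have hwe : w = word v + word (m ^^^ v) := by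
      rw [← word_xor, ← hm]
      congr 1
      rw [Nat.xor_comm m v, xor_cancel_left]
    have h2 := actW_mem_code (mk_mem_M24 hA) hcw
    have h3 : word (img τ v ^^^ v) ∈ golayCode := by
      have e : word (img τ v ^^^ v) = (actW (mk τ) w + w) + (actW (mk τ) (word (m ^^^ v)) + word (m ^^^ v)) := by
        rw [word_xor, hwe, actW_add, actW_mk hval]
        have : ∀ a b c d : ZMod 2, a + c = (a + b + (c + d)) + (b + d) := by decide
        ext p
        exact this _ _ _ _
      rw [e]
      exact golayCode.add_mem hin (golayCode.add_mem h2 hcw)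
    have hlt : img τ v ^^^ v < 2 ^ 24 := xor_lt24 (img_lt hval v) hv
    have h4 := (word_mem_iff hlt).1 h3
    rw [← isCode_iff, hm2] at h4
    exact absurd h4 (by simp)

def octB : ℕ := 5279

def listO : List ℕ := [568172969449563351136728335990992899, 269171288748009213891422425425389956]

def listD : List ℕ := [523787471028726484368670433128791043, 847947545257751809403405753354011713]

theorem listO_ok : ∀ τ ∈ listO, isAut τ = true ∧ img τ octB = octB := by decide +kernel

theorem listD_ok : ∀ τ ∈ listD, isAut τ = true ∧ img τ dod0 = dod0 := by decide +kernel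

theorem listO_check : smallLeaders.all (fun v => listO.any fun τ => !isCode (img τ v ^^^ v)) = true := by
  decide +kernel

theorem listD_check : smallLeaders.all (fun v => listD.any fun τ => !isCode (img τ v ^^^ v)) = true := by
  decide +kernel

theorem movQ_octO : MovQ (fs octB) := movQ_of_list listO_ok listO_check

theorem movQ_dod0 : MovQ (fs dod0) := movQ_of_list listD_ok listD_check

theorem octO_mem : isCode octB = true ∧ Nat.beq (pop octB) 8 = true := by
  constructor <;> decide +kernel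

theorem movQ_octad {c : ℕ} (hc : c ∈ allCode) (h8 : pop c = 8) : MovQ (fs c) := by
  obtain ⟨g, hg, hgd⟩ := M24_octad_trans
    ((mem_octads_iff (fs octB)).2 ⟨octB, (isCode_iff _).1 octO_mem.1, Nat.eq_of_beq_eq_true octO_mem.2, rfl⟩)
    ((mem_octads_iff (fs c)).2 ⟨c, hc, h8, rfl⟩)
  rw [← hgd]
  exact movQ_octO.conj hg

theorem movQ_all {c : ℕ} (hc : c ∈ allCode) : MovQ (fs c) := by
  have hO := movQ_octad ((isCode_iff _).1 octO_mem.1) (Nat.eq_of_beq_eq_true octO_mem.2)
  rcases weight_cases c hc with h | h | h | h | h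
  · rw [code_small hc (by omega), fs_zero]
    exact hO.of_imp fun σ _ => by simp
  · exact movQ_octad hc h
  · obtain ⟨k, hk, hkd⟩ := exists_conj_Dd0 ((mem_dodecads_iff _).2 ⟨c, hc, h, rfl⟩)
    rw [← hkd]
    exact movQ_dod0.conj hk
  · have h1 := movQ_octad (xor_mem_allCode hc full_mem) (pop_xor_full_of_16 hc h)
    rw [fs_xor_full] at h1
    refine h1.of_imp fun σ hσ => ?_
    have := smul_compl_fix hσ
    rwa [compl_compl] at this
  · rw [eq_full_of_24 hc h, fs_full]
    exact hO.of_imp fun σ _ => by simp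

theorem sub_not_mem_of_add {x y : GolayPt → ZMod 2} (h : x + y ∉ golayCode) : x - y ∉ golayCode := by
  rwa [sub_eq_add₂]

theorem result_5550 (u : (GolayPt → ZMod 2)) (hu : u ∈ golayCode) (w : (GolayPt → ZMod 2)) (hw : w ∉ golayCode) :
    ∃ σ ∈ M24, (fun p => u (σ.symm p)) = u ∧ (fun p => w (σ.symm p)) - w ∉ golayCode := by
  obtain ⟨c, hc, rfl⟩ := (mem_golayCode_iff u).1 hu
  obtain ⟨σ, hσ, hs, hm⟩ := movQ_all hc w hw
  refine ⟨σ, hσ, ?_, sub_not_mem_of_add hm⟩
  have h := actW_word σ c
  rw [hs, word_mask_fs] at h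
  exact h

end CfsgLib.Golay
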