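/-
Six-element subsets of the points: the induced symmetric group, pointwise and setwise stabilisers.
-/
import Cfsg.Agent.Lib.Golay.Class
import Cfsg.Agent.Lib.Golay.Triads
import Cfsg.Agent.Lib.Golay.Modules

set_option autoImplicit false
set_option maxRecDepth 100000

namespace CfsgLib.Golay

open Cfsg
open scoped Pointwise

/-- Elements inducing the transpositions on the first base six-set. -/
def swapS : List ℕ := [972515684202761748824803774667261953, 397556202888372330273523873521696802, 610763458314565713418626651423508515,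
  359148969763162876129949116159592484, 675220877615454512627758037624522791, 479824149463869936753696269205079104,
  480920938959579989685555090346248288, 931188577467152454589950648699160704, 879749015868030861314735911553042656,
  924461353447939382077477688937876512, 231684357654192736895102967556968480, 683606156196577397547449310913862688,
  230578682731382833350268909859768352, 219962403656474366975824560757377056, 963721886883755259286232606933354528]

/-- Elements inducing the transpositions on the second base six-set. -/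
def swapU : List ℕ := [592790562009131377257278574663141377, 984284525137426110706786460229533730, 610763458314565713418626651423508515,
  359148969763162876129949116159592484, 735581646151834478568078236836792357, 589955185398394492948945727349949504,
  731691358918902897888372871990904928, 849822317934813648356251079506233472, 591286245764184103665015354950781088,
  981737719767249052369456315699891232, 693759316912009311426731137545900064, 610519923311516637246277765738632224,
  808969906467443395212514001496967200, 984202951082164080105044112956360736, 317002149892226809164728472370776096]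

def swapOK (B L : List ℕ) : Bool :=
  L.all isAut && B.all fun i => B.all fun j => Nat.beq i j || L.any fun τ =>
    Nat.beq (pa τ i) j && Nat.beq (pa τ j) i && B.all fun l => Nat.beq l i || Nat.beq l j || Nat.beq (pa τ l) l

theorem swapS_ok : swapOK [0, 1, 2, 3, 4, 7] swapS = true := by decide +kernel

theorem swapU_ok : swapOK [0, 1, 2, 3, 4, 5] swapU = true := by decide +kernel

theorem perm_inv_self (k : Equiv.Perm GolayPt) (x : GolayPt) : k⁻¹ (k x) = x := by simp

/-- Every transposition of a set is induced by the group. -/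
def SwapProp (E : Finset GolayPt) : Prop :=
  ∀ a ∈ E, ∀ b ∈ E, a ≠ b → ∃ g ∈ M24, g a = b ∧ g b = a ∧ ∀ c ∈ E, c ≠ a → c ≠ b → g c = c

theorem swapProp_of_table {B L : List ℕ} (h : swapOK B L = true) {E : Finset GolayPt} (hE : ∀ p ∈ E, idx p ∈ B) :
    SwapProp E := by
  intro a ha b hb hab
  simp only [swapOK, Bool.and_eq_true] at h
  obtain ⟨h1, h2⟩ := h
  have h3 := List.all_eq_true.mp (List.all_eq_true.mp h2 _ (hE a ha)) _ (hE b hb)
  have hne : Nat.beq (idx a) (idx b) = false := by
    rw [Bool.eq_false_iff]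
    intro e
    exact hab (idx_inj (Nat.eq_of_beq_eq_true e))
  rw [hne, Bool.false_or] at h3
  obtain ⟨τ, hτ, h4⟩ := List.any_eq_true.mp h3
  simp only [Bool.and_eq_true] at h4
  obtain ⟨⟨h5, h6⟩, h7⟩ := h4
  have hA := List.all_eq_true.mp h1 τ hτ
  have hv := isAut_valid hA
  refine ⟨mk τ, mk_mem_M24 hA, ?_, ?_, ?_⟩
  · apply idx_inj
    rw [idx_mk hv]
    exact Nat.eq_of_beq_eq_true h5
  · apply idx_inj
    rw [idx_mk hv]
    exact Nat.eq_of_beq_eq_true h6
  · intro c hc hca hcb
    apply idx_inj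
    rw [idx_mk hv]
    have h8 := List.all_eq_true.mp h7 _ (hE c hc)
    have e1 : Nat.beq (idx c) (idx a) = false := by
      rw [Bool.eq_false_iff]
      intro e
      exact hca (idx_inj (Nat.eq_of_beq_eq_true e))
    have e2 : Nat.beq (idx c) (idx b) = false := by
      rw [Bool.eq_false_iff]
      intro e
      exact hcb (idx_inj (Nat.eq_of_beq_eq_true e))
    rw [e1, e2] at h8
    exact Nat.eq_of_beq_eq_true (by simpa using h8)

theorem SwapProp.of_smul {E : Finset GolayPt} {k : Equiv.Perm GolayPt} (hk : k ∈ M24) (h : SwapProp (k • E)) : SwapProp E := by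
  intro a ha b hb hab
  obtain ⟨g, hg, h1, h2, h3⟩ := h (k a) (Finset.smul_mem_smul_finset ha) (k b) (Finset.smul_mem_smul_finset hb)
    (fun e => hab (k.injective e))
  refine ⟨k⁻¹ * g * k, M24.mul_mem (M24.mul_mem (M24.inv_mem hk) hg) hk, ?_, ?_, ?_⟩
  · rw [Equiv.Perm.mul_apply, Equiv.Perm.mul_apply, h1, perm_inv_self]
  · rw [Equiv.Perm.mul_apply, Equiv.Perm.mul_apply, h2, perm_inv_self]
  · intro c hc hca hcb
    rw [Equiv.Perm.mul_apply, Equiv.Perm.mul_apply, h3 (k c) (Finset.smul_mem_smul_finset hc)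
      (fun e => hca (k.injective e)) (fun e => hcb (k.injective e)), perm_inv_self]

theorem realize_of_swap {E : Finset GolayPt} (h : SwapProp E) (σ : Equiv.Perm ↥E) :
    ∃ g ∈ M24, ∀ p : ↥E, g p = σ p := by
  refine Equiv.Perm.swap_induction_on σ ⟨1, M24.one_mem, fun p => rfl⟩ ?_
  rintro f x y hxy ⟨g, hg, hgp⟩
  obtain ⟨s, hs, h1, h2, h3⟩ := h x.1 x.2 y.1 y.2 (fun e => hxy (Subtype.ext e))
  refine ⟨s * g, M24.mul_mem hs hg, fun p => ?_⟩
  rw [Equiv.Perm.mul_apply, hgp, Equiv.Perm.mul_apply]
  by_cases e1 : f p = x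
  · rw [e1, Equiv.swap_apply_left]
    exact h1
  · by_cases e2 : f p = y
    · rw [e2, Equiv.swap_apply_right]
      exact h2
    · rw [Equiv.swap_apply_of_ne_of_ne e1 e2]
      exact h3 _ (f p).2 (fun e => e1 (Subtype.ext e)) (fun e => e2 (Subtype.ext e))

theorem E48_img31 : E48.all (fun c => Nat.beq (img c 31) 31) = true := by decide +kernel

theorem E48_moves : (List.range 24).all (fun n => Nat.testBit 31 n ||
    E48.any (fun τ => Nat.beq (pa τ n) 7) || E48.any (fun τ => Nat.beq (pa τ n) 5)) = true := by decide +kernel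

theorem fs159 : fs 159 = insert (pt 7) (fs 31) := by decide +kernel

theorem fs63 : fs 63 = insert (pt 5) (fs 31) := by decide +kernel

/-- Every six-set is an image of a base six-set. -/
theorem exists_conj_six {E : Finset GolayPt} (hE : E.card = 6) : ∃ k ∈ M24, k • E = fs 159 ∨ k • E = fs 63 := by
  obtain ⟨S, hS, hSc⟩ := Finset.exists_subset_card_eq (show 5 ≤ E.card by omega)
  obtain ⟨e, he, heS⟩ := Finset.exists_mem_notMem_of_card_lt_card (show S.card < E.card by omega)
  have hEe : E = insert e S := by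
    symm
    apply Finset.eq_of_subset_of_card_le (Finset.insert_subset he hS)
    rw [Finset.card_insert_of_notMem heS, hSc, hE]
  have h31 : (fs 31).card = 5 := by rw [card_fs]; decide +kernel
  obtain ⟨k₁, hk₁, hk₁S⟩ := M24_map_finset (t := fs 31) (hSc.trans h31.symm) hSc.le
  have hy : k₁ e ∉ fs 31 := by
    rw [← hk₁S]
    intro h
    exact heS ((Finset.smul_mem_smul_finset_iff k₁).1 h)
  have hchk := List.all_eq_true.mp E48_moves (idx (k₁ e)) (List.mem_range.mpr (idx_lt _))
  have hbit : Nat.testBit 31 (idx (k₁ e)) = false := by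
    rw [Bool.eq_false_iff]
    intro h
    exact hy (mem_fs.mpr h)
  rw [hbit, Bool.false_or, Bool.or_eq_true] at hchk
  have hcase : ∀ τ ∈ E48, ∀ b : ℕ, b < 24 → pa τ (idx (k₁ e)) = b →
      (mk τ * k₁) • E = insert (pt b) (fs 31) := by
    intro τ hτ b hb hτb
    have hA := E48_aut τ hτ
    have hv := isAut_valid hA
    have hfix : mk τ • fs 31 = fs 31 := by
      rw [← fs_img hv, Nat.eq_of_beq_eq_true (List.all_eq_true.mp E48_img31 τ hτ)]
    have hp : mk τ (k₁ e) = pt b := by
      apply idx_inj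
      rw [idx_mk hv, hτb, idx_pt hb]
    rw [hEe, mul_smul, Finset.smul_finset_insert, Finset.smul_finset_insert, hk₁S, hfix]
    congr 1
  rcases hchk with h | h
  · obtain ⟨τ, hτ, h1⟩ := List.any_eq_true.mp h
    refine ⟨mk τ * k₁, M24.mul_mem (mk_mem_M24 (E48_aut τ hτ)) hk₁, Or.inl ?_⟩
    rw [fs159]
    exact hcase τ hτ 7 (by norm_num) (Nat.eq_of_beq_eq_true h1)
  · obtain ⟨τ, hτ, h1⟩ := List.any_eq_true.mp h
    refine ⟨mk τ * k₁, M24.mul_mem (mk_mem_M24 (E48_aut τ hτ)) hk₁, Or.inr ?_⟩
    rw [fs63]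
    exact hcase τ hτ 5 (by norm_num) (Nat.eq_of_beq_eq_true h1)

/-- The pointwise stabiliser. -/
abbrev Fixer (E : Finset GolayPt) : Type := {g : Equiv.Perm GolayPt // g ∈ M24 ∧ ∀ p ∈ E, g p = p}

theorem card_fixer_conj {k : Equiv.Perm GolayPt} (hk : k ∈ M24) (E : Finset GolayPt) :
    Nat.card (Fixer (k • E)) = Nat.card (Fixer E) := by
  refine Nat.card_congr ⟨fun g => ⟨k⁻¹ * g.1 * k, M24.mul_mem (M24.mul_mem (M24.inv_mem hk) g.2.1) hk, fun p hp => ?_⟩,
    fun g => ⟨k * g.1 * k⁻¹, M24.mul_mem (M24.mul_mem hk g.2.1) (M24.inv_mem hk), fun p hp => ?_⟩, ?_, ?_⟩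
  · have h1 : g.1 (k p) = k p := g.2.2 (k p) (Finset.smul_mem_smul_finset hp)
    rw [Equiv.Perm.mul_apply, Equiv.Perm.mul_apply, h1, perm_inv_self]
  · obtain ⟨q, hq, rfl⟩ := Finset.mem_smul_finset.mp hp
    show (k * g.1 * k⁻¹) (k q) = k q
    rw [Equiv.Perm.mul_apply, Equiv.Perm.mul_apply, perm_inv_self, g.2.2 q hq]
  · intro g
    apply Subtype.ext
    show k * (k⁻¹ * g.1 * k) * k⁻¹ = g.1
    group
  · intro g
    apply Subtype.ext
    show k⁻¹ * (k * g.1 * k⁻¹) * k = g.1
    group

/-- The permutation as a list of values. -/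
def keyP (c : ℕ) : List ℕ := (List.range 24).map (pa c)

/-- The elements fixing the first five points and one more. -/
def LfixY (y : ℕ) : List ℕ := E48.filter (fun c => Nat.beq (pa c y) y)

theorem LfixY_data : ((LfixY 7).map keyP).Nodup ∧ (LfixY 7).length = 16 ∧ ((LfixY 5).map keyP).Nodup ∧ (LfixY 5).length = 3 := by
  refine ⟨?_, ?_, ?_, ?_⟩ <;> decide +kernel

theorem card_of_list {p : Equiv.Perm GolayPt → Prop} {L : List ℕ} (hv : ∀ c ∈ L, valid c = true)
    (hkey : (L.map keyP).Nodup) (h : ∀ g, p g ↔ ∃ c ∈ L, g = mk c) : Nat.card {g // p g} = L.length := by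
  have hnd : L.Nodup := List.Nodup.of_map _ hkey
  have hinj : ∀ a ∈ L, ∀ b ∈ L, mk a = mk b → a = b := by
    intro a ha b hb hab
    refine List.inj_on_of_nodup_map hkey ha hb ?_
    have h1 := mk_inj_of_valid (hv a ha) (hv b hb) hab
    exact List.map_congr_left fun i hi => h1 i (List.mem_range.mp hi)
  have hnd2 : (L.map mk).Nodup := List.Nodup.map_on (fun a ha b hb e => hinj a ha b hb e) hnd
  rw [Nat.subtype_card (L.map mk).toFinset (fun g => by
    rw [List.mem_toFinset, List.mem_map, h g]
    constructor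
    · rintro ⟨c, hc, rfl⟩
      exact ⟨c, hc, rfl⟩
    · rintro ⟨c, hc, rfl⟩
      exact ⟨c, hc, rfl⟩), List.toFinset_card_of_nodup hnd2, List.length_map]

theorem card_fixer_base {m y : ℕ} (hm1 : ∀ n ∈ [4, 3, 2, 1, 0], Nat.testBit m n = true) (hy : y < 24)
    (hm2 : Nat.testBit m y = true) (hm3 : ∀ n, n < 24 → Nat.testBit m n = true → n ∈ [0, 1, 2, 3, 4] ∨ n = y)
    (hk : ((LfixY y).map keyP).Nodup) : Nat.card (Fixer (fs m)) = (LfixY y).length := by
  apply card_of_list
  · intro c hc
    exact isAut_valid (E48_aut c (List.mem_of_mem_filter hc))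
  · exact hk
  · intro g
    constructor
    · rintro ⟨hg, hfix⟩
      have hg' : g ∈ fixIn M24 [4, 3, 2, 1, 0] :=
        mem_fixIn.mpr ⟨hg, fun q hq => hfix q (mem_fs.mpr (hm1 _ hq))⟩
      obtain ⟨c, hc, rfl⟩ := mem_E48_of_fix hg'
      refine ⟨c, List.mem_filter.mpr ⟨hc, ?_⟩, rfl⟩
      have h1 := hfix (pt y) ((mem_fs_pt hy).mpr hm2)
      have h2 := idx_mk (isAut_valid (E48_aut c hc)) (pt y)
      rw [h1, idx_pt hy] at h2
      rw [← h2]
      exact Nat.beq_refl _
    · rintro ⟨c, hc, rfl⟩
      have hc' := List.mem_of_mem_filter hc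
      have hA := E48_aut c hc'
      refine ⟨mk_mem_M24 hA, fun q hq => ?_⟩
      apply idx_inj
      rw [idx_mk (isAut_valid hA)]
      rcases hm3 _ (idx_lt q) (mem_fs.mp hq) with h | h
      · exact E48_fix c hc' _ h
      · rw [h]
        exact Nat.eq_of_beq_eq_true (List.mem_filter.mp hc).2

theorem card_fixer_159 : Nat.card (Fixer (fs 159)) = 16 := by
  rw [card_fixer_base (m := 159) (y := 7) (by decide) (by norm_num) (by decide) (by decide) LfixY_data.1, LfixY_data.2.1]

theorem card_fixer_63 : Nat.card (Fixer (fs 63)) = 3 := by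
  rw [card_fixer_base (m := 63) (y := 5) (by decide) (by norm_num) (by decide) (by decide) LfixY_data.2.2.1,
    LfixY_data.2.2.2]

theorem no_octad_over_63 : octadList.all (fun c => !(Nat.beq (63 &&& c) 63)) = true := by decide +kernel

theorem octad_over_159 : (159 &&& octB) = 159 := by decide +kernel

theorem six_no_special {E : Finset GolayPt} {k : Equiv.Perm GolayPt} (hk : k ∈ M24) (h : k • E = fs 63) :
    ¬ ∃ o ∈ octads, E ⊆ o := by
  rintro ⟨o, ho, hEo⟩
  have h1 : k • o ∈ octads := M24_smul_octad hk ho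
  obtain ⟨c, hc, hc8, hcE⟩ := (mem_octads_iff _).1 h1
  have h2 : fs 63 ⊆ fs c := by
    rw [← h, ← hcE]
    exact Finset.smul_finset_subset_smul_finset hEo
  have h3 := (fs_subset_iff (by norm_num)).1 h2
  have hmem : c ∈ octadList := mem_octadList.mpr ⟨hc, hc8⟩
  have h4 := List.all_eq_true.mp no_octad_over_63 c hmem
  rw [h3] at h4
  simp at h4

theorem six_special {E : Finset GolayPt} {k : Equiv.Perm GolayPt} (hk : k ∈ M24) (h : k • E = fs 159) :
    ∃ o ∈ octads, E ⊆ o := by
  have hO : fs octB ∈ octads :=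
    (mem_octads_iff _).2 ⟨octB, (isCode_iff _).1 octO_mem.1, Nat.eq_of_beq_eq_true octO_mem.2, rfl⟩
  refine ⟨k⁻¹ • fs octB, M24_smul_octad (M24.inv_mem hk) hO, ?_⟩
  have h2 : fs 159 ⊆ fs octB := (fs_subset_iff (by norm_num)).2 octad_over_159
  intro x hx
  rw [Finset.mem_inv_smul_finset_iff]
  apply h2
  rw [← h]
  exact Finset.smul_mem_smul_finset hx

theorem card_stab_six {E : Finset GolayPt} (hE : E.card = 6) (hR : ∀ σ : Equiv.Perm ↥E, ∃ g ∈ M24, ∀ p : ↥E, g p = σ p)
    (hF : Nat.card (Fixer E) = 3) : Nat.card ↥(MulAction.stabilizer M24 E) = 2160 := by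
  have hsm : ∀ g : ↥(MulAction.stabilizer M24 E), (g.1.1 : Equiv.Perm GolayPt) • E = E := fun g =>
    MulAction.mem_stabilizer_iff.mp g.2
  have hmem : ∀ (g : ↥(MulAction.stabilizer M24 E)) (x : GolayPt), g.1.1 x ∈ E ↔ x ∈ E := fun g x =>
    mem_of_smul_eq (hsm g) x
  let φ : ↥(MulAction.stabilizer M24 E) →* Equiv.Perm ↥E :=
    { toFun := fun g => (g.1.1).subtypePerm (hmem g)
      map_one' := by
        ext x
        rfl
      map_mul' := fun a b => by
        ext x
        rfl }
  have hφ : ∀ g x, ((φ g x : ↥E) : GolayPt) = g.1.1 x.1 := fun _ _ => rfl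
  have hsurj : Function.Surjective φ := by
    intro σ
    obtain ⟨g, hg, hgp⟩ := hR σ
    have hgE : g • E = E := by
      apply Finset.eq_of_subset_of_card_le
      · intro z hz
        obtain ⟨q, hq, rfl⟩ := Finset.mem_smul_finset.mp hz
        show g q ∈ E
        rw [hgp ⟨q, hq⟩]
        exact (σ ⟨q, hq⟩).2
      · rw [Finset.card_smul_finset]
    refine ⟨⟨⟨g, hg⟩, MulAction.mem_stabilizer_iff.mpr hgE⟩, ?_⟩
    exact Equiv.ext fun x => Subtype.ext (hgp x)
  have hker : Nat.card φ.ker = 3 := by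
    rw [← hF]
    refine Nat.card_congr ⟨fun g => ⟨g.1.1.1, g.1.1.2, fun p hp => ?_⟩,
      fun g => ⟨⟨⟨g.1, g.2.1⟩, MulAction.mem_stabilizer_iff.mpr ?_⟩, ?_⟩, ?_, ?_⟩
    · have h1 := congrArg (fun f : Equiv.Perm ↥E => ((f ⟨p, hp⟩ : ↥E) : GolayPt)) ((MonoidHom.mem_ker).mp g.2)
      exact h1
    · show (g.1 : Equiv.Perm GolayPt) • E = E
      apply Finset.eq_of_subset_of_card_le
      · intro z hz
        obtain ⟨q, hq, rfl⟩ := Finset.mem_smul_finset.mp hz
        show g.1 q ∈ E
        rw [g.2.2 q hq]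
        exact hq
      · rw [Finset.card_smul_finset]
    · rw [MonoidHom.mem_ker]
      exact Equiv.ext fun x => Subtype.ext (g.2.2 x.1 x.2)
    · intro g
      rfl
    · intro g
      rfl
  have h1 := Subgroup.card_mul_index φ.ker
  rw [Subgroup.index_ker, MonoidHom.range_eq_top.mpr hsurj, Subgroup.card_top, hker,
    Nat.card_eq_fintype_card (α := Equiv.Perm ↥E), Fintype.card_perm, Fintype.card_coe, hE] at h1
  rw [← h1]
  rfl

theorem result_5600 (E : Finset GolayPt) (hE : E.card = 6) :
    (∀ σ : Equiv.Perm ↥E, ∃ g ∈ M24, ∀ p : ↥E, g p = σ p) ∧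
    ((∃ o ∈ octads, E ⊆ o) → Nat.card {g : Equiv.Perm GolayPt // g ∈ M24 ∧ ∀ p ∈ E, g p = p} = 16) ∧
    ((¬ ∃ o ∈ octads, E ⊆ o) → Nat.card {g : Equiv.Perm GolayPt // g ∈ M24 ∧ ∀ p ∈ E, g p = p} = 3 ∧
      Nat.card ↥(MulAction.stabilizer M24 E) = 2160) := by
  obtain ⟨k, hk, hcase⟩ := exists_conj_six hE
  have H159 : ∀ n, n < 24 → Nat.testBit 159 n = true → n ∈ [0, 1, 2, 3, 4, 7] := by decide
  have H63 : ∀ n, n < 24 → Nat.testBit 63 n = true → n ∈ [0, 1, 2, 3, 4, 5] := by decide
  have hswap : SwapProp E := by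
    rcases hcase with h | h
    · apply SwapProp.of_smul hk
      rw [h]
      exact swapProp_of_table swapS_ok (fun p hp => H159 _ (idx_lt p) (mem_fs.mp hp))
    · apply SwapProp.of_smul hk
      rw [h]
      exact swapProp_of_table swapU_ok (fun p hp => H63 _ (idx_lt p) (mem_fs.mp hp))
  have hR := realize_of_swap hswap
  refine ⟨hR, ?_, ?_⟩
  · intro hsp
    rcases hcase with h | h
    · rw [← card_fixer_conj hk E, h]
      exact card_fixer_159
    · exact absurd hsp (six_no_special hk h)
  · intro hns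
    rcases hcase with h | h
    · exact absurd (six_special hk h) hns
    · have h3 : Nat.card (Fixer E) = 3 := by
        rw [← card_fixer_conj hk E, h]
        exact card_fixer_63
      exact ⟨h3, card_stab_six hE hR h3⟩

end CfsgLib.Golay
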