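/-
Stabilisers of families of subsets of the 24 points: induced permutations, kernels.
-/
import Cfsg.Agent.Lib.Golay.ClassFix
import Cfsg.Agent.Lib.Golay.SixSets
import Cfsg.Agent.Lib.Golay.Elems

set_option autoImplicit false

namespace CfsgLib.Golay

open Cfsg
open scoped Pointwise

/-- A list of distinct elements of the right length covers a subgroup. -/
theorem cover_of_card' {K : Subgroup (Equiv.Perm GolayPt)} {L : List ℕ} (hv : ∀ c ∈ L, valid c = true)
    (hm : ∀ c ∈ L, mk c ∈ K) (hkey : (L.map keyP).Nodup) (hc : Nat.card K = L.length)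
    {g : Equiv.Perm GolayPt} (hg : g ∈ K) : ∃ c ∈ L, g = mk c := by
  have hnd : L.Nodup := List.Nodup.of_map _ hkey
  have hinj : ∀ a ∈ L, ∀ b ∈ L, mk a = mk b → a = b := by
    intro a ha b hb hab
    refine List.inj_on_of_nodup_map hkey ha hb ?_
    have h1 := mk_inj_of_valid (hv a ha) (hv b hb) hab
    exact List.map_congr_left fun i hi => h1 i (List.mem_range.mp hi)
  have hnd2 : (L.map mk).Nodup := List.Nodup.map_on (fun a ha b hb e => hinj a ha b hb e) hnd
  have hsub : (↑(L.map mk).toFinset : Set (Equiv.Perm GolayPt)) ⊆ (K : Set (Equiv.Perm GolayPt)) := by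
    intro x hx
    obtain ⟨c, hc, rfl⟩ := List.mem_map.mp (List.mem_toFinset.mp (Finset.mem_coe.mp hx))
    exact hm c hc
  have hle : (K : Set (Equiv.Perm GolayPt)).ncard ≤ (↑(L.map mk).toFinset : Set (Equiv.Perm GolayPt)).ncard := by
    rw [Set.ncard_coe_finset, List.toFinset_card_of_nodup hnd2, List.length_map, ← hc]
    exact (Nat.card_coe_set_eq (K : Set (Equiv.Perm GolayPt))).symm.le
  have heq := Set.eq_of_subset_of_ncard_le hsub hle (Set.toFinite _)
  have hg' : g ∈ (↑(L.map mk).toFinset : Set (Equiv.Perm GolayPt)) := by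
    rw [heq]
    exact hg
  obtain ⟨c, hc, rfl⟩ := List.mem_map.mp (List.mem_toFinset.mp (Finset.mem_coe.mp hg'))
  exact ⟨c, hc, rfl⟩

/-- Every transposition of a family of sets is induced by the group. -/
def SwapFam (S : Finset (Finset GolayPt)) : Prop :=
  ∀ a ∈ S, ∀ b ∈ S, a ≠ b → ∃ g ∈ M24, g • a = b ∧ g • b = a ∧ ∀ c ∈ S, c ≠ a → c ≠ b → g • c = c

theorem SwapFam.conj {S : Finset (Finset GolayPt)} {k : Equiv.Perm GolayPt} (hk : k ∈ M24) (h : SwapFam S) :
    SwapFam (k • S) := by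
  intro a ha b hb hab
  obtain ⟨a0, ha0, rfl⟩ := Finset.mem_smul_finset.mp ha
  obtain ⟨b0, hb0, rfl⟩ := Finset.mem_smul_finset.mp hb
  obtain ⟨g, hg, h1, h2, h3⟩ := h a0 ha0 b0 hb0 (fun e => hab (by rw [e]))
  refine ⟨k * g * k⁻¹, M24.mul_mem (M24.mul_mem hk hg) (M24.inv_mem hk), ?_, ?_, ?_⟩
  · rw [mul_smul, mul_smul, inv_smul_smul, h1]
  · rw [mul_smul, mul_smul, inv_smul_smul, h2]
  · intro c hc hca hcb
    obtain ⟨c0, hc0, rfl⟩ := Finset.mem_smul_finset.mp hc
    rw [mul_smul, mul_smul, inv_smul_smul, h3 c0 hc0 (fun e => hca (by rw [e])) (fun e => hcb (by rw [e]))]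

/-- The check for a family given by a list of masks. -/
def swapFamOK (B L : List ℕ) : Bool :=
  L.all isAut && B.all fun i => B.all fun j => Nat.beq i j || L.any fun τ =>
    Nat.beq (img τ i) j && Nat.beq (img τ j) i && B.all fun l => Nat.beq l i || Nat.beq l j || Nat.beq (img τ l) l

theorem swapFam_of_table {n k : ℕ} {L : List ℕ} (h : swapFamOK (unp n k) L = true) : SwapFam (famDec n k) := by
  intro a ha b hb hab
  obtain ⟨x, hx, rfl⟩ := mem_famDec.mp ha
  obtain ⟨y, hy, rfl⟩ := mem_famDec.mp hb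
  simp only [swapFamOK, Bool.and_eq_true] at h
  obtain ⟨h1, h2⟩ := h
  have h3 := List.all_eq_true.mp (List.all_eq_true.mp h2 _ hx) _ hy
  have hne : Nat.beq x y = false := by
    rw [Bool.eq_false_iff]
    intro e
    exact hab (by rw [Nat.eq_of_beq_eq_true e])
  rw [hne, Bool.false_or] at h3
  obtain ⟨τ, hτ, h4⟩ := List.any_eq_true.mp h3
  simp only [Bool.and_eq_true] at h4
  obtain ⟨⟨h5, h6⟩, h7⟩ := h4
  have hA := List.all_eq_true.mp h1 τ hτ
  have hv := isAut_valid hA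
  refine ⟨mk τ, mk_mem_M24 hA, ?_, ?_, ?_⟩
  · rw [← fs_img hv, Nat.eq_of_beq_eq_true h5]
  · rw [← fs_img hv, Nat.eq_of_beq_eq_true h6]
  · intro c hc hca hcb
    obtain ⟨z, hz, rfl⟩ := mem_famDec.mp hc
    have h8 := List.all_eq_true.mp h7 _ hz
    have e1 : Nat.beq z x = false := by
      rw [Bool.eq_false_iff]
      intro e
      exact hca (by rw [Nat.eq_of_beq_eq_true e])
    have e2 : Nat.beq z y = false := by
      rw [Bool.eq_false_iff]
      intro e
      exact hcb (by rw [Nat.eq_of_beq_eq_true e])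
    rw [e1, e2, Bool.false_or, Bool.false_or] at h8
    rw [← fs_img hv, Nat.eq_of_beq_eq_true h8]

theorem realize_fam {S : Finset (Finset GolayPt)} (h : SwapFam S) (σ : Equiv.Perm ↥S) :
    ∃ g ∈ M24, ∀ t : ↥S, g • t.1 = (σ t).1 := by
  refine Equiv.Perm.swap_induction_on σ ⟨1, M24.one_mem, fun p => one_smul _ _⟩ ?_
  rintro f x y hxy ⟨g, hg, hgp⟩
  obtain ⟨s, hs, h1, h2, h3⟩ := h x.1 x.2 y.1 y.2 (fun e => hxy (Subtype.ext e))
  refine ⟨s * g, M24.mul_mem hs hg, fun p => ?_⟩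
  rw [mul_smul, hgp, Equiv.Perm.mul_apply]
  by_cases e1 : f p = x
  · rw [e1, Equiv.swap_apply_left]
    exact h1
  · by_cases e2 : f p = y
    · rw [e2, Equiv.swap_apply_right]
      exact h2
    · rw [Equiv.swap_apply_of_ne_of_ne e1 e2]
      exact h3 _ (f p).2 (fun e => e1 (Subtype.ext e)) (fun e => e2 (Subtype.ext e))

theorem stab_of_realize {S : Finset (Finset GolayPt)} {g : Equiv.Perm GolayPt} {σ : Equiv.Perm ↥S}
    (h : ∀ t : ↥S, g • t.1 = (σ t).1) : g • S = S := by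
  ext x
  rw [Finset.mem_smul_finset]
  constructor
  · rintro ⟨t, ht, rfl⟩
    rw [h ⟨t, ht⟩]
    exact (σ _).2
  · intro hx
    refine ⟨(σ.symm ⟨x, hx⟩).1, (σ.symm ⟨x, hx⟩).2, ?_⟩
    rw [h]
    simp

theorem smul_mem_of_stab {S : Finset (Finset GolayPt)} {g : Equiv.Perm GolayPt} (hg : g • S = S)
    {t : Finset GolayPt} (ht : t ∈ S) : g • t ∈ S := by
  have := Finset.smul_mem_smul_finset (a := g) ht
  rwa [hg] at this

theorem inv_smul_mem_of_stab {S : Finset (Finset GolayPt)} {g : Equiv.Perm GolayPt} (hg : g • S = S)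
    {t : Finset GolayPt} (ht : t ∈ S) : g⁻¹ • t ∈ S :=
  smul_mem_of_stab (inv_smul_eq_iff.mpr hg.symm) ht

/-- The action of the stabiliser of a family on the family. -/
noncomputable def actFam (S : Finset (Finset GolayPt)) :
    ↥(MulAction.stabilizer M24 S) →* Equiv.Perm ↥S :=
  MonoidHom.mk' (fun g =>
    { toFun := fun t => ⟨(g.1.1 : Equiv.Perm GolayPt) • t.1, smul_mem_of_stab g.2 t.2⟩
      invFun := fun t => ⟨(g.1.1 : Equiv.Perm GolayPt)⁻¹ • t.1, inv_smul_mem_of_stab g.2 t.2⟩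
      left_inv := fun t => Subtype.ext (inv_smul_smul _ _)
      right_inv := fun t => Subtype.ext (smul_inv_smul _ _) })
    (fun a b => by
      refine Equiv.ext fun t => Subtype.ext ?_
      show ((a.1.1 * b.1.1 : Equiv.Perm GolayPt)) • t.1 = (a.1.1 : Equiv.Perm GolayPt) • ((b.1.1 : Equiv.Perm GolayPt) • t.1)
      rw [mul_smul])

theorem actFam_apply (S : Finset (Finset GolayPt)) (g : ↥(MulAction.stabilizer M24 S)) (t : ↥S) :
    (actFam S g t).1 = (g.1.1 : Equiv.Perm GolayPt) • t.1 := rfl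

theorem card_stab_fam {S : Finset (Finset GolayPt)} {D : Set (Finset (Finset GolayPt))} (hS : S ∈ D)
    (h1 : ∀ g ∈ M24, ∀ x ∈ D, g • x ∈ D) (h2 : ∀ x ∈ D, ∀ y ∈ D, ∃ g ∈ M24, g • x = y) :
    Nat.card ↥(MulAction.stabilizer M24 S) * D.ncard = 244823040 := by
  have h3 := Subgroup.card_mul_index (MulAction.stabilizer M24 S)
  rw [MulAction.index_stabilizer, card_M24] at h3
  have h4 : MulAction.orbit M24 S = D := by
    ext y
    constructor
    · rintro ⟨g, rfl⟩
      exact h1 g.1 g.2 S hS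
    · intro hy
      obtain ⟨g, hg, hgy⟩ := h2 S hS y hy
      exact ⟨⟨g, hg⟩, hgy⟩
  rw [h4] at h3
  exact h3

/-- The subgroup of the group fixing every member of a family. -/
def KerFam (S : Finset (Finset GolayPt)) : Subgroup (Equiv.Perm GolayPt) where
  carrier := {g | g ∈ M24 ∧ ∀ t ∈ S, g • t = t}
  mul_mem' := by
    rintro a b ⟨ha, ha2⟩ ⟨hb, hb2⟩
    refine ⟨M24.mul_mem ha hb, fun t ht => ?_⟩
    rw [mul_smul, hb2 t ht, ha2 t ht]
  one_mem' := ⟨M24.one_mem, fun t _ => one_smul _ _⟩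
  inv_mem' := by
    rintro a ⟨ha, ha2⟩
    refine ⟨M24.inv_mem ha, fun t ht => ?_⟩
    rw [inv_smul_eq_iff, ha2 t ht]

theorem mem_KerFam {S : Finset (Finset GolayPt)} {g : Equiv.Perm GolayPt} :
    g ∈ KerFam S ↔ g ∈ M24 ∧ ∀ t ∈ S, g • t = t := Iff.rfl

theorem KerFam_smul {S : Finset (Finset GolayPt)} {g : Equiv.Perm GolayPt} (hg : g ∈ KerFam S) : g • S = S := by
  ext x
  rw [Finset.mem_smul_finset]
  constructor
  · rintro ⟨t, ht, rfl⟩
    rw [hg.2 t ht]
    exact ht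
  · intro hx
    exact ⟨x, hx, hg.2 x hx⟩

/-- The kernel as a type is in bijection with the subgroup of permutations. -/
theorem card_KerFam_eq (S : Finset (Finset GolayPt)) :
    Nat.card {g : ↥(MulAction.stabilizer M24 S) // ∀ t ∈ S, ((g : M24) : Equiv.Perm GolayPt) • t = t} =
      Nat.card ↥(KerFam S) := by
  refine Nat.card_congr ⟨fun g => ⟨g.1.1.1, g.1.1.2, g.2⟩,
    fun g => ⟨⟨⟨g.1, g.2.1⟩, KerFam_smul g.2⟩, g.2.2⟩, fun g => rfl, fun g => rfl⟩

theorem card_ker_of_surj {S : Finset (Finset GolayPt)} (hsurj : Function.Surjective (actFam S)) :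
    Nat.card {g : ↥(MulAction.stabilizer M24 S) // ∀ t ∈ S, ((g : M24) : Equiv.Perm GolayPt) • t = t} *
      (S.card).factorial = Nat.card ↥(MulAction.stabilizer M24 S) := by
  have h1 := Subgroup.card_mul_index (actFam S).ker
  rw [Subgroup.index_ker, MonoidHom.range_eq_top.mpr hsurj, Subgroup.card_top,
    Nat.card_eq_fintype_card (α := Equiv.Perm ↥S), Fintype.card_perm, Fintype.card_coe] at h1
  rw [← h1]
  congr 1
  refine Nat.card_congr ⟨fun g => ⟨g.1, ?_⟩, fun g => ⟨g.1, ?_⟩, fun g => rfl, fun g => rfl⟩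
  · rw [MonoidHom.mem_ker]
    ext1 t
    apply Subtype.ext
    rw [actFam_apply]
    exact g.2 _ t.2
  · intro t ht
    have h2 : actFam S g.1 = 1 := g.2
    have h3 := actFam_apply S g.1 ⟨t, ht⟩
    rw [h2] at h3
    exact h3.symm

theorem surj_of_swap {S : Finset (Finset GolayPt)} (h : SwapFam S) : Function.Surjective (actFam S) := by
  intro σ
  obtain ⟨g, hg, hgσ⟩ := realize_fam h σ
  refine ⟨⟨⟨g, hg⟩, stab_of_realize hgσ⟩, ?_⟩
  ext1 t
  apply Subtype.ext
  rw [actFam_apply]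
  exact hgσ t

theorem KerFam_conj {S : Finset (Finset GolayPt)} {u : Equiv.Perm GolayPt} (hu : u ∈ M24) {g : Equiv.Perm GolayPt} :
    g ∈ KerFam (u • S) ↔ u⁻¹ * g * u ∈ KerFam S := by
  constructor
  · rintro ⟨h1, h2⟩
    refine ⟨M24.mul_mem (M24.mul_mem (M24.inv_mem hu) h1) hu, fun t ht => ?_⟩
    rw [mul_smul, mul_smul, h2 _ (Finset.smul_mem_smul_finset ht), inv_smul_smul]
  · rintro ⟨h1, h2⟩
    refine ⟨?_, fun t ht => ?_⟩
    · have e : g = u * (u⁻¹ * g * u) * u⁻¹ := by group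
      rw [e]
      exact M24.mul_mem (M24.mul_mem hu h1) (M24.inv_mem hu)
    · obtain ⟨t0, ht0, rfl⟩ := Finset.mem_smul_finset.mp ht
      have h3 := h2 t0 ht0
      rw [mul_smul, mul_smul, inv_smul_eq_iff] at h3
      exact h3

end CfsgLib.Golay
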