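/-
Stabilisers of a dodecad with a hexad on it, of two octads meeting in two points, and of a dodecad with a point and an
outside pair.
-/
import Cfsg.Agent.Lib.Golay.Dodecad2
import Cfsg.Prelude.Def_SporadicCombinatorics

set_option autoImplicit false
set_option maxRecDepth 100000

namespace CfsgLib.Golay

open Cfsg
open scoped Pointwise

/-- The identity is the only element of the stabiliser of a dodecad fixing five of its points. -/
theorem fix5 {d : Finset GolayPt} (hd : d ∈ dodecads) {g : Equiv.Perm GolayPt} (hg : g ∈ stabS d)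
    {s : Finset GolayPt} (hs : s ⊆ d) (hc : 5 ≤ s.card) (hfix : ∀ p ∈ s, g p = p) : g = 1 := by
  obtain ⟨t, ht, ht5⟩ := Finset.exists_subset_card_eq hc
  let e : Fin 5 ≃ ↥t := (t.equivFinOfCardEq ht5).symm
  let x : Fin 5 ↪ GolayPt := e.toEmbedding.trans (Function.Embedding.subtype _)
  have hx : ∀ i, x i ∈ t := fun i => (e i).2
  exact (dod_sharp hd x x (fun i => hs (ht (hx i))) (fun i => hs (ht (hx i)))).2 g hg 1 (one_mem _)
    (fun i => hfix _ (ht (hx i))) (fun i => rfl)

theorem smul_octad_eq {g : Equiv.Perm GolayPt} (hg : g ∈ M24) {o : Finset GolayPt} (ho : o ∈ octads)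
    {t : Finset GolayPt} (ht5 : 5 ≤ t.card) (hto : t ⊆ o) (hgt : ∀ p ∈ t, g p ∈ o) : g • o = o := by
  apply octad_unique (M24_smul_octad hg ho) ho
  have h1 : g • t ⊆ g • o ∩ o := by
    intro q hq
    obtain ⟨p, hp, rfl⟩ := Finset.mem_smul_finset.mp hq
    exact Finset.mem_inter.mpr ⟨Finset.mem_smul_finset.mpr ⟨p, hto hp, rfl⟩, hgt p hp⟩
  have h2 := Finset.card_le_card h1
  rw [Finset.card_smul_finset] at h2
  omega

theorem smul_inter_stab {g : Equiv.Perm GolayPt} {o d : Finset GolayPt} (h1 : g • o = o) (h2 : g • d = d) :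
    g • (o ∩ d) = o ∩ d := by
  rw [Finset.smul_finset_inter, h1, h2]

/-- An element of a finite permutation group agreeing on all points but one agrees on the last. -/
theorem perm_eq_of_agree {β : Type*} [Fintype β] [DecidableEq β] (a b : Equiv.Perm β) (l : β)
    (h : ∀ x, x ≠ l → a x = b x) : a = b := by
  ext x
  by_cases hx : x = l
  · subst hx
    by_contra hne
    have h1 : b⁻¹ (a x) ≠ x := by
      intro he
      apply hne
      rw [Equiv.Perm.inv_eq_iff_eq] at he
      exact he
    have h2 := h _ h1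
    have h4 : b (b⁻¹ (a x)) = a x := by simp
    rw [h4] at h2
    exact h1 (a.injective h2)
  · rw [h x hx]

section hexad

variable {d C : Finset GolayPt}

theorem hexad_sub (hC : C ∈ hexadsOn d) : C ⊆ d := by
  obtain ⟨_, o, _, rfl⟩ := hC
  exact Finset.inter_subset_right

/-- The stabiliser as a group of permutations of the hexad. -/
theorem exists_hexad_equiv (hd : d ∈ dodecads) (hC : C ∈ hexadsOn d) :
    Nonempty (↥(MulAction.stabilizer M24 d ⊓ MulAction.stabilizer M24 C) ≃* Equiv.Perm (Fin 6)) := by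
  obtain ⟨h6, o, ho, hoC⟩ := hC
  have hCd : C ⊆ d := by
    rw [← hoC]
    exact Finset.inter_subset_right
  have hCo : C ⊆ o := by
    rw [← hoC]
    exact Finset.inter_subset_left
  set G := MulAction.stabilizer M24 d ⊓ MulAction.stabilizer M24 C with hG
  have hst : ∀ g : G, (((g : M24) : Equiv.Perm GolayPt)) ∈ stabS d := fun g => mem_stabS.mpr ⟨(g : M24).2, g.2.1⟩
  have hsC : ∀ g : G, (((g : M24) : Equiv.Perm GolayPt)) • C = C := fun g => g.2.2
  have hiff : ∀ g : G, ∀ x, ((g : M24) : Equiv.Perm GolayPt) x ∈ C ↔ x ∈ C := fun g x => mem_of_smul_eq (hsC g) x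
  let R : G →* Equiv.Perm ↥C :=
    { toFun := fun g => ((g : M24) : Equiv.Perm GolayPt).subtypePerm (hiff g)
      map_one' := by
        ext x
        rfl
      map_mul' := fun a b => by
        ext x
        rfl }
  have hR : ∀ g : G, ∀ x : ↥C, ((R g x : ↥C) : GolayPt) = ((g : M24) : Equiv.Perm GolayPt) x := fun _ _ => rfl
  have hinj : Function.Injective R := by
    rw [injective_iff_map_eq_one]
    intro g hg
    have h1 := fix5 hd (hst g) hCd (by omega) (fun p hp => by
      have := congrArg (fun r : Equiv.Perm ↥C => ((r ⟨p, hp⟩ : ↥C) : GolayPt)) hg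
      exact this)
    exact Subtype.ext (Subtype.ext h1)
  have hsurj : Function.Surjective R := by
    intro σ
    have hcard : Fintype.card ↥C = 6 := by
      rw [Fintype.card_coe, h6]
    let e : Fin 6 ≃ ↥C := (Fintype.equivFinOfCardEq hcard).symm
    let x : Fin 5 ↪ GolayPt := ⟨fun i => (e i.castSucc : GolayPt), fun i j h => by
      have h1 : e i.castSucc = e j.castSucc := Subtype.ext h
      exact Fin.castSucc_injective _ (e.injective h1)⟩
    let y : Fin 5 ↪ GolayPt := ⟨fun i => (σ (e i.castSucc) : GolayPt), fun i j h => by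
      have h1 : σ (e i.castSucc) = σ (e j.castSucc) := Subtype.ext h
      exact Fin.castSucc_injective _ (e.injective (σ.injective h1))⟩
    obtain ⟨⟨g, hg, hgi⟩, _⟩ := dod_sharp hd x y (fun i => hCd (e _).2) (fun i => hCd (σ _).2)
    obtain ⟨hg1, hg2⟩ := mem_stabS.mp hg
    let t : Finset GolayPt := (Finset.univ : Finset (Fin 5)).map x
    have ht5 : t.card = 5 := by simp [t]
    have hto : t ⊆ o := by
      intro q hq
      obtain ⟨i, _, rfl⟩ := Finset.mem_map.mp hq
      exact hCo (e _).2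
    have hgo : g • o = o := smul_octad_eq hg1 ho (by omega) hto (by
      intro q hq
      obtain ⟨i, _, rfl⟩ := Finset.mem_map.mp hq
      rw [hgi i]
      exact hCo (σ _).2)
    have hgC : g • C = C := by
      rw [← hoC]
      exact smul_inter_stab hgo hg2
    let g' : G := ⟨⟨g, hg1⟩, hg2, hgC⟩
    refine ⟨g', ?_⟩
    apply perm_eq_of_agree _ _ (e (Fin.last 5))
    intro z hz
    obtain ⟨k, rfl⟩ := e.surjective z
    have hk : k ≠ Fin.last 5 := fun h => hz (by rw [h])
    obtain ⟨i, rfl⟩ := Fin.exists_castSucc_eq.mpr hk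
    exact Subtype.ext (hgi i)
  have hcard : Fintype.card ↥C = Fintype.card (Fin 6) := by
    rw [Fintype.card_coe, h6, Fintype.card_fin]
  exact ⟨(MulEquiv.ofBijective R ⟨hinj, hsurj⟩).trans
    (Equiv.permCongrHom (Fintype.equivOfCardEq hcard))⟩

end hexad

theorem smul_sdiff_stab {g : Equiv.Perm GolayPt} {x y : Finset GolayPt} (h1 : g • x = x) (h2 : g • y = y) :
    g • (x \ y) = x \ y := by
  rw [Finset.smul_finset_sdiff, h1, h2]

/-- The joint stabiliser of two octads meeting in two points. -/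
theorem exists_two_octad_equiv {o o' : Finset GolayPt} (ho : o ∈ octads) (ho' : o' ∈ octads) (h2 : (o ∩ o').card = 2) :
    Nonempty (↥(MulAction.stabilizer M24 o ⊓ MulAction.stabilizer M24 o') ≃* Equiv.Perm (Fin 6)) := by
  obtain ⟨a, ha, h8a, rfl⟩ := (mem_octads_iff o).mp ho
  obtain ⟨c, hc, h8c, rfl⟩ := (mem_octads_iff o').mp ho'
  have hcard : pop (a &&& c) = 2 := by
    rw [← card_fs, fs_land]
    exact h2
  have hpop := pop_xor_add a c
  have hd : fs (a ^^^ c) ∈ dodecads := (mem_dodecads_iff _).mpr ⟨_, xor_mem_allCode ha hc, by omega, rfl⟩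
  have hC6 : (fs a \ fs c).card = 6 := by
    have := Finset.card_sdiff_add_card_inter (fs a) (fs c)
    rw [h2, card_fs, h8a] at this
    omega
  have hC'6 : (fs c \ fs a).card = 6 := by
    have := Finset.card_sdiff_add_card_inter (fs c) (fs a)
    rw [Finset.inter_comm, h2, card_fs, h8c] at this
    omega
  have hinter : fs a ∩ fs (a ^^^ c) = fs a \ fs c := by
    rw [fs_xor]
    ext x
    simp only [Finset.mem_inter, Finset.mem_symmDiff, Finset.mem_sdiff]
    tauto
  have hC : fs a \ fs c ∈ hexadsOn (fs (a ^^^ c)) := ⟨hC6, fs a, ho, hinter⟩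
  have hdC : fs (a ^^^ c) \ (fs a \ fs c) = fs c \ fs a := by
    rw [fs_xor]
    ext x
    simp only [Finset.mem_symmDiff, Finset.mem_sdiff]
    tauto
  have heq : MulAction.stabilizer M24 (fs a) ⊓ MulAction.stabilizer M24 (fs c) =
      MulAction.stabilizer M24 (fs (a ^^^ c)) ⊓ MulAction.stabilizer M24 (fs a \ fs c) := by
    ext g
    simp only [Subgroup.mem_inf, MulAction.mem_stabilizer_iff]
    constructor
    · rintro ⟨h1, h3⟩
      have h1' : (g : Equiv.Perm GolayPt) • fs a = fs a := h1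
      have h3' : (g : Equiv.Perm GolayPt) • fs c = fs c := h3
      refine ⟨?_, smul_sdiff_stab h1' h3'⟩
      change (g : Equiv.Perm GolayPt) • fs (a ^^^ c) = fs (a ^^^ c)
      rw [fs_xor]
      change (g : Equiv.Perm GolayPt) • (fs a \ fs c ∪ fs c \ fs a) = fs a \ fs c ∪ fs c \ fs a
      rw [Finset.smul_finset_union, smul_sdiff_stab h1' h3', smul_sdiff_stab h3' h1']
    · rintro ⟨h1, h3⟩
      have h1' : (g : Equiv.Perm GolayPt) • fs (a ^^^ c) = fs (a ^^^ c) := h1
      have h3' : (g : Equiv.Perm GolayPt) • (fs a \ fs c) = fs a \ fs c := h3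
      have h4 : (g : Equiv.Perm GolayPt) • (fs c \ fs a) = fs c \ fs a := by
        rw [← hdC]
        exact smul_sdiff_stab h1' h3'
      constructor
      · exact smul_octad_eq g.2 ho (t := fs a \ fs c) (by omega) Finset.sdiff_subset (fun p hp =>
          (Finset.mem_sdiff.mp ((mem_of_smul_eq h3' p).mpr hp)).1)
      · exact smul_octad_eq g.2 ho' (t := fs c \ fs a) (by omega) Finset.sdiff_subset (fun p hp =>
          (Finset.mem_sdiff.mp ((mem_of_smul_eq h4 p).mpr hp)).1)
  obtain ⟨e⟩ := exists_hexad_equiv hd hC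
  exact ⟨(MulEquiv.subgroupCongr heq).trans e⟩

theorem dod_pair_check : ((List.range 24).all fun q => Nat.testBit dod0 q || (List.range 24).all fun q' =>
    Nat.testBit dod0 q' || Nat.beq q q' || (List.range 24).all fun p => !Nat.testBit dod0 p ||
      octadList.any fun c => Nat.testBit c q && Nat.testBit c q' && Nat.testBit c p && Nat.beq (pop (c &&& dod0)) 6) = true := by
  decide +kernel

/-- An octad through an outside pair and a point of the dodecad, meeting the dodecad in six points. -/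
theorem exists_octad_pair {d : Finset GolayPt} (hd : d ∈ dodecads) {p q q' : GolayPt} (hp : p ∈ d) (hq : q ∉ d)
    (hq' : q' ∉ d) (hqq' : q ≠ q') : ∃ o ∈ octads, q ∈ o ∧ q' ∈ o ∧ p ∈ o ∧ (o ∩ d).card = 6 := by
  obtain ⟨h, hh, rfl⟩ := exists_conj_Dd0 hd
  have hpull : ∀ x, x ∈ h • Dd0 ↔ h⁻¹ x ∈ Dd0 := by
    intro x
    rw [Finset.mem_smul_finset]
    constructor
    · rintro ⟨y, hy, rfl⟩
      simpa using hy
    · intro hx
      exact ⟨_, hx, by simp⟩
  have hbit : ∀ x, x ∈ Dd0 ↔ Nat.testBit dod0 (idx x) = true := fun x => mem_fs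
  have h1 := List.all_eq_true.mp dod_pair_check (idx (h⁻¹ q)) (List.mem_range.mpr (idx_lt _))
  simp only [Bool.or_eq_true, List.all_eq_true, List.mem_range, Bool.not_eq_true', List.any_eq_true,
    Bool.and_eq_true, Nat.beq_eq] at h1
  rcases h1 with h1 | h1
  · exact absurd ((hpull q).mpr ((hbit _).mpr h1)) hq
  rcases h1 (idx (h⁻¹ q')) (idx_lt _) with (h2 | h2) | h2
  · exact absurd ((hpull q').mpr ((hbit _).mpr h2)) hq'
  · exfalso
    apply hqq'
    exact h⁻¹.injective (idx_inj h2)
  rcases h2 (idx (h⁻¹ p)) (idx_lt _) with h3 | ⟨c, hc, ⟨⟨h4, h5⟩, h6⟩, h7⟩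
  · have := (hbit _).mp ((hpull p).mp hp)
    rw [h3] at this
    simp at this
  refine ⟨h • fs c, M24_smul_octad hh (fs_mem_octads hc), ?_, ?_, ?_, ?_⟩
  · exact Finset.mem_smul_finset.mpr ⟨h⁻¹ q, mem_fs.mpr h4, by simp⟩
  · exact Finset.mem_smul_finset.mpr ⟨h⁻¹ q', mem_fs.mpr h5, by simp⟩
  · exact Finset.mem_smul_finset.mpr ⟨h⁻¹ p, mem_fs.mpr h6, by simp⟩
  · rw [← Finset.smul_finset_inter, Finset.card_smul_finset]
    have : fs c ∩ Dd0 = fs (c &&& dod0) := (fs_land _ _).symm
    rw [this, card_fs]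
    exact h7

theorem unique_octad_pair {d : Finset GolayPt} (hd : d ∈ dodecads) {p q q' : GolayPt} (hp : p ∈ d) (hq : q ∉ d)
    (hq' : q' ∉ d) (hqq' : q ≠ q') {o1 o2 : Finset GolayPt} (h1 : o1 ∈ octads) (h2 : o2 ∈ octads)
    (h1q : q ∈ o1) (h1q' : q' ∈ o1) (h1p : p ∈ o1) (h16 : (o1 ∩ d).card = 6)
    (h2q : q ∈ o2) (h2q' : q' ∈ o2) (h2p : p ∈ o2) (h26 : (o2 ∩ d).card = 6) : o1 = o2 := by
  have hout : ∀ o : Finset GolayPt, o ∈ octads → q ∈ o → q' ∈ o → (o ∩ d).card = 6 → o \ d = {q, q'} := by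
    intro o ho hq1 hq2 h6
    symm
    apply Finset.eq_of_subset_of_card_le
    · intro x hx
      simp only [Finset.mem_insert, Finset.mem_singleton] at hx
      rcases hx with rfl | rfl
      · exact Finset.mem_sdiff.mpr ⟨hq1, hq⟩
      · exact Finset.mem_sdiff.mpr ⟨hq2, hq'⟩
    · have h3 := Finset.card_sdiff_add_card_inter o d
      rw [h6, ho.2] at h3
      rw [Finset.card_pair hqq']
      omega
  obtain ⟨a, ha, h8a, rfl⟩ := (mem_octads_iff o1).mp h1
  obtain ⟨c, hc, h8c, rfl⟩ := (mem_octads_iff o2).mp h2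
  have hcode := xor_mem_allCode ha hc
  have hw := weight_cases _ hcode
  have hpop := pop_xor_add a c
  have hge : 3 ≤ pop (a &&& c) := by
    rw [← card_fs, fs_land]
    have hsub : ({q, q', p} : Finset GolayPt) ⊆ fs a ∩ fs c := by
      intro x hx
      simp only [Finset.mem_insert, Finset.mem_singleton] at hx
      rcases hx with rfl | rfl | rfl
      · exact Finset.mem_inter.mpr ⟨h1q, h2q⟩
      · exact Finset.mem_inter.mpr ⟨h1q', h2q'⟩
      · exact Finset.mem_inter.mpr ⟨h1p, h2p⟩
    have h3 := Finset.card_le_card hsub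
    rwa [Finset.card_eq_three.mpr ⟨q, q', p, hqq', fun h => hq (h ▸ hp), fun h => hq' (h ▸ hp), rfl⟩] at h3
  have hcases : pop (a ^^^ c) = 0 ∨ pop (a ^^^ c) = 8 := by
    rcases hw with h | h | h | h | h <;> omega
  rcases hcases with h0 | h8
  · have h3 : fs (a ^^^ c) = ∅ := by
      rw [← Finset.card_eq_zero, card_fs]
      exact h0
    rw [fs_xor] at h3
    exact symmDiff_eq_bot.mp h3
  · exfalso
    have hoct : fs (a ^^^ c) ∈ octads := (mem_octads_iff _).mpr ⟨_, hcode, h8, rfl⟩
    have hsub : fs (a ^^^ c) ⊆ d := by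
      intro x hx
      by_contra hxd
      rw [fs_xor, Finset.mem_symmDiff] at hx
      have e1 := hout _ h1 h1q h1q' h16
      have e2 := hout _ h2 h2q h2q' h26
      rcases hx with ⟨h3, h4⟩ | ⟨h3, h4⟩
      · have h5 : x ∈ fs a \ d := Finset.mem_sdiff.mpr ⟨h3, hxd⟩
        rw [e1, ← e2] at h5
        exact h4 (Finset.mem_sdiff.mp h5).1
      · have h5 : x ∈ fs c \ d := Finset.mem_sdiff.mpr ⟨h3, hxd⟩
        rw [e2, ← e1] at h5
        exact h4 (Finset.mem_sdiff.mp h5).1
    have h5 := octad_dodecad_inter hoct hd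
    rw [Finset.inter_eq_left.mpr hsub, card_fs, h8] at h5
    omega

/-- The stabiliser of a dodecad, a point on it and a pair outside it. -/
theorem exists_dod_pair_equiv {d : Finset GolayPt} (hd : d ∈ dodecads) {p q q' : GolayPt} (hp : p ∈ d) (hq : q ∉ d)
    (hq' : q' ∉ d) (hqq' : q ≠ q') :
    Nonempty (↥(MulAction.stabilizer M24 d ⊓ MulAction.stabilizer M24 p ⊓
      MulAction.stabilizer M24 ({q, q'} : Finset GolayPt)) ≃* Equiv.Perm (Fin 5)) := by
  obtain ⟨o, ho, hoq, hoq', hop, ho6⟩ := exists_octad_pair hd hp hq hq' hqq'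
  set G := MulAction.stabilizer M24 d ⊓ MulAction.stabilizer M24 p ⊓
      MulAction.stabilizer M24 ({q, q'} : Finset GolayPt) with hG
  have hst : ∀ g : G, (((g : M24) : Equiv.Perm GolayPt)) ∈ stabS d := fun g => mem_stabS.mpr ⟨(g : M24).2, g.2.1.1⟩
  have hgd : ∀ g : G, (((g : M24) : Equiv.Perm GolayPt)) • d = d := fun g => g.2.1.1
  have hgp : ∀ g : G, (((g : M24) : Equiv.Perm GolayPt)) p = p := fun g => g.2.1.2
  have hgqq : ∀ g : G, (((g : M24) : Equiv.Perm GolayPt)) • ({q, q'} : Finset GolayPt) = {q, q'} := fun g => g.2.2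
  have hpd : p ∈ o ∩ d := Finset.mem_inter.mpr ⟨hop, hp⟩
  have hgo : ∀ g : G, (((g : M24) : Equiv.Perm GolayPt)) • o = o := by
    intro g
    set k := ((g : M24) : Equiv.Perm GolayPt) with hk
    have hmemq : ∀ x, x ∈ ({q, q'} : Finset GolayPt) → x ∈ k • o := by
      intro x hx
      rw [← hgqq g] at hx
      obtain ⟨y, hy, rfl⟩ := Finset.mem_smul_finset.mp hx
      refine Finset.mem_smul_finset.mpr ⟨y, ?_, rfl⟩
      simp only [Finset.mem_insert, Finset.mem_singleton] at hy
      rcases hy with rfl | rfl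
      · exact hoq
      · exact hoq'
    refine unique_octad_pair hd hp hq hq' hqq' (M24_smul_octad (g : M24).2 ho) ho
      (hmemq q (by simp)) (hmemq q' (by simp)) ?_ ?_ hoq hoq' hop ho6
    · exact Finset.mem_smul_finset.mpr ⟨p, hop, hgp g⟩
    · have h1 : k • o ∩ d = k • (o ∩ d) := by
        rw [Finset.smul_finset_inter, hgd g]
      rw [h1, Finset.card_smul_finset, ho6]
  set F : Finset GolayPt := (o ∩ d).erase p with hF
  have hF5 : F.card = 5 := by
    rw [hF, Finset.card_erase_of_mem hpd, ho6]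
  have hmemF : ∀ x, x ∈ F ↔ x ≠ p ∧ x ∈ o ∧ x ∈ d := by
    intro x
    simp [hF, Finset.mem_erase, Finset.mem_inter]
  have hiff : ∀ g : G, ∀ x, ((g : M24) : Equiv.Perm GolayPt) x ∈ F ↔ x ∈ F := by
    intro g x
    rw [hmemF, hmemF, mem_of_smul_eq (hgo g) x, mem_of_smul_eq (hgd g) x]
    have : ((g : M24) : Equiv.Perm GolayPt) x ≠ p ↔ x ≠ p := by
      conv_lhs => rw [← hgp g]
      exact not_congr (Equiv.apply_eq_iff_eq _)
    rw [this]
  let R : G →* Equiv.Perm ↥F :=
    { toFun := fun g => ((g : M24) : Equiv.Perm GolayPt).subtypePerm (hiff g)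
      map_one' := by
        ext x
        rfl
      map_mul' := fun a b => by
        ext x
        rfl }
  have hinj : Function.Injective R := by
    rw [injective_iff_map_eq_one]
    intro g hg
    have h1 := fix5 hd (hst g) (s := o ∩ d) Finset.inter_subset_right (by omega) (fun x hx => by
      by_cases hxp : x = p
      · rw [hxp]
        exact hgp g
      · have hxF : x ∈ F := (hmemF x).mpr ⟨hxp, (Finset.mem_inter.mp hx).1, (Finset.mem_inter.mp hx).2⟩
        have := congrArg (fun r : Equiv.Perm ↥F => ((r ⟨x, hxF⟩ : ↥F) : GolayPt)) hg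
        exact this)
    exact Subtype.ext (Subtype.ext h1)
  have hsurj : Function.Surjective R := by
    intro σ
    have hcard : Fintype.card ↥F = 5 := by
      rw [Fintype.card_coe, hF5]
    let e : Fin 5 ≃ ↥F := (Fintype.equivFinOfCardEq hcard).symm
    have hneF : ∀ z : ↥F, (z : GolayPt) ≠ p := fun z => ((hmemF _).mp z.2).1
    let x : Fin 5 → GolayPt := Fin.cons p (fun i : Fin 4 => (e i.castSucc : GolayPt))
    let y : Fin 5 → GolayPt := Fin.cons p (fun i : Fin 4 => (σ (e i.castSucc) : GolayPt))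
    have hxinj : Function.Injective x := Fin.cons_injective_iff.mpr ⟨by
      rintro ⟨i, hi⟩
      exact hneF _ hi, fun i j h => Fin.castSucc_injective _ (e.injective (Subtype.ext h))⟩
    have hyinj : Function.Injective y := Fin.cons_injective_iff.mpr ⟨by
      rintro ⟨i, hi⟩
      exact hneF _ hi, fun i j h => Fin.castSucc_injective _ (e.injective (σ.injective (Subtype.ext h)))⟩
    have hxd : ∀ i, x i ∈ o ∧ x i ∈ d := by
      intro i
      refine Fin.cases ⟨hop, hp⟩ (fun j => ?_) i
      exact ((hmemF _).mp (e j.castSucc).2).2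
    have hyd : ∀ i, y i ∈ o ∧ y i ∈ d := by
      intro i
      refine Fin.cases ⟨hop, hp⟩ (fun j => ?_) i
      exact ((hmemF _).mp (σ (e j.castSucc)).2).2
    obtain ⟨⟨g, hg, hgi⟩, _⟩ := dod_sharp hd ⟨x, hxinj⟩ ⟨y, hyinj⟩ (fun i => (hxd i).2) (fun i => (hyd i).2)
    obtain ⟨hg1, hg2⟩ := mem_stabS.mp hg
    let t : Finset GolayPt := (Finset.univ : Finset (Fin 5)).map ⟨x, hxinj⟩
    have ht5 : t.card = 5 := by simp [t]
    have hgo' : g • o = o := smul_octad_eq hg1 ho (t := t) (by omega) (by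
      intro z hz
      obtain ⟨i, _, rfl⟩ := Finset.mem_map.mp hz
      exact (hxd i).1) (by
      intro z hz
      obtain ⟨i, _, rfl⟩ := Finset.mem_map.mp hz
      have := hgi i
      simp only [Function.Embedding.coeFn_mk] at this ⊢
      rw [this]
      exact (hyd i).1)
    have hgp' : g p = p := hgi 0
    have hqq : o \ d = {q, q'} := by
      symm
      apply Finset.eq_of_subset_of_card_le
      · intro z hz
        simp only [Finset.mem_insert, Finset.mem_singleton] at hz
        rcases hz with rfl | rfl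
        · exact Finset.mem_sdiff.mpr ⟨hoq, hq⟩
        · exact Finset.mem_sdiff.mpr ⟨hoq', hq'⟩
      · have h3 := Finset.card_sdiff_add_card_inter o d
        rw [ho6, ho.2] at h3
        rw [Finset.card_pair hqq']
        omega
    have hgqq' : g • ({q, q'} : Finset GolayPt) = {q, q'} := by
      rw [← hqq]
      exact smul_sdiff_stab hgo' hg2
    let g' : G := ⟨⟨g, hg1⟩, ⟨hg2, hgp'⟩, hgqq'⟩
    refine ⟨g', ?_⟩
    apply perm_eq_of_agree _ _ (e (Fin.last 4))
    intro z hz
    obtain ⟨k, rfl⟩ := e.surjective z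
    have hk : k ≠ Fin.last 4 := fun h => hz (by rw [h])
    obtain ⟨i, rfl⟩ := Fin.exists_castSucc_eq.mpr hk
    exact Subtype.ext (hgi i.succ)
  have hcard : Fintype.card ↥F = Fintype.card (Fin 5) := by
    rw [Fintype.card_coe, hF5, Fintype.card_fin]
  exact ⟨(MulEquiv.ofBijective R ⟨hinj, hsurj⟩).trans
    (Equiv.permCongrHom (Fintype.equivOfCardEq hcard))⟩

end CfsgLib.Golay
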