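/-
The subgroup of order 72 fixing a dodecad and three of its points: normal Sylow 3-subgroup and
quaternion Sylow 2-subgroups.
-/
import Cfsg.Agent.Lib.Golay.Dod3
import Cfsg.Agent.Lib.Golay.SixSets

set_option autoImplicit false
set_option maxRecDepth 100000

namespace CfsgLib.Golay

open Cfsg
open scoped Pointwise

/-- The elements of the base subgroup. -/
def L72 : List ℕ := TK3.flatMap fun a => TK4.map (comp a)

theorem L72_cover {g : Equiv.Perm GolayPt} (hg : g ∈ K72) : ∃ c ∈ L72, g = mk c := by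
  have hnil : ∀ F, fixIn (fixIn (stabS Dd0) []) F = fixIn (stabS Dd0) F := by
    intro F
    rw [fixIn_nil]
  have hg' : g ∈ fixIn (fixIn (stabS Dd0) []) [2, 1, 0] := by
    rw [hnil]
    exact hg
  obtain ⟨a, ha, hva, h1⟩ := lvK3.factor (by norm_num) (fun g hg => by
    rw [DK3_eq]
    exact mem_offMask_of_fix (by norm_num) (by simp) (by decide +kernel) hg) hg'
  obtain ⟨b, hb, hvb, h2⟩ := lvK4.factor (by norm_num) (fun g hg => by
    rw [DK4_eq]
    exact mem_offMask_of_fix (by norm_num) (by simp) (by decide +kernel) hg) h1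
  rw [hnil, fixIn_Dd0_bot, Subgroup.mem_bot] at h2
  refine ⟨comp a b, List.mem_flatMap.mpr ⟨a, ha, List.mem_map.mpr ⟨b, hb, rfl⟩⟩, ?_⟩
  rw [mk_comp hva hvb]
  have h3 : g = mk a * mk b * ((mk b)⁻¹ * ((mk a)⁻¹ * g)) := by group
  rw [h3, h2, mul_one]

/-- Conditions for a packed permutation to lie in the base subgroup. -/
def inK72 (c : ℕ) : Bool :=
  isAut c && Nat.beq (img c dod0) dod0 && Nat.beq (pa c 0) 0 && Nat.beq (pa c 1) 1 && Nat.beq (pa c 2) 2

theorem mem_K72_of {c : ℕ} (h : inK72 c = true) : isAut c = true ∧ mk c ∈ K72 := by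
  simp only [inK72, Bool.and_eq_true] at h
  obtain ⟨⟨⟨⟨hA, hd⟩, h0⟩, h1⟩, h2⟩ := h
  have hv := isAut_valid hA
  refine ⟨hA, mem_fixIn.mpr ⟨mem_stabS.mpr ⟨mk_mem_M24 hA, ?_⟩, fun q hq => ?_⟩⟩
  · rw [← fs_img hv, Nat.eq_of_beq_eq_true hd]
  · apply idx_inj
    rw [idx_mk hv]
    simp only [List.mem_cons, List.not_mem_nil, or_false] at hq
    rcases hq with h | h | h <;> rw [h]
    · exact Nat.eq_of_beq_eq_true h2
    · exact Nat.eq_of_beq_eq_true h1
    · exact Nat.eq_of_beq_eq_true h0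

/-- The elements of order dividing three. -/
def L9 : List ℕ := L72.filter fun c => samePerm (comp c (comp c c)) idP

theorem L9_card : L9.length = 9 ∧ (L9.map keyP).Nodup := by
  constructor <;> decide +kernel

theorem L9_sound : L9.all inK72 = true := by decide +kernel

theorem L9_mul : L9.all (fun a => L9.all fun b => L9.any fun c => samePerm (comp a b) c) = true := by decide +kernel

theorem L9_one : L9.any (fun c => samePerm c idP) = true := by decide +kernel

theorem L9_norm : L72.all (fun c => L9.all fun a => L9.any fun b => samePerm (comp c a) (comp b c)) = true := by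
  decide +kernel

theorem L72_valid : L72.all (fun c => valid c) = true := by decide +kernel

theorem L9_valid {c : ℕ} (h : c ∈ L9) : valid c = true ∧ mk c ∈ K72 := by
  have h1 := mem_K72_of (List.all_eq_true.mp L9_sound c h)
  exact ⟨isAut_valid h1.1, h1.2⟩

theorem mk_eq_of_same {a b : ℕ} (ha : valid a = true) (hb : valid b = true) (h : samePerm a b = true) : mk a = mk b :=
  mk_eq_of_samePerm ha hb h

theorem L9_cube {c : ℕ} (h : c ∈ L9) : mk c * (mk c * mk c) = 1 := by
  have hv := (L9_valid h).1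
  have h1 := (List.mem_filter.mp h).2
  have hcc := valid_comp hv hv
  have hccc := valid_comp hv hcc
  have hid : valid idP = true := by decide +kernel
  rw [← mk_comp hv hv, ← mk_comp hv hcc, mk_eq_of_same hccc hid h1, mk_idP]

/-- The normal subgroup of order nine. -/
def V72 : Subgroup ↥K72 where
  carrier := {g | ∃ c ∈ L9, g.1 = mk c}
  mul_mem' := by
    rintro a b ⟨x, hx, hax⟩ ⟨y, hy, hby⟩
    obtain ⟨z, hz, hxyz⟩ := List.any_eq_true.mp (List.all_eq_true.mp (List.all_eq_true.mp L9_mul x hx) y hy)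
    refine ⟨z, hz, ?_⟩
    show a.1 * b.1 = mk z
    rw [hax, hby, ← mk_comp (L9_valid hx).1 (L9_valid hy).1,
      mk_eq_of_same (valid_comp (L9_valid hx).1 (L9_valid hy).1) (L9_valid hz).1 hxyz]
  one_mem' := by
    obtain ⟨z, hz, h1⟩ := List.any_eq_true.mp L9_one
    have hid : valid idP = true := by decide +kernel
    refine ⟨z, hz, ?_⟩
    rw [mk_eq_of_same (L9_valid hz).1 hid h1, mk_idP]
    rfl
  inv_mem' := by
    rintro a ⟨x, hx, hax⟩
    obtain ⟨z, hz, hxyz⟩ := List.any_eq_true.mp (List.all_eq_true.mp (List.all_eq_true.mp L9_mul x hx) x hx)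
    refine ⟨z, hz, ?_⟩
    have e : mk z = mk x * mk x := by
      rw [← mk_comp (L9_valid hx).1 (L9_valid hx).1,
        mk_eq_of_same (valid_comp (L9_valid hx).1 (L9_valid hx).1) (L9_valid hz).1 hxyz]
    show (a.1)⁻¹ = mk z
    rw [hax, e]
    exact inv_eq_of_mul_eq_one_right (L9_cube hx)

instance V72_normal : V72.Normal := by
  refine ⟨fun a ha g => ?_⟩
  obtain ⟨x, hx, hax⟩ := ha
  obtain ⟨c, hc, hgc⟩ := L72_cover g.2
  obtain ⟨b, hb, h1⟩ := List.any_eq_true.mp (List.all_eq_true.mp (List.all_eq_true.mp L9_norm c hc) x hx)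
  refine ⟨b, hb, ?_⟩
  have hvc : valid c = true := List.all_eq_true.mp L72_valid c hc
  have hvx := (L9_valid hx).1
  have hvb := (L9_valid hb).1
  have e : mk c * mk x = mk b * mk c := by
    rw [← mk_comp hvc hvx, ← mk_comp hvb hvc, mk_eq_of_same (valid_comp hvc hvx) (valid_comp hvb hvc) h1]
  show g.1 * a.1 * (g.1)⁻¹ = mk b
  rw [hax, hgc, e]
  group

theorem card_V72 : Nat.card V72 = 9 := by
  have h1 : Nat.card {g : Equiv.Perm GolayPt // ∃ c ∈ L9, g = mk c} = L9.length :=
    card_of_list (fun c hc => (L9_valid hc).1) L9_card.2 (fun g => Iff.rfl)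
  rw [L9_card.1] at h1
  rw [← h1]
  refine Nat.card_congr ⟨fun a => ⟨a.1.1, a.2⟩, fun g => ⟨⟨g.1, ?_⟩, g.2⟩, ?_, ?_⟩
  · obtain ⟨c, hc, hgc⟩ := g.2
    rw [hgc]
    exact (L9_valid hc).2
  · intro a
    rfl
  · intro g
    rfl

theorem V72_cube (x : ↥K72) (hx : x ∈ V72) : x ^ 3 = 1 := by
  obtain ⟨c, hc, hxc⟩ := hx
  apply Subtype.ext
  show x.1 ^ 3 = 1
  rw [hxc, pow_succ, pow_two, mul_assoc]
  exact L9_cube hc

def tAq : List ℕ := [984818244535754528103549039458486304, 312285355390548198233592884127434784, 596693935057177821627616253167372320, 523871016866241286772790268246722592]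

def tXq : List ℕ := [798866382324465456966349450561816608, 487616041172978902898937048930027552, 680741985038306602728348918842755104, 932855694972972591231736865702905888]

/-- The values of the embedding of the quaternion group. -/
def qv : QuaternionGroup 2 → ℕ
  | .a i => tAq.getD i.val 0
  | .xa i => tXq.getD i.val 0

theorem qv_all : ∀ x y : QuaternionGroup 2, samePerm (comp (qv x) (qv y)) (qv (x * y)) = true := by
  decide +kernel

theorem qv_sound : ∀ x : QuaternionGroup 2, inK72 (qv x) = true := by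
  decide +kernel

theorem qv_inj : ∀ x y : QuaternionGroup 2, keyP (qv x) = keyP (qv y) → x = y := by
  decide +kernel

theorem qv_valid (x : QuaternionGroup 2) : valid (qv x) = true := isAut_valid (mem_K72_of (qv_sound x)).1

/-- The embedding of the quaternion group. -/
noncomputable def fQ8 : QuaternionGroup 2 →* ↥K72 :=
  MonoidHom.mk' (fun x => ⟨mk (qv x), (mem_K72_of (qv_sound x)).2⟩) (fun x y => by
    apply Subtype.ext
    show mk (qv (x * y)) = mk (qv x) * mk (qv y)
    rw [← mk_comp (qv_valid x) (qv_valid y)]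
    exact (mk_eq_of_same (valid_comp (qv_valid x) (qv_valid y)) (qv_valid _) (qv_all x y)).symm)

theorem fQ8_inj : Function.Injective fQ8 := by
  intro x y h
  have h1 : mk (qv x) = mk (qv y) := congrArg Subtype.val h
  have h2 := mk_inj_of_valid (qv_valid x) (qv_valid y) h1
  apply qv_inj
  exact List.map_congr_left fun i hi => h2 i (List.mem_range.mp hi)

/-! ### Abstract consequences -/

section Abstract

variable {H : Type*} [Group H] [Finite H]

theorem sylow3_of_normal (hc : Nat.card H = 72) (V : Subgroup H) (hVn : V.Normal) (hV9 : Nat.card V = 9)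
    (h3 : ∀ x ∈ V, x ^ 3 = 1) (Q : Sylow 3 H) :
    (Q : Subgroup H).Normal ∧ Nat.card (Q : Subgroup H) = 9 ∧ ∀ x ∈ (Q : Subgroup H), x ^ 3 = 1 := by
  haveI : Fact (Nat.Prime 3) := ⟨Nat.prime_three⟩
  have hVp : IsPGroup 3 V := IsPGroup.of_card (n := 2) (by rw [hV9]; norm_num)
  obtain ⟨Q', hle⟩ := hVp.exists_le_sylow
  obtain ⟨k, hk⟩ := IsPGroup.iff_card.mp Q'.2
  have hd1 : Nat.card Q' ∣ 72 := by
    rw [← hc]
    exact Subgroup.card_subgroup_dvd_card _
  have hd2 : 9 ∣ Nat.card Q' := by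
    rw [← hV9]
    exact Subgroup.card_dvd_of_le hle
  have hk2 : k = 2 := by
    have hk3 : k < 3 := by
      by_contra hcon
      have : 3 ^ 3 ∣ 72 := by
        refine dvd_trans (pow_dvd_pow 3 (by omega : 3 ≤ k)) ?_
        rwa [hk] at hd1
      norm_num at this
    have hk4 : 2 ≤ k := by
      by_contra hcon
      have hk5 : k = 0 ∨ k = 1 := by omega
      rw [hk] at hd2
      rcases hk5 with rfl | rfl <;> norm_num at hd2
    omega
  subst hk2
  have hQ'c : Nat.card Q' = 9 := by rw [hk]; norm_num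
  have heq : V = (Q' : Subgroup H) := Subgroup.eq_of_le_of_card_ge hle (by rw [hQ'c, hV9])
  obtain ⟨g, hg⟩ := MulAction.exists_smul_eq H Q' Q
  have hQ : (Q : Subgroup H) = V := by
    rw [← hg, Sylow.coe_subgroup_smul, ← heq]
    exact Subgroup.Normal.conjAct hVn g
  rw [hQ]
  exact ⟨hVn, hV9, h3⟩

theorem sylow2_of_Q8 (hc : Nat.card H = 72) (f : QuaternionGroup 2 →* H) (hf : Function.Injective f) (P : Sylow 2 H) :
    Nonempty (↥P ≃* QuaternionGroup 2) := by
  haveI : Fact (Nat.Prime 2) := ⟨Nat.prime_two⟩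
  have hc8 : Nat.card f.range = 8 := by
    rw [← Nat.card_congr (MonoidHom.ofInjective hf).toEquiv, Nat.card_eq_fintype_card, QuaternionGroup.card]
  have hp : IsPGroup 2 f.range := IsPGroup.of_card (n := 3) (by rw [hc8]; norm_num)
  obtain ⟨P', hle⟩ := hp.exists_le_sylow
  obtain ⟨k, hk⟩ := IsPGroup.iff_card.mp P'.2
  have hd1 : Nat.card P' ∣ 72 := by
    rw [← hc]
    exact Subgroup.card_subgroup_dvd_card _
  have hk3 : k ≤ 3 := by
    by_contra hcon
    have : 2 ^ 4 ∣ 72 := by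
      refine dvd_trans (pow_dvd_pow 2 (by omega : 4 ≤ k)) ?_
      rwa [hk] at hd1
    norm_num at this
  have hle8 : Nat.card P' ≤ 8 := by
    rw [hk]
    exact (Nat.pow_le_pow_right (by norm_num) hk3).trans (by norm_num)
  have heq : f.range = (P' : Subgroup H) := Subgroup.eq_of_le_of_card_ge hle (by rw [hc8]; exact hle8)
  refine ⟨(Sylow.equiv P P').trans ?_⟩
  have e : ↥(P' : Subgroup H) ≃* ↥f.range := MulEquiv.subgroupCongr heq.symm
  exact e.trans (MonoidHom.ofInjective hf).symm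

end Abstract

theorem mem_H_conj {u : Equiv.Perm GolayPt} (hu : u ∈ M24) (g : M24) :
    g ∈ (MulAction.stabilizer M24 (u • Dd0) ⊓ MulAction.stabilizer M24 (u (pt 0)) ⊓
      MulAction.stabilizer M24 (u (pt 1)) ⊓ MulAction.stabilizer M24 (u (pt 2))) ↔
      u⁻¹ * (g : Equiv.Perm GolayPt) * u ∈ K72 := by
  simp only [Subgroup.mem_inf, MulAction.mem_stabilizer_iff]
  rw [K72, mem_fixIn, mem_stabS]
  have hgm : u⁻¹ * (g : Equiv.Perm GolayPt) * u ∈ M24 := M24.mul_mem (M24.mul_mem (M24.inv_mem hu) g.2) hu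
  have e1 : ∀ a : GolayPt, g • (u a) = u a ↔ (u⁻¹ * (g : Equiv.Perm GolayPt) * u) a = a := by
    intro a
    change (g : Equiv.Perm GolayPt) (u a) = u a ↔ _
    simp only [Equiv.Perm.mul_apply]
    rw [Equiv.Perm.inv_eq_iff_eq]
  have e2 : g • (u • Dd0) = u • Dd0 ↔ (u⁻¹ * (g : Equiv.Perm GolayPt) * u) • Dd0 = Dd0 := by
    change (g : Equiv.Perm GolayPt) • (u • Dd0) = u • Dd0 ↔ _
    rw [mul_smul, mul_smul, inv_smul_eq_iff]
  rw [e1, e1, e1, e2]
  constructor
  · rintro ⟨⟨⟨h1, h2⟩, h3⟩, h4⟩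
    refine ⟨⟨hgm, h1⟩, ?_⟩
    intro a ha
    simp only [List.mem_cons, List.not_mem_nil, or_false] at ha
    rcases ha with ha | ha | ha
    · rw [← pt_idx a, ha]; exact h4
    · rw [← pt_idx a, ha]; exact h3
    · rw [← pt_idx a, ha]; exact h2
  · rintro ⟨⟨-, h1⟩, h2⟩
    refine ⟨⟨⟨h1, h2 _ ?_⟩, h2 _ ?_⟩, h2 _ ?_⟩
    · rw [idx_pt (by norm_num)]; simp
    · rw [idx_pt (by norm_num)]; simp
    · rw [idx_pt (by norm_num)]; simp

/-- The isomorphism of a stabiliser with the base subgroup. -/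
noncomputable def eH {u : Equiv.Perm GolayPt} (hu : u ∈ M24) :
    ↥(MulAction.stabilizer M24 (u • Dd0) ⊓ MulAction.stabilizer M24 (u (pt 0)) ⊓
      MulAction.stabilizer M24 (u (pt 1)) ⊓ MulAction.stabilizer M24 (u (pt 2))) ≃* ↥K72 where
  toFun g := ⟨u⁻¹ * (g.1 : Equiv.Perm GolayPt) * u, (mem_H_conj hu g.1).mp g.2⟩
  invFun a := ⟨⟨u * a.1 * u⁻¹, M24.mul_mem (M24.mul_mem hu (K72_le a.2)) (M24.inv_mem hu)⟩, (mem_H_conj hu _).mpr (by
    have e : u⁻¹ * (u * a.1 * u⁻¹) * u = a.1 := by group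
    show u⁻¹ * (u * a.1 * u⁻¹) * u ∈ K72
    rw [e]
    exact a.2)⟩
  left_inv g := by
    apply Subtype.ext
    apply Subtype.ext
    show u * (u⁻¹ * (g.1 : Equiv.Perm GolayPt) * u) * u⁻¹ = _
    group
  right_inv a := by
    apply Subtype.ext
    show u⁻¹ * (u * a.1 * u⁻¹) * u = a.1
    group
  map_mul' x y := by
    apply Subtype.ext
    show u⁻¹ * ((x.1 : Equiv.Perm GolayPt) * (y.1 : Equiv.Perm GolayPt)) * u =
      (u⁻¹ * (x.1 : Equiv.Perm GolayPt) * u) * (u⁻¹ * (y.1 : Equiv.Perm GolayPt) * u)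
    group

theorem result_5619 (d : Finset GolayPt) (hd : d ∈ dodecads) (p q r : GolayPt) (hp : p ∈ d) (hq : q ∈ d) (hr : r ∈ d)
    (hpq : p ≠ q) (hpr : p ≠ r) (hqr : q ≠ r) :
    (∀ Q : Sylow 3 ↥(MulAction.stabilizer M24 d ⊓ MulAction.stabilizer M24 p ⊓ MulAction.stabilizer M24 q ⊓
        MulAction.stabilizer M24 r),
      (Q : Subgroup ↥(MulAction.stabilizer M24 d ⊓ MulAction.stabilizer M24 p ⊓ MulAction.stabilizer M24 q ⊓
        MulAction.stabilizer M24 r)).Normal ∧ Nat.card ↥Q = 9 ∧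
      ∀ x ∈ (Q : Subgroup ↥(MulAction.stabilizer M24 d ⊓ MulAction.stabilizer M24 p ⊓ MulAction.stabilizer M24 q ⊓
        MulAction.stabilizer M24 r)), x ^ 3 = 1) ∧
    ∀ P : Sylow 2 ↥(MulAction.stabilizer M24 d ⊓ MulAction.stabilizer M24 p ⊓ MulAction.stabilizer M24 q ⊓
        MulAction.stabilizer M24 r), Nonempty (↥P ≃* QuaternionGroup 2) := by
  have hc := (dod_three_stab d hd p q r hp hq hr hpq hpr hqr).1
  obtain ⟨u, hu, rfl, rfl, rfl, rfl⟩ := exists_conj_Dd0_triple hd hp hq hr hpq hpr hqr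
  have e := eH hu
  refine ⟨fun Q => ?_, fun P => ?_⟩
  · refine sylow3_of_normal hc (V72.map e.symm.toMonoidHom)
      (Subgroup.Normal.map V72_normal _ e.symm.surjective) ?_ ?_ Q
    · rw [Subgroup.card_map_of_injective e.symm.injective]
      exact card_V72
    · rintro x ⟨y, hy, rfl⟩
      rw [← map_pow, V72_cube y hy, map_one]
  · exact sylow2_of_Q8 hc (e.symm.toMonoidHom.comp fQ8) (e.symm.injective.comp fQ8_inj) P

end CfsgLib.Golay
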