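/-
The stabiliser in the Mathieu group of degree 24 of a dodecad and a point on each side of it is the
projective special linear group of degree two over the field with eleven elements.
-/
import Cfsg.Agent.Lib.Golay.Dodecad2
import Cfsg.Agent.Lib.Golay.Elems
import Cfsg.Agent.Lib.ClassGeo.Basic

set_option autoImplicit false
set_option maxRecDepth 100000

namespace CfsgLib.Golay

open Cfsg
open scoped Pointwise

def t11P : List ℕ := [984818244535754528103549039458486304, 566436225616944926217542054377400576, 902827982470870642131282083255979552, 474392436244856441956987090234522752, 692618603392882313815405505540556064, 596607622051423063254123569274298560, 768965308402261555133304305481991328, 808317867131232008095097631689347136, 522661864067042734087901214844036416, 939456434297783641228655872308222048, 846900349611616337616049590645364192]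

def l11P : List ℕ := [984818244535754528103549039458486304, 931195430271148834375761283190397408, 561283186274555954188068498534012160, 688807611025273909035709312944843040, 766817866390137671576659638511518784, 607116828269451786747964216960946368, 817034667394371341821262308978134176, 887258354621438696892193070894974272, 473256462855072820459667147774574112, 525004563704363085750642537006669952, 861409722481099562688420902855648352]

/-- The group of order 660 at the base configuration. -/
abbrev H660 : Subgroup (Equiv.Perm GolayPt) := fixIn (fixIn (stabS Dd0) [0]) [7]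

def inH660 (c : ℕ) : Bool :=
  isAut c && Nat.beq (img c dod0) dod0 && Nat.beq (pa c 0) 0 && Nat.beq (pa c 7) 7

theorem mem_H660_of {c : ℕ} (h : inH660 c = true) : isAut c = true ∧ mk c ∈ H660 := by
  simp only [inH660, Bool.and_eq_true] at h
  obtain ⟨⟨⟨hA, hd⟩, h0⟩, h1⟩ := h
  have hv := isAut_valid hA
  refine ⟨hA, mem_fixIn.mpr ⟨mem_fixIn.mpr ⟨mem_stabS.mpr ⟨mk_mem_M24 hA, ?_⟩, fun q hq => ?_⟩, fun q hq => ?_⟩⟩
  · rw [← fs_img hv, Nat.eq_of_beq_eq_true hd]
  · apply idx_inj
    rw [idx_mk hv]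
    simp only [List.mem_cons, List.not_mem_nil, or_false] at hq
    rw [hq]
    exact Nat.eq_of_beq_eq_true h0
  · apply idx_inj
    rw [idx_mk hv]
    simp only [List.mem_cons, List.not_mem_nil, or_false] at hq
    rw [hq]
    exact Nat.eq_of_beq_eq_true h1

/-- Inverses modulo eleven. -/
def cinv11 (c : ℕ) : ℕ := [0, 1, 6, 4, 3, 9, 2, 8, 7, 5, 10].getD c 0

/-- The packed image of a matrix with nonzero lower-left entry. -/
def F1q (a c d : ZMod 11) : ℕ :=
  comp (comp (t11P.getD (((a.val + 10) * cinv11 c.val) % 11) 0) (l11P.getD c.val 0))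
    (t11P.getD (((d.val + 10) * cinv11 c.val) % 11) 0)

/-- The packed image of a matrix. -/
def Fq (a b c d : ZMod 11) : ℕ :=
  if c = 0 then comp (F1q (a + b) d d) (l11P.getD 10 0) else F1q a c d

def chkF (a b c d : ZMod 11) : Bool :=
  inH660 (Fq a b c d) &&
  samePerm (Fq a (a + b) c (c + d)) (comp (Fq a b c d) (t11P.getD 1 0)) &&
  samePerm (Fq (a + b) b (c + d) d) (comp (Fq a b c d) (l11P.getD 1 0)) &&
  (!samePerm (Fq a b c d) idP || ((b == 0) && (c == 0) && ((a == 1 && d == 1) || (a == 10 && d == 10))))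

theorem chkF_all : ∀ a b c d : ZMod 11, a * d - b * c = 1 → chkF a b c d = true := by
  decide +kernel

/-! ### The homomorphism -/

abbrev SL211 := Matrix.SpecialLinearGroup (Fin 2) (ZMod 11)

instance fact_prime_eleven : Fact (Nat.Prime 11) := ⟨by norm_num⟩

def qM (M : SL211) : ℕ := Fq (M.1 0 0) (M.1 0 1) (M.1 1 0) (M.1 1 1)

theorem det_q (M : SL211) : M.1 0 0 * M.1 1 1 - M.1 0 1 * M.1 1 0 = 1 := by
  have := M.2
  rwa [Matrix.det_fin_two] at this

theorem chk_M (M : SL211) : chkF (M.1 0 0) (M.1 0 1) (M.1 1 0) (M.1 1 1) = true :=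
  chkF_all _ _ _ _ (det_q M)

theorem chk_parts (M : SL211) : inH660 (qM M) = true ∧
    samePerm (Fq (M.1 0 0) (M.1 0 0 + M.1 0 1) (M.1 1 0) (M.1 1 0 + M.1 1 1)) (comp (qM M) (t11P.getD 1 0)) = true ∧
    samePerm (Fq (M.1 0 0 + M.1 0 1) (M.1 0 1) (M.1 1 0 + M.1 1 1) (M.1 1 1)) (comp (qM M) (l11P.getD 1 0)) = true ∧
    (samePerm (qM M) idP = true → M.1 0 1 = 0 ∧ M.1 1 0 = 0 ∧
      ((M.1 0 0 = 1 ∧ M.1 1 1 = 1) ∨ (M.1 0 0 = 10 ∧ M.1 1 1 = 10))) := by
  have h := chk_M M
  simp only [chkF, Bool.and_eq_true, Bool.or_eq_true, Bool.not_eq_true', beq_iff_eq] at h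
  obtain ⟨⟨⟨h1, h2⟩, h3⟩, h4⟩ := h
  refine ⟨h1, h2, h3, fun hs => ?_⟩
  rcases h4 with h4 | ⟨⟨h5, h6⟩, h7⟩
  · change samePerm (qM M) idP = false at h4
    rw [hs] at h4
    exact absurd h4 (by simp)
  · exact ⟨h5, h6, h7⟩

theorem qM_valid (M : SL211) : valid (qM M) = true := isAut_valid (mem_H660_of (chk_parts M).1).1

noncomputable def fM (M : SL211) : Equiv.Perm GolayPt := mk (qM M)

def tE : SL211 := ⟨!![1, 1; 0, 1], by decide⟩
def lE : SL211 := ⟨!![1, 0; 1, 1], by decide⟩

theorem sl_mul_apply (A B : SL211) (i j : Fin 2) :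
    (A * B).1 i j = A.1 i 0 * B.1 0 j + A.1 i 1 * B.1 1 j := by
  show (A.1 * B.1) i j = _
  simp [Matrix.mul_apply, Fin.sum_univ_two]

theorem t1_valid : valid (t11P.getD 1 0) = true := by decide +kernel
theorem l1_valid : valid (l11P.getD 1 0) = true := by decide +kernel

theorem fM_mul_t (M : SL211) : fM (M * tE) = fM M * mk (t11P.getD 1 0) := by
  have h := (chk_parts M).2.1
  rw [fM, fM, ← mk_comp (qM_valid M) t1_valid]
  have e : qM (M * tE) = Fq (M.1 0 0) (M.1 0 0 + M.1 0 1) (M.1 1 0) (M.1 1 0 + M.1 1 1) := by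
    simp only [qM, sl_mul_apply]
    simp [tE]
  have hv : valid (qM (M * tE)) = true := qM_valid _
  rw [e] at hv ⊢
  exact mk_eq_of_samePerm hv (valid_comp (qM_valid M) t1_valid) h

theorem fM_mul_l (M : SL211) : fM (M * lE) = fM M * mk (l11P.getD 1 0) := by
  have h := (chk_parts M).2.2.1
  rw [fM, fM, ← mk_comp (qM_valid M) l1_valid]
  have e : qM (M * lE) = Fq (M.1 0 0 + M.1 0 1) (M.1 0 1) (M.1 1 0 + M.1 1 1) (M.1 1 1) := by
    simp only [qM, sl_mul_apply]
    simp [lE]
  have hv : valid (qM (M * lE)) = true := qM_valid _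
  rw [e] at hv ⊢
  exact mk_eq_of_samePerm hv (valid_comp (qM_valid M) l1_valid) h

theorem idP_valid' : valid idP = true := by decide +kernel

theorem fM_one : fM 1 = 1 := by
  have h : samePerm (Fq 1 0 0 1) idP = true := by decide +kernel
  have hv : valid (Fq 1 0 0 1) = true := by decide +kernel
  have e : qM 1 = Fq 1 0 0 1 := by simp [qM]
  rw [fM, e, mk_eq_of_samePerm hv idP_valid' h, mk_idP]

theorem fM_t : fM tE = mk (t11P.getD 1 0) := by
  have := fM_mul_t 1
  rwa [one_mul, fM_one, one_mul] at this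

theorem fM_l : fM lE = mk (l11P.getD 1 0) := by
  have := fM_mul_l 1
  rwa [one_mul, fM_one, one_mul] at this

/-- The elements over which the map is multiplicative. -/
def goodN : Subgroup SL211 where
  carrier := {N | ∀ M, fM (M * N) = fM M * fM N}
  one_mem' := fun M => by rw [mul_one, fM_one, mul_one]
  mul_mem' := by
    intro a b ha hb M
    have h1 : fM (a * b) = fM a * fM b := by
      have := hb a
      exact this
    rw [← mul_assoc, hb, ha, h1, mul_assoc]
  inv_mem' := by
    intro a ha M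
    have h1 := ha a⁻¹
    rw [inv_mul_cancel, fM_one] at h1
    have h2 := ha (M * a⁻¹)
    rw [inv_mul_cancel_right] at h2
    have h3 : fM a⁻¹ = (fM a)⁻¹ := eq_inv_of_mul_eq_one_left h1.symm
    rw [h2, h3, mul_inv_cancel_right]

theorem t_good : tE ∈ goodN := fun M => by rw [fM_mul_t, fM_t]
theorem l_good : lE ∈ goodN := fun M => by rw [fM_mul_l, fM_l]

def uN (x : ZMod 11) : SL211 := ⟨!![1, x; 0, 1], by simp [Matrix.det_fin_two]⟩
def lN (x : ZMod 11) : SL211 := ⟨!![1, 0; x, 1], by simp [Matrix.det_fin_two]⟩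

theorem sl_ext' {A B : SL211} (h00 : A.1 0 0 = B.1 0 0) (h01 : A.1 0 1 = B.1 0 1)
    (h10 : A.1 1 0 = B.1 1 0) (h11 : A.1 1 1 = B.1 1 1) : A = B := by
  apply Subtype.ext
  ext i j
  fin_cases i <;> fin_cases j <;> assumption

theorem uN_good (n : ℕ) : uN (n : ZMod 11) ∈ goodN := by
  induction n with
  | zero =>
    have : uN ((0 : ℕ) : ZMod 11) = 1 := by
      apply sl_ext' <;> simp [uN]
    rw [this]
    exact goodN.one_mem
  | succ n ih =>
    have : uN ((n + 1 : ℕ) : ZMod 11) = uN (n : ZMod 11) * tE := by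
      apply sl_ext' <;> simp only [sl_mul_apply] <;> simp [uN, tE] <;> ring
    rw [this]
    exact goodN.mul_mem ih t_good

theorem lN_good (n : ℕ) : lN (n : ZMod 11) ∈ goodN := by
  induction n with
  | zero =>
    have : lN ((0 : ℕ) : ZMod 11) = 1 := by
      apply sl_ext' <;> simp [lN]
    rw [this]
    exact goodN.one_mem
  | succ n ih =>
    have : lN ((n + 1 : ℕ) : ZMod 11) = lN (n : ZMod 11) * lE := by
      apply sl_ext' <;> simp only [sl_mul_apply] <;> simp [lN, lE]
    rw [this]
    exact goodN.mul_mem ih l_good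

theorem uN_good' (x : ZMod 11) : uN x ∈ goodN := by
  have := uN_good x.val
  rwa [ZMod.natCast_zmod_val] at this

theorem lN_good' (x : ZMod 11) : lN x ∈ goodN := by
  have := lN_good x.val
  rwa [ZMod.natCast_zmod_val] at this

theorem good_of_ne {M : SL211} (hc : M.1 1 0 ≠ 0) : M ∈ goodN := by
  have hdet := det_q M
  set a := M.1 0 0 with ha
  set b := M.1 0 1 with hb
  set c := M.1 1 0 with hc'
  set d := M.1 1 1 with hd
  have e : M = uN ((a - 1) / c) * lN c * uN ((d - 1) / c) := by
    apply sl_ext'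
    · simp only [sl_mul_apply]
      simp [uN, lN, ← ha]
      field_simp
      ring
    · simp only [sl_mul_apply]
      simp [uN, lN, ← hb]
      field_simp
      linear_combination -hdet
    · simp only [sl_mul_apply]
      simp [uN, lN, ← hc']
    · simp only [sl_mul_apply]
      simp [uN, lN, ← hd]
      field_simp
      ring
  rw [e]
  exact goodN.mul_mem (goodN.mul_mem (uN_good' _) (lN_good' _)) (uN_good' _)

theorem all_good (M : SL211) : M ∈ goodN := by
  by_cases hc : M.1 1 0 = 0
  · have hdet := det_q M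
    have hd : M.1 1 1 ≠ 0 := by
      intro h
      rw [h, hc] at hdet
      simp at hdet
    have h1 : (M * lE) ∈ goodN := by
      apply good_of_ne
      simp only [sl_mul_apply]
      simp [lE, hc, hd]
    have := goodN.mul_mem h1 (goodN.inv_mem l_good)
    rwa [mul_inv_cancel_right] at this
  · exact good_of_ne hc

/-- The homomorphism onto the base subgroup. -/
noncomputable def phi660 : SL211 →* ↥H660 :=
  MonoidHom.mk' (fun M => ⟨fM M, (mem_H660_of (chk_parts M).1).2⟩) (fun a b => by
    apply Subtype.ext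
    exact all_good b a)

theorem phi660_ker : phi660.ker = Subgroup.center SL211 := by
  ext M
  rw [MonoidHom.mem_ker, Matrix.SpecialLinearGroup.mem_center_iff]
  constructor
  · intro h
    have h1 : fM M = 1 := congrArg Subtype.val h
    have h2 : samePerm (qM M) idP = true := by
      have h3 : mk (qM M) = mk idP := by rw [mk_idP]; exact h1
      have h4 := mk_inj_of_valid (qM_valid M) idP_valid' h3
      exact List.all_eq_true.mpr fun i hi => by
        rw [h4 i (List.mem_range.mp hi)]
        exact Nat.beq_refl _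
    obtain ⟨hb, hc, hs⟩ := (chk_parts M).2.2.2 h2
    rcases hs with ⟨ha, hd⟩ | ⟨ha, hd⟩
    · refine ⟨1, by simp, ?_⟩
      ext i j
      fin_cases i <;> fin_cases j <;> simp [ha, hb, hc, hd]
    · refine ⟨10, by decide, ?_⟩
      ext i j
      fin_cases i <;> fin_cases j <;> simp [ha, hb, hc, hd]
  · rintro ⟨r, hr, hM⟩
    have hr' : r = 1 ∨ r = 10 := by
      revert r
      have hcard : Fintype.card (Fin 2) = 2 := by simp
      rw [hcard]
      intro r hr hM
      revert hr
      clear hM
      revert r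
      decide
    have e00 : M.1 0 0 = r := by rw [← hM]; simp
    have e01 : M.1 0 1 = 0 := by rw [← hM]; simp
    have e10 : M.1 1 0 = 0 := by rw [← hM]; simp
    have e11 : M.1 1 1 = r := by rw [← hM]; simp
    apply Subtype.ext
    show fM M = 1
    rw [fM, qM, e00, e01, e10, e11]
    rcases hr' with rfl | rfl
    · have h : samePerm (Fq 1 0 0 1) idP = true := by decide +kernel
      have hv : valid (Fq 1 0 0 1) = true := by decide +kernel
      rw [mk_eq_of_samePerm hv idP_valid' h, mk_idP]
    · have h : samePerm (Fq 10 0 0 10) idP = true := by decide +kernel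
      have hv : valid (Fq 10 0 0 10) = true := by decide +kernel
      rw [mk_eq_of_samePerm hv idP_valid' h, mk_idP]

def mE : SL211 := ⟨!![10, 0; 0, 10], by decide⟩

theorem card_SL211 : Nat.card SL211 = 1320 := by
  have h := CfsgLib.ClassGeo.q_sub_one_mul_card_SL (F := ZMod 11) (q := 11) (ZMod.card 11) 2 (by norm_num)
  rw [Fin.prod_univ_two] at h
  have h2 : (11 ^ 2 - 11 ^ (((0 : Fin 2) : ℕ))) * (11 ^ 2 - 11 ^ (((1 : Fin 2) : ℕ))) = 13200 := by norm_num
  rw [h2] at h
  change Nat.card (Matrix.SpecialLinearGroup (Fin 2) (ZMod 11)) = 1320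
  omega

theorem card_H660 : Nat.card ↥H660 = 660 := by
  have h1 := card_level lvM0 (by norm_num) (by rw [DM0_eq]; exact offMask_nodup _ _)
    (fun g hg => by
      rw [DM0_eq]
      have hg0 := (mem_fixIn.mp hg).1
      have hg1 := (mem_fixIn.mp hg0).1
      have hs := (mem_stabS.mp hg1).2
      have hc := inv_compl hs
      have h7 : pt 7 ∈ Dd0ᶜ := by
        rw [← fs_dodC]
        exact (mem_fs_pt (by norm_num)).mpr (by decide +kernel)
      have h8 := (mem_of_smul_eq hc (pt 7)).mpr h7
      rw [← fs_dodC] at h8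
      exact mem_offMask.mpr ⟨idx_lt _, mem_fs.mp h8, by simp⟩)
  rw [fixIn_nil] at h1
  have h2 : Nat.card ↥(fixIn (stabS Dd0) [0]) = 7920 := by
    have h3 := card_stab_dod_pt (d := Dd0) (by exact Dd0_mem) (p := pt 0) ((mem_fs_pt (by norm_num)).mpr (by decide +kernel))
    rw [fixIn_cons _ _ (by norm_num), fixIn_nil]
    exact h3
  rw [h2] at h1
  have h4 : DM0.length = 12 := by decide +kernel
  rw [h4] at h1
  change Nat.card ↥(fixIn (fixIn (stabS (fs dod0)) [0]) [7]) = 660
  omega

theorem phi660_surj : Function.Surjective phi660 := by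
  have hk : Nat.card phi660.ker = 2 := by
    rw [Nat.card_eq_two_iff]
    have hm : mE ∈ phi660.ker := by
      rw [phi660_ker, Matrix.SpecialLinearGroup.mem_center_iff]
      refine ⟨10, by decide, ?_⟩
      ext i j
      fin_cases i <;> fin_cases j <;> simp [mE]
    refine ⟨1, ⟨_, hm⟩, ?_, ?_⟩
    · intro h
      have h1 := congrArg (fun x : phi660.ker => x.1.1 0 0) h
      revert h1
      simp [mE]
      decide
    · ext ⟨M, hM⟩
      simp only [Set.mem_insert_iff, Set.mem_singleton_iff, Set.mem_univ, iff_true]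
      rw [phi660_ker, Matrix.SpecialLinearGroup.mem_center_iff] at hM
      obtain ⟨r, hr, hMr⟩ := hM
      have hr' : r = 1 ∨ r = 10 := by
        have hcard : Fintype.card (Fin 2) = 2 := by simp
        rw [hcard] at hr
        revert hr
        clear hMr
        revert r
        decide
      rcases hr' with rfl | rfl
      · left
        apply Subtype.ext
        apply Subtype.ext
        rw [← hMr]
        simp
      · right
        apply Subtype.ext
        apply Subtype.ext
        rw [← hMr]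
        ext i j
        fin_cases i <;> fin_cases j <;> simp [mE]
  have h1 := Subgroup.card_mul_index phi660.ker
  rw [hk, card_SL211, Subgroup.index_ker] at h1
  have h2 : Nat.card phi660.range = Nat.card ↥H660 := by
    rw [card_H660]
    omega
  have h3 := Subgroup.eq_top_of_card_eq _ h2
  exact MonoidHom.range_eq_top.mp h3

/-- The isomorphism of the base subgroup with the projective special linear group. -/
noncomputable def ePSL : Matrix.ProjectiveSpecialLinearGroup (Fin 2) (ZMod 11) ≃* ↥H660 :=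
  (QuotientGroup.quotientMulEquivOfEq phi660_ker.symm).trans
    (QuotientGroup.quotientKerEquivOfSurjective phi660 phi660_surj)

theorem mem_H660_conj {u : Equiv.Perm GolayPt} (hu : u ∈ M24) (g : M24) :
    g ∈ (MulAction.stabilizer M24 (u • Dd0) ⊓ MulAction.stabilizer M24 (u (pt 0)) ⊓
      MulAction.stabilizer M24 (u (pt 7))) ↔
      u⁻¹ * (g : Equiv.Perm GolayPt) * u ∈ H660 := by
  simp only [Subgroup.mem_inf, MulAction.mem_stabilizer_iff]
  rw [H660, mem_fixIn, mem_fixIn, mem_stabS]
  have hgm : u⁻¹ * (g : Equiv.Perm GolayPt) * u ∈ M24 := M24.mul_mem (M24.mul_mem (M24.inv_mem hu) g.2) hu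
  have e1 : ∀ a : GolayPt, g • (u a) = u a ↔ (u⁻¹ * (g : Equiv.Perm GolayPt) * u) a = a := by
    intro a
    change (g : Equiv.Perm GolayPt) (u a) = u a ↔ _
    simp only [Equiv.Perm.mul_apply]
    rw [Equiv.Perm.inv_eq_iff_eq]
  have e2 : g • (u • Dd0) = u • Dd0 ↔ (u⁻¹ * (g : Equiv.Perm GolayPt) * u) • Dd0 = Dd0 := by
    change (g : Equiv.Perm GolayPt) • (u • Dd0) = u • Dd0 ↔ _
    rw [mul_smul, mul_smul, inv_smul_eq_iff]
  rw [e1, e1, e2]
  constructor
  · rintro ⟨⟨h1, h2⟩, h3⟩
    refine ⟨⟨⟨hgm, h1⟩, ?_⟩, ?_⟩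
    · intro a ha
      simp only [List.mem_cons, List.not_mem_nil, or_false] at ha
      rw [← pt_idx a, ha]
      exact h2
    · intro a ha
      simp only [List.mem_cons, List.not_mem_nil, or_false] at ha
      rw [← pt_idx a, ha]
      exact h3
  · rintro ⟨⟨⟨-, h1⟩, h2⟩, h3⟩
    refine ⟨⟨h1, h2 _ ?_⟩, h3 _ ?_⟩
    · rw [idx_pt (by norm_num)]; simp
    · rw [idx_pt (by norm_num)]; simp

/-- The isomorphism of a stabiliser with the base subgroup. -/
noncomputable def eH660 {u : Equiv.Perm GolayPt} (hu : u ∈ M24) :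
    ↥(MulAction.stabilizer M24 (u • Dd0) ⊓ MulAction.stabilizer M24 (u (pt 0)) ⊓
      MulAction.stabilizer M24 (u (pt 7))) ≃* ↥H660 where
  toFun g := ⟨u⁻¹ * (g.1 : Equiv.Perm GolayPt) * u, (mem_H660_conj hu g.1).mp g.2⟩
  invFun a := ⟨⟨u * a.1 * u⁻¹, M24.mul_mem (M24.mul_mem hu (mem_stabS.mp (mem_fixIn.mp (mem_fixIn.mp a.2).1).1).1) (M24.inv_mem hu)⟩,
    (mem_H660_conj hu _).mpr (by
      have e : u⁻¹ * (u * a.1 * u⁻¹) * u = a.1 := by group
      show u⁻¹ * (u * a.1 * u⁻¹) * u ∈ H660
      rw [e]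
      exact a.2)⟩
  left_inv g := by
    apply Subtype.ext
    apply Subtype.ext
    show u * (u⁻¹ * (g.1 : Equiv.Perm GolayPt) * u) * u⁻¹ = _
    group
  right_inv a := by
    apply Subtype.ext
    show u⁻¹ * (u * a.1 * u⁻¹) * u = a.1
    group
  map_mul' x y := by
    apply Subtype.ext
    show u⁻¹ * ((x.1 : Equiv.Perm GolayPt) * (y.1 : Equiv.Perm GolayPt)) * u =
      (u⁻¹ * (x.1 : Equiv.Perm GolayPt) * u) * (u⁻¹ * (y.1 : Equiv.Perm GolayPt) * u)
    group

/-- Moving a dodecad and a point on each side of it to the base configuration. -/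
theorem exists_conj_Dd0_two {d : Finset GolayPt} (hd : d ∈ dodecads) {p q : GolayPt} (hp : p ∈ d) (hq : q ∉ d) :
    ∃ u ∈ M24, u • Dd0 = d ∧ u (pt 0) = p ∧ u (pt 7) = q := by
  obtain ⟨h, hh, rfl, rfl⟩ := exists_conj_Dd0_pt hd hp
  have hq' : h⁻¹ q ∈ Dd0ᶜ := by
    rw [Finset.mem_compl]
    intro h2
    apply hq
    exact Finset.mem_smul_finset.mpr ⟨_, h2, by simp⟩
  obtain ⟨g, hg, hgq⟩ := chain_M11.2.2.2.1 _ hq' (by simp)
  rw [fixIn_nil] at hg
  obtain ⟨hg1, hg2⟩ := mem_fixIn.mp hg
  obtain ⟨hg3, hg4⟩ := mem_stabS.mp hg1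
  refine ⟨h * g, M24.mul_mem hh hg3, ?_, ?_, ?_⟩
  · rw [mul_smul, hg4]
  · rw [Equiv.Perm.mul_apply, hg2 _ (by rw [idx_pt (by norm_num)]; simp)]
  · rw [Equiv.Perm.mul_apply, hgq]
    simp

theorem result_1601 (d : Finset GolayPt) (hd : d ∈ dodecads) (p q : GolayPt) (hp : p ∈ d) (hq : q ∉ d) :
    Nonempty (↥(MulAction.stabilizer M24 d ⊓ MulAction.stabilizer M24 p ⊓ MulAction.stabilizer M24 q) ≃*
      Matrix.ProjectiveSpecialLinearGroup (Fin 2) (ZMod 11)) := by
  obtain ⟨u, hu, rfl, rfl, rfl⟩ := exists_conj_Dd0_two hd hp hq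
  exact ⟨(eH660 hu).trans ePSL.symm⟩

end CfsgLib.Golay
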