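/-
The two-point group in the setwise stabiliser of the pair: index two, and the induced automorphism is not inner.
-/
import Cfsg.Agent.Lib.Golay.Class
import Cfsg.Agent.Lib.Golay.Trans
import Cfsg.Prelude.Def_Spor_Mathieu

set_option autoImplicit false
set_option maxRecDepth 100000

namespace CfsgLib.Golay

open Cfsg Cfsg.Spor
open scoped Pointwise

theorem mem_SporM22 {x : Equiv.Perm GolayPt} :
    x ∈ Spor.M22 ↔ x ∈ M24 ∧ x none = none ∧ x (some 0) = some 0 := by
  simp only [Spor.M22, Spor.M23, Subgroup.mem_inf, MulAction.mem_stabilizer_iff]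
  constructor
  · rintro ⟨⟨h1, h2⟩, h3⟩
    exact ⟨h1, h2, h3⟩
  · rintro ⟨h1, h2, h3⟩
    exact ⟨⟨h1, h2⟩, h3⟩

theorem swap_smul_pair {g : Equiv.Perm GolayPt} (h₁ : g none = some 0) (h₂ : g (some 0) = none) :
    g • ({none, some 0} : Finset GolayPt) = {none, some 0} := by
  rw [Finset.smul_finset_insert, Finset.smul_finset_singleton]
  change ({g none, g (some 0)} : Finset GolayPt) = _
  rw [h₁, h₂]
  ext x
  simp only [Finset.mem_insert, Finset.mem_singleton]
  tauto

theorem M22_result (g : Equiv.Perm GolayPt) (hg : g ∈ M24) (h₁ : g none = some 0) (h₂ : g (some 0) = none) :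
    Spor.M22.relIndex (M24 ⊓ MulAction.stabilizer (Equiv.Perm GolayPt) ({none, some 0} : Finset GolayPt)) = 2 ∧
    (∀ x ∈ Spor.M22, g * x * g⁻¹ ∈ Spor.M22) ∧
    ¬ ∃ h ∈ Spor.M22, ∀ x ∈ Spor.M22, g * x * g⁻¹ = h * x * h⁻¹ := by
  have hginv1 : g⁻¹ (some 0) = none := by rw [Equiv.Perm.inv_eq_iff_eq, h₁]
  have hginv2 : g⁻¹ none = some 0 := by rw [Equiv.Perm.inv_eq_iff_eq, h₂]
  refine ⟨?_, ?_, ?_⟩
  · set K := M24 ⊓ MulAction.stabilizer (Equiv.Perm GolayPt) ({none, some 0} : Finset GolayPt) with hK
    have hgK : g ∈ K := Subgroup.mem_inf.mpr ⟨hg, MulAction.mem_stabilizer_iff.mpr (swap_smul_pair h₁ h₂)⟩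
    rw [Subgroup.relIndex, Subgroup.index_eq_two_iff]
    refine ⟨⟨g, hgK⟩, fun b => ?_⟩
    have hb1 := (Subgroup.mem_inf.mp b.2).1
    have hb2 : (b : Equiv.Perm GolayPt) • ({none, some 0} : Finset GolayPt) = {none, some 0} :=
      MulAction.mem_stabilizer_iff.mp (Subgroup.mem_inf.mp b.2).2
    have hn : (b : Equiv.Perm GolayPt) none ∈ ({none, some 0} : Finset GolayPt) :=
      (mem_of_smul_eq hb2 _).mpr (by simp)
    have hz : (b : Equiv.Perm GolayPt) (some 0) ∈ ({none, some 0} : Finset GolayPt) :=
      (mem_of_smul_eq hb2 _).mpr (by simp)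
    simp only [Finset.mem_insert, Finset.mem_singleton] at hn hz
    rw [Subgroup.mem_subgroupOf, Subgroup.mem_subgroupOf, mem_SporM22, mem_SporM22]
    have hne : (none : GolayPt) ≠ some 0 := by simp
    rcases hn with hn | hn
    · have hz' : (b : Equiv.Perm GolayPt) (some 0) = some 0 := by
        rcases hz with hz | hz
        · exact absurd ((b : Equiv.Perm GolayPt).injective (hz.trans hn.symm)) hne.symm
        · exact hz
      right
      refine ⟨⟨hb1, hn, hz'⟩, fun h => ?_⟩
      have h3 := h.2.1
      simp only [Subgroup.coe_mul, Equiv.Perm.mul_apply, h₁, hz'] at h3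
      exact hne h3.symm
    · have hz' : (b : Equiv.Perm GolayPt) (some 0) = none := by
        rcases hz with hz | hz
        · exact hz
        · exact absurd ((b : Equiv.Perm GolayPt).injective (hz.trans hn.symm)) (by simp)
      left
      refine ⟨⟨mul_mem hb1 hg, ?_, ?_⟩, fun h => ?_⟩
      · simp only [Subgroup.coe_mul, Equiv.Perm.mul_apply, h₁, hz']
      · simp only [Subgroup.coe_mul, Equiv.Perm.mul_apply, h₂, hn]
      · have h3 := h.2.1
        rw [hn] at h3
        exact hne h3.symm
  · intro x hx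
    obtain ⟨h1, h2, h3⟩ := mem_SporM22.mp hx
    refine mem_SporM22.mpr ⟨mul_mem (mul_mem hg h1) (inv_mem hg), ?_, ?_⟩
    · simp only [Equiv.Perm.mul_apply, hginv2, h3, h₂]
    · simp only [Equiv.Perm.mul_apply, hginv1, h2, h₁]
  · rintro ⟨h, hh, hconj⟩
    obtain ⟨hh1, hh2, hh3⟩ := mem_SporM22.mp hh
    have hinv3 : h⁻¹ (some 0) = some 0 := by rw [Equiv.Perm.inv_eq_iff_eq, hh3]
    have hinv2 : h⁻¹ none = none := by rw [Equiv.Perm.inv_eq_iff_eq, hh2]
    set c := h⁻¹ * g with hc
    have hcM : c ∈ M24 := mul_mem (inv_mem hh1) hg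
    have hc1 : c none = some 0 := by simp only [hc, Equiv.Perm.mul_apply, h₁, hinv3]
    have hc2 : c (some 0) = none := by simp only [hc, Equiv.Perm.mul_apply, h₂, hinv2]
    have hcomm : ∀ x ∈ Spor.M22, c * x = x * c := by
      intro x hx
      have h1 := hconj x hx
      have h2 : g * x = h * x * h⁻¹ * g := by
        rw [← h1]
        group
      calc c * x = h⁻¹ * (g * x) := by rw [hc]; group
        _ = x * c := by rw [h2, hc]; group
    have hfixy : ∀ y : GolayPt, y ≠ none → y ≠ some 0 → c y = y := by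
      intro y hy1 hy2
      by_contra hne
      have hy3 : c y ≠ none := by
        intro he
        exact hy2 (c.injective (he.trans hc2.symm))
      have hy4 : c y ≠ some 0 := by
        intro he
        exact hy1 (c.injective (he.trans hc1.symm))
      obtain ⟨w, hw⟩ : ∃ w : GolayPt, w ∉ ({none, some 0, y, c y} : Finset GolayPt) := by
        by_contra hall
        push Not at hall
        have h3 : (Finset.univ : Finset GolayPt) ⊆ {none, some 0, y, c y} := fun a _ => hall a
        have h4 := Finset.card_le_card h3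
        have h5 : ({none, some 0, y, c y} : Finset GolayPt).card ≤ 4 := Finset.card_le_four
        have h6 : (Finset.univ : Finset GolayPt).card = 24 := by decide
        omega
      simp only [Finset.mem_insert, Finset.mem_singleton, not_or] at hw
      obtain ⟨hw1, hw2, hw3, hw4⟩ := hw
      have hinjx : Function.Injective (![none, some 0, y, c y, w] : Fin 5 → GolayPt) := by
        intro i j hij
        fin_cases i <;> fin_cases j <;> simp_all [Ne.symm]
      have hinjy : Function.Injective (![none, some 0, y, w, c y] : Fin 5 → GolayPt) := by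
        intro i j hij
        fin_cases i <;> fin_cases j <;> simp_all [Ne.symm]
      obtain ⟨k, hk⟩ := M24_mulTrans5.exists_smul_eq ⟨_, hinjx⟩ ⟨_, hinjy⟩
      have hk0 : (k : Equiv.Perm GolayPt) none = none := DFunLike.congr_fun hk 0
      have hk1 : (k : Equiv.Perm GolayPt) (some 0) = some 0 := DFunLike.congr_fun hk 1
      have hk2 : (k : Equiv.Perm GolayPt) y = y := DFunLike.congr_fun hk 2
      have hk3 : (k : Equiv.Perm GolayPt) (c y) = w := DFunLike.congr_fun hk 3
      have hmem : (k : Equiv.Perm GolayPt) ∈ Spor.M22 := mem_SporM22.mpr ⟨k.2, hk0, hk1⟩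
      have h5 := congrArg (fun f : Equiv.Perm GolayPt => f y) (hcomm _ hmem)
      simp only [Equiv.Perm.mul_apply, hk2, hk3] at h5
      exact hw4 h5.symm
    have hc1' : c ≠ 1 := by
      rintro h1
      rw [h1] at hc1
      simp at hc1
    have hle := fix_le_eight hcM hc1'
    have hsub : (Finset.univ \ {none, some 0} : Finset GolayPt) ⊆ Finset.univ.filter fun p => c p = p := by
      intro y hy
      simp only [Finset.mem_sdiff, Finset.mem_univ, true_and, Finset.mem_insert, Finset.mem_singleton, not_or] at hy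
      simp only [Finset.mem_filter, Finset.mem_univ, true_and]
      exact hfixy y hy.1 hy.2
    have h6 := Finset.card_le_card hsub
    have h7 : (Finset.univ \ {none, some 0} : Finset GolayPt).card = 22 := by decide
    omega

end CfsgLib.Golay
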