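/-
The invariant subspaces of the permutation module of the code's group on all binary words.
-/
import Cfsg.Agent.Lib.Golay.Modules

set_option autoImplicit false
set_option maxRecDepth 100000

namespace CfsgLib.Golay

open Cfsg
open scoped Pointwise

/-- The word with a given support. -/
def wS (T : Finset GolayPt) : GolayPt → ZMod 2 := word (mask T)

theorem actW_wS (σ : Equiv.Perm GolayPt) (T : Finset GolayPt) : actW σ (wS T) = wS (σ • T) := by
  unfold wS; rw [actW_word, fs_mask]

theorem wS_add (T T' : Finset GolayPt) : wS T + wS T' = wS (symmDiff T T') := by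
  unfold wS
  rw [← word_xor, ← word_mask_fs (mask T ^^^ mask T'), fs_xor, fs_mask, fs_mask]

theorem wS_mem_iff (T : Finset GolayPt) : wS T ∈ golayCode ↔ mask T ∈ allCode := word_mem_iff (mask_lt T)

theorem wS_word_fs (a : ℕ) : wS (fs a) = word a := word_mask_fs a

theorem wS_apply (T : Finset GolayPt) (r : GolayPt) : wS T r = if r ∈ T then 1 else 0 := by
  have h : (mask T).testBit (idx r) = true ↔ r ∈ T := by
    rw [← mem_fs, fs_mask]
  unfold wS
  rw [word_apply]
  by_cases hr : r ∈ T
  · rw [if_pos hr, if_pos (h.2 hr)]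
  · rw [if_neg hr, if_neg (fun h' => hr (h.1 h'))]

theorem wS_empty : wS ∅ = 0 := by
  ext r
  rw [wS_apply]
  simp

/-- A short list of elements fixing the first five points, generating their fixer. -/
def listE : List ℕ := [479663310730678034207776437455390752, 651239579074641248992907580101724192,
  944319304547998642267612847938832416, 268195153026948482477577069584812064,
  695226755442639250267515720785037344]

theorem listE_ok : ∀ τ ∈ listE, isAut τ = true ∧ img τ 31 = 31 := by decide +kernel

theorem listE_check : (subs 24 1 ++ subs 24 2 ++ subs 24 3).all (fun y =>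
    !(Nat.beq (y &&& 31) 0) || isCode (y ||| 31) || listE.any fun τ => !(Nat.beq (img τ y) y)) = true := by
  decide +kernel

/-- The complement of the base octad. -/
def cO16 : ℕ := octB ^^^ 0xffffff

def t16 : ℕ := 956302485175575353788796878166559809

theorem t16_ok : isAut t16 = true ∧ isCode (img t16 cO16 ^^^ cO16) = true ∧
    Nat.beq (pop (img t16 cO16 ^^^ cO16)) 8 = true := by
  refine ⟨?_, ?_, ?_⟩ <;> decide +kernel

theorem smul_compl_eq (g : Equiv.Perm GolayPt) (s : Finset GolayPt) : g • sᶜ = (g • s)ᶜ := by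
  ext q
  rw [← Finset.inv_smul_mem_iff, Finset.mem_compl, Finset.mem_compl, Finset.inv_smul_mem_iff]

/-- Standard basis vectors. -/
def eB (p : GolayPt) : GolayPt → ZMod 2 := Pi.single p 1

theorem eB_apply (p r : GolayPt) : eB p r = if r = p then 1 else 0 := by
  unfold eB
  rw [Pi.single_apply]

theorem wS_pair {p q : GolayPt} (hpq : p ≠ q) : wS {p, q} = eB p + eB q := by
  ext r
  rw [Pi.add_apply, wS_apply, eB_apply, eB_apply]
  by_cases h1 : r = p
  · subst h1
    simp [hpq]
  · by_cases h2 : r = q
    · subst h2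
      simp [h1]
    · simp [h1, h2]

theorem eB_add_self (p : GolayPt) : eB p + eB p = 0 := by
  ext r
  have : ∀ a : ZMod 2, a + a = 0 := by decide
  exact this _

theorem sum_single_eq (w : GolayPt → ZMod 2) : ∑ p, w p • eB p = w := by
  ext q
  simp [Finset.sum_apply, eB, Pi.single_apply]

section

variable {W : Submodule (ZMod 2) (GolayPt → ZMod 2)} (hW : ∀ σ ∈ M24, ∀ w ∈ W, actW σ w ∈ W)
include hW

theorem wS_smul_mem {σ : Equiv.Perm GolayPt} (hσ : σ ∈ M24) {T : Finset GolayPt} (hT : wS T ∈ W) :
    wS (σ • T) ∈ W := by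
  rw [← actW_wS]; exact hW σ hσ _ hT

theorem code_le_of_16 {c : ℕ} (hc : c ∈ allCode) (h16 : pop c = 16) (hcW : word c ∈ W) : golayCode ≤ W := by
  have hc' := xor_mem_allCode hc full_mem
  have hp := pop_xor_full_of_16 hc h16
  obtain ⟨g, hg, hgd⟩ := M24_octad_trans
    ((mem_octads_iff (fs octB)).2 ⟨octB, (isCode_iff _).1 octO_mem.1, Nat.eq_of_beq_eq_true octO_mem.2, rfl⟩)
    ((mem_octads_iff (fs (c ^^^ 0xffffff))).2 ⟨_, hc', hp, rfl⟩)
  have h0 : g • fs cO16 = fs c := by
    unfold cO16
    rw [fs_xor_full, smul_compl_eq, hgd, fs_xor_full, compl_compl]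
  have h1 : word cO16 ∈ W := by
    have := hW g⁻¹ (M24.inv_mem hg) _ hcW
    rw [actW_word, ← h0, inv_smul_smul, word_mask_fs] at this
    exact this
  obtain ⟨hA, hcd, h8⟩ := t16_ok
  have h2 : word (img t16 cO16) ∈ W := by
    have := hW _ (mk_mem_M24 hA) _ h1
    rwa [actW_mk (isAut_valid hA)] at this
  have h3 : word (img t16 cO16 ^^^ cO16) ∈ W := by
    rw [word_xor]; exact W.add_mem h2 h1
  exact code_le_of_octad hW ((isCode_iff _).1 hcd) (Nat.eq_of_beq_eq_true h8) h3

theorem exists_small8 {x : GolayPt → ZMod 2} (hxW : x ∈ W) (hxC : x ∉ golayCode) :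
    ∃ T, wS T ∈ W ∧ wS T ∉ golayCode ∧ T.card ≤ 8 := by
  have hm : word (mask (support₂ x)) = x := word_support_eq x
  set m := mask (support₂ x) with hmdef
  have hmlt : m < 2 ^ 24 := mask_lt _
  obtain ⟨v, hv, hv4, hc⟩ := exists_leader _ m rfl hmlt
  obtain ⟨σ, hσ, hs, hmv⟩ := movQ_all hc x hxC
  have hy : actW σ x + x = word (mask (σ • fs v) ^^^ v) := by
    have hwe : x = word v + word (m ^^^ v) := by
      rw [← word_xor, ← hm]
      congr 1
      rw [Nat.xor_comm m v, xor_cancel_left]
    have hfixc : actW σ (word (m ^^^ v)) = word (m ^^^ v) := by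
      have h := actW_word σ (m ^^^ v)
      rwa [hs, word_mask_fs] at h
    rw [word_xor, ← actW_word]
    conv_lhs => rw [hwe]
    rw [actW_add, hfixc]
    have : ∀ a b c : ZMod 2, (a + b) + (c + b) = a + c := by decide
    ext p
    exact this _ _ _
  refine ⟨fs (mask (σ • fs v) ^^^ v), ?_, ?_, ?_⟩
  · rw [wS_word_fs, ← hy]; exact W.add_mem (hW σ hσ x hxW) hxW
  · rw [wS_word_fs, ← hy]; exact hmv
  · rw [card_fs]
    have h1 := pop_xor_le (mask (σ • fs v)) v
    have h2 : pop (mask (σ • fs v)) = pop v := by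
      rw [← card_fs, fs_mask, Finset.card_smul_finset, card_fs]
    omega

theorem reduce_card : ∀ n, ∀ T : Finset GolayPt, T.card = n → n ≤ 8 → wS T ∈ W → wS T ∉ golayCode →
    ∃ T', wS T' ∈ W ∧ wS T' ∉ golayCode ∧ T'.card ≤ 5 := by
  intro n
  induction n using Nat.strong_induction_on with
  | _ n ih =>
    intro T hn h8 hTW hTC
    by_cases h5 : n ≤ 5
    · exact ⟨T, hTW, hTC, hn ▸ h5⟩
    obtain ⟨S, hS, hSc⟩ := Finset.exists_subset_card_eq (s := T) (n := 5) (by omega)
    have hS0 : (fs 31).card = 5 := by rw [card_fs]; decide +kernel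
    obtain ⟨g, hg, hgS⟩ := M24_map_finset (hSc.trans hS0.symm) hSc.le
    have hT1W : wS (g • T) ∈ W := wS_smul_mem hW hg hTW
    have hT1C : wS (g • T) ∉ golayCode := by
      rw [← actW_wS, actW_mem_code_iff hg]
      exact hTC
    have hT1c : (g • T).card = n := by rw [Finset.card_smul_finset, hn]
    have hsub : fs 31 ⊆ g • T := by
      rw [← hgS]
      exact Finset.smul_finset_subset_smul_finset hS
    generalize g • T = T1 at hT1W hT1C hT1c hsub
    have hYc : (T1 \ fs 31).card = n - 5 := by
      rw [Finset.card_sdiff_of_subset hsub, hT1c, hS0]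
    have hyfs : fs (mask (T1 \ fs 31)) = T1 \ fs 31 := fs_mask _
    have hylt : mask (T1 \ fs 31) < 2 ^ 24 := mask_lt _
    have hy0 : mask (T1 \ fs 31) &&& 31 = 0 := by
      apply eq_of_fs_eq (Nat.lt_of_le_of_lt Nat.and_le_left hylt) (by norm_num)
      rw [fs_land, hyfs, fs_zero, Finset.sdiff_inter_self]
    have hycode : mask (T1 \ fs 31) ||| 31 = mask T1 := by
      apply eq_of_fs_eq (Nat.or_lt_two_pow hylt (by norm_num)) (mask_lt _)
      rw [fs_lor, hyfs, fs_mask, Finset.sdiff_union_of_subset hsub]
    have hmem : mask (T1 \ fs 31) ∈ subs 24 1 ++ subs 24 2 ++ subs 24 3 := by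
      have h := mask_mem_subs (T1 \ fs 31)
      rw [hYc] at h
      simp only [List.mem_append]
      have : n - 5 = 1 ∨ n - 5 = 2 ∨ n - 5 = 3 := by omega
      rcases this with h1 | h1 | h1 <;> rw [h1] at h <;> simp [h]
    have hchk := List.all_eq_true.mp listE_check _ hmem
    obtain ⟨τ, hτ, hne⟩ : ∃ τ ∈ listE, img τ (mask (T1 \ fs 31)) ≠ mask (T1 \ fs 31) := by
      rw [hy0, hycode] at hchk
      have hnc : isCode (mask T1) = false := by
        rw [Bool.eq_false_iff]
        intro h
        apply hT1C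
        exact (wS_mem_iff T1).2 ((isCode_iff _).1 h)
      rw [hnc] at hchk
      have h3 : (listE.any fun τ => !(Nat.beq (img τ (mask (T1 \ fs 31))) (mask (T1 \ fs 31)))) = true := by
        simpa using hchk
      obtain ⟨τ, hτ, h4⟩ := List.any_eq_true.mp h3
      refine ⟨τ, hτ, fun e => ?_⟩
      rw [e] at h4
      simp at h4
    obtain ⟨hA, h31⟩ := listE_ok τ hτ
    have hval := isAut_valid hA
    have hfix : mk τ • fs 31 = fs 31 := by rw [← fs_img hval, h31]
    have hYne : mk τ • (T1 \ fs 31) ≠ T1 \ fs 31 := by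
      intro e
      apply hne
      apply eq_of_fs_eq (img_lt hval _) hylt
      rw [fs_img hval, hyfs, e]
    have hT2W : wS (symmDiff T1 (mk τ • T1)) ∈ W := by
      rw [← wS_add]
      exact W.add_mem hT1W (wS_smul_mem hW (mk_mem_M24 hA) hT1W)
    have hT2sub : symmDiff T1 (mk τ • T1) ⊆ (T1 \ fs 31) ∪ mk τ • (T1 \ fs 31) := by
      intro q hq
      rw [Finset.mem_symmDiff] at hq
      rcases hq with ⟨h1, h2⟩ | ⟨h1, h2⟩
      · refine Finset.mem_union_left _ (Finset.mem_sdiff.2 ⟨h1, fun h3 => h2 ?_⟩)
        rw [← hfix] at h3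
        exact Finset.smul_finset_subset_smul_finset hsub h3
      · refine Finset.mem_union_right _ ?_
        rw [Finset.smul_finset_sdiff, hfix]
        exact Finset.mem_sdiff.2 ⟨h1, fun h3 => h2 (hsub h3)⟩
    have hT2card : (symmDiff T1 (mk τ • T1)).card ≤ 2 * (n - 5) := by
      calc _ ≤ ((T1 \ fs 31) ∪ mk τ • (T1 \ fs 31)).card := Finset.card_le_card hT2sub
        _ ≤ (T1 \ fs 31).card + (mk τ • (T1 \ fs 31)).card := Finset.card_union_le _ _
        _ = 2 * (n - 5) := by rw [Finset.card_smul_finset, hYc]; ring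
    have hT2ne : symmDiff T1 (mk τ • T1) ≠ ∅ := by
      intro e
      apply hYne
      have e1 : T1 = mk τ • T1 := symmDiff_eq_bot.1 e
      rw [Finset.smul_finset_sdiff, hfix, ← e1]
    have hT2C : wS (symmDiff T1 (mk τ • T1)) ∉ golayCode := by
      intro hc
      rw [wS_mem_iff] at hc
      have hp : pop (mask (symmDiff T1 (mk τ • T1))) ≤ 7 := by
        rw [← card_fs, fs_mask]; omega
      have := code_small hc hp
      apply hT2ne
      rw [← fs_mask (symmDiff T1 (mk τ • T1)), this, fs_zero]
    exact ih _ (by omega) _ rfl (by omega) hT2W hT2C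

theorem exists_pair_of {T : Finset GolayPt} (h5 : T.card ≤ 5) (hTW : wS T ∈ W) (hTC : wS T ∉ golayCode) :
    ∃ y z : GolayPt, y ≠ z ∧ wS {y, z} ∈ W := by
  have hne : T.Nonempty := by
    rw [Finset.nonempty_iff_ne_empty]
    rintro rfl
    apply hTC
    rw [wS_empty]
    exact Submodule.zero_mem _
  obtain ⟨y, hy⟩ := hne
  obtain ⟨z, hz⟩ : ∃ z, z ∉ T := by
    by_contra hcon
    push Not at hcon
    have h1 : T = Finset.univ := Finset.eq_univ_iff_forall.2 hcon
    have h24 : (Finset.univ : Finset GolayPt).card = 24 := by decide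
    rw [← h1] at h24
    omega
  have hyz : y ≠ z := fun e => hz (e ▸ hy)
  have hc : T.card = (insert z (T.erase y)).card := by
    rw [Finset.card_insert_of_notMem (by simp [hz]), Finset.card_erase_of_mem hy]
    have := Finset.card_pos.2 ⟨y, hy⟩
    omega
  obtain ⟨g, hg, hgT⟩ := M24_map_finset hc h5
  refine ⟨y, z, hyz, ?_⟩
  have e : symmDiff T (insert z (T.erase y)) = {y, z} := by
    ext q
    simp only [Finset.mem_symmDiff, Finset.mem_insert, Finset.mem_erase, Finset.mem_singleton]
    by_cases hqy : q = y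
    · subst hqy
      simp [hy, hyz]
    · by_cases hqz : q = z
      · subst hqz
        simp [hz]
      · simp [hqy, hqz]
  rw [← e, ← wS_add]
  refine W.add_mem hTW ?_
  rw [← hgT]
  exact wS_smul_mem hW hg hTW

theorem all_pairs_of {y z : GolayPt} (hyz : y ≠ z) (h : wS {y, z} ∈ W) {p q : GolayPt} (hpq : p ≠ q) :
    wS {p, q} ∈ W := by
  have c1 : ({y, z} : Finset GolayPt).card = 2 := Finset.card_pair hyz
  obtain ⟨g, hg, hgT⟩ := M24_map_finset (t := {p, q}) (c1.trans (Finset.card_pair hpq).symm) (by omega)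
  rw [← hgT]
  exact wS_smul_mem hW hg h

omit hW in
theorem even_mem_of_pairs (hpairs : ∀ p q : GolayPt, p ≠ q → wS {p, q} ∈ W) {w : GolayPt → ZMod 2}
    (hw : ∑ p, w p = 0) : w ∈ W := by
  have he : ∀ p, eB p + eB none ∈ W := by
    intro p
    by_cases h : p = none
    · subst h
      rw [eB_add_self]
      exact W.zero_mem
    · rw [← wS_pair h]
      exact hpairs _ _ h
  have key : ∑ p, w p • (eB p + eB none) = w := by
    simp only [smul_add, Finset.sum_add_distrib, ← Finset.sum_smul, hw, zero_smul, add_zero]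
    exact sum_single_eq w
  rw [← key]
  exact W.sum_mem fun p _ => W.smul_mem _ (he p)

end

theorem result_5548 (W : Submodule (ZMod 2) (GolayPt → ZMod 2))
    (hW : ∀ σ ∈ M24, ∀ w ∈ W, (fun p => w (σ.symm p)) ∈ W) :
    W = ⊥ ∨ W = Submodule.span (ZMod 2) {fun _ => (1 : ZMod 2)} ∨ W = golayCode ∨
      (W : Set (GolayPt → ZMod 2)) = {w | ∑ p, w p = 0} ∨ W = ⊤ := by
  have hW' : ∀ σ ∈ M24, ∀ w ∈ W, actW σ w ∈ W := hW
  by_cases hC : W ≤ golayCode
  · by_cases hex : ∃ c ∈ allCode, (pop c = 8 ∨ pop c = 12 ∨ pop c = 16) ∧ word c ∈ W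
    · right; right; left
      refine le_antisymm hC ?_
      obtain ⟨c, hc, hp, hcW⟩ := hex
      rcases hp with h | h | h
      · exact code_le_of_octad hW' hc h hcW
      · exact code_le_of_dodecad hW' hc h hcW
      · exact code_le_of_16 hW' hc h hcW
    · have hcases : ∀ w ∈ W, w = 0 ∨ w = word 0xffffff := by
        intro w hw
        obtain ⟨c, hc, rfl⟩ := (mem_golayCode_iff w).1 (hC hw)
        rcases weight_cases c hc with h | h | h | h | h
        · left
          rw [code_small hc (by omega), word_zero]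
        · exact absurd ⟨c, hc, Or.inl h, hw⟩ hex
        · exact absurd ⟨c, hc, Or.inr (Or.inl h), hw⟩ hex
        · exact absurd ⟨c, hc, Or.inr (Or.inr h), hw⟩ hex
        · right
          rw [eq_full_of_24 hc h]
      by_cases h1 : word 0xffffff ∈ W
      · right; left
        apply le_antisymm
        · intro w hw
          rcases hcases w hw with rfl | rfl
          · exact Submodule.zero_mem _
          · rw [← one_fun_eq_word]
            exact Submodule.mem_span_singleton_self _
        · rw [Submodule.span_singleton_le_iff_mem, one_fun_eq_word]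
          exact h1
      · left
        rw [Submodule.eq_bot_iff]
        intro w hw
        rcases hcases w hw with h | h
        · exact h
        · exact absurd (h ▸ hw) h1
  · obtain ⟨x, hxW, hxC⟩ := SetLike.not_le_iff_exists.1 hC
    obtain ⟨T, hT1, hT2, hT3⟩ := exists_small8 hW' hxW hxC
    obtain ⟨T', hT1', hT2', hT3'⟩ := reduce_card hW' _ T rfl hT3 hT1 hT2
    obtain ⟨y, z, hyz, hp⟩ := exists_pair_of hW' hT3' hT1' hT2'
    have hpairs : ∀ p q : GolayPt, p ≠ q → wS {p, q} ∈ W := fun p q hpq => all_pairs_of hW' hyz hp hpq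
    by_cases hodd : ∀ w ∈ W, ∑ p, w p = 0
    · right; right; right; left
      ext w
      exact ⟨fun h => hodd w h, fun h => even_mem_of_pairs hpairs h⟩
    · right; right; right; right
      push Not at hodd
      obtain ⟨x', hx', hs⟩ := hodd
      have hs1 : ∑ p, x' p = 1 := by
        have : ∀ a : ZMod 2, a ≠ 0 → a = 1 := by decide
        exact this _ hs
      have h0 : eB none ∈ W := by
        have hev : ∑ p, (x' + eB none) p = 0 := by
          have e1 : ∑ p, eB none p = 1 := by
            simp [eB, Pi.single_apply]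
          simp only [Pi.add_apply, Finset.sum_add_distrib, hs1, e1]
          decide
        have h3 := even_mem_of_pairs hpairs hev
        have e : eB none = (x' + eB none) + x' := by
          have : ∀ a b : ZMod 2, b = (a + b) + a := by decide
          ext p
          exact this _ _
        rw [e]
        exact W.add_mem h3 hx'
      have hall : ∀ p, eB p ∈ W := by
        intro p
        by_cases h : p = none
        · subst h
          exact h0
        · have e : eB p = wS {p, none} + eB none := by
            rw [wS_pair h]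
            have : ∀ a b : ZMod 2, a = (a + b) + b := by decide
            ext r
            exact this _ _
          rw [e]
          exact W.add_mem (hpairs _ _ h) h0
      rw [Submodule.eq_top_iff']
      intro w
      rw [← sum_single_eq w]
      exact W.sum_mem fun p _ => W.smul_mem _ (hall p)

end CfsgLib.Golay
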