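/-
The normaliser of a subgroup of order seven of `M24`.
-/
import Cfsg.Agent.Lib.Golay.Cent2B

set_option autoImplicit false

namespace CfsgLib.Golay

open Cfsg
open scoped Pointwise

/-- An element of order seven. -/
def t7 : ℕ := 147595348867573848606916711915063328

/-- Powers of the element of order seven. -/
def u2 : ℕ := 179842055626149346700915455027218464
def u3 : ℕ := 232770642018851121266114252954273824
def u4 : ℕ := 507031961033248639260006005146716192
def u5 : ℕ := 762232648115672835383497726853810208
def u6 : ℕ := 567715197882726987084406961116776480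

/-- The elements centralising it. -/
def NL1 : List ℕ := [984818244535754528103549039458486304, 147595348867573848606916711915063328, 179842055626149346700915455027218464, 232770642018851121266114252954273824, 762232648115672835383497726853810208, 507031961033248639260006005146716192, 567715197882726987084406961116776480, 976990105829392847739289005721748544, 143465699626448368705047118742684736, 175829822251003329072976838881608768, 219671969113087512128605291058431040, 758691981112047287520069768854275136, 518321419467573374918639968579028032, 566299113089508325089365680340042816, 609249779692829448414974339611592705, 636762891738607041839065998955907073, 320194102964615836159435327428397057, 679141957933301749207731851811555329, 396828134615082104769242383952349185, 839331367679877283124326938985367553, 357406056453740275553104879617181697, 597331843589286990965429735332741185, 653480429535602232801858091957354561, 314647497613490696810214283732615233, 671274759510562746511604840104656961, 391478570361916632226648608863649857, 836106305867033933007008739728293953,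 337147375626886664716908629569699905, 808074631863218045198558116527145986, 732445017788992430233469887718949890, 258901485307296878211488110161003522, 924842952704828831105546388125549570, 436979828633213051890034747078444034, 468918717568106602620521111658071042, 892146513345781579964313120083215362, 806854716851178052557833934610825250, 721943166478668634778966564216832034, 279631256479438086802218819308060706, 920516421285715376272847334418186274, 439261361988449592905073737119399970, 461758709647016600921833823506432034, 877631993098613494188360957393829922]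
/-- The elements conjugating it to its square. -/
def NL2 : List ℕ := [548202598771861339890714224299706400, 970443823487437936223357542707890208, 152137538079020889563196619858544672, 195168340996502405151615504025520160, 512354651150781247501338386852382752, 230637238560759287318553694389733408, 773061907033614200756630180338567200, 559766979007479463962698531470410816, 966156985455755261039659861439284288, 151193019424989349645989107942458432, 187261964480111235697337163358536768, 508224527005158482107552526557938752, 226703480680659206907738024863925312, 759963154434908045813018456545264704, 689983897066424413073920105425111041, 401353853026013439783010873100208129, 589761269653663355885201798388287489, 844664165610273600157325033962145793, 305822223401272033650844902047057921, 355242223198122047978281381268031489, 652086659122284848539297626171508737, 669058035728224841664272232250310721, 389592352928902050613262827410161729, 587675350245472318762967920263069761, 861381783177277996732152417044856897, 297404944040449858791429745169367105,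 349696092751191962726869695534202945, 646658223233260867748718091617042497, 426137837178571650064031029610611714, 926111603093237017020250732106155010, 815804493146671162616643994025034754, 882064814139153937694654801309631490, 725936960411622160126507244509037570, 270331113259855321505944996484383746, 475922325982326170195898683307525122, 422007395849432150388313554001526818, 918284494353743600554214582724657186, 804987511703591313364103460251074594, 902912555851781099663268044686786594, 712286660767812998932289059213115426, 272809053887222510169643802596900898, 474309953415496165355302667099504674]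
/-- The elements conjugating it to its fourth power. -/
def NL4 : List ℕ := [513447423069626921924638385511696416, 775365081182110751497979800425990176, 569339104719457862141474952965163040, 977713135725171950024891519290705952, 191694801782000247788796450209957920, 138053121771115031661674331671955488, 216393429830494541365950712396875808, 509434912666892119012567983400780864, 773949471602864939585601544385594432, 561157569258868000586112488055145536, 974172547872604477824165033018786880, 178674643404908253287123334725010496, 134040769901507464129823710187684928, 227840195781415790748599578404815936, 341011103340269731574584734187227137, 610869871211264776009542340927817729, 845753158075542860505030654486153217, 648606791548538893882892362579380225, 692308623748961409270248263574325249, 387279548240863543313963821997492225, 313085194912612524511619542609954817, 338258281067650438930878701047611457, 605048581897504889368460320851624001, 837806890798314668333879345188995137, 627483771005442583464148822575743041, 681136739173067826997145774248656961,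 403918571199333765231659447179804737, 307813946963465724713500518196576321, 940119461664192981987058084123706370, 477065376861804250364817429885158402, 727290791269792144056203244076368898, 261740004073530018723707142790480898, 883275223299249233103143748174971906, 434171144230095079068172668376876034, 798647145812773711920829163924816898, 930363186667545211626333850838433826, 462865788638263708338462530737602594, 729651037416622118970483688910192674, 253637141907525702806636718271791138, 879341466424755843844062840988729378, 432440484133515751470780130235416610, 819298520640851501370375410591399970]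

/-- A trio invariant under the normaliser. -/
def tri7 : ℕ := 2438445142918068028290

/-- A non-commuting pair in the centraliser. -/
def c7a : ℕ := 976990105829392847739289005721748544
def c7b : ℕ := 609249779692829448414974339611592705

/-- The normal-form values for elements conjugating `t7` to `u`. -/
def ysN (u : ℕ) : List (List ℕ) :=
  ([[0, 1, 2], [0, 2, 1], [1, 0, 2], [1, 2, 0], [2, 0, 1], [2, 1, 0]] : List (List ℕ)).flatMap fun p =>
    (List.range' 3 21).map fun y => p ++ [y, pa u y]

theorem t7_aut : isAut t7 = true := by decide +kernel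
theorem t7_valid : valid t7 = true := isAut_valid t7_aut

theorem us_valid : valid u2 = true ∧ valid u3 = true ∧ valid u4 = true ∧ valid u5 = true ∧ valid u6 = true := by
  decide +kernel

theorem us_mul : samePerm u2 (comp t7 t7) = true ∧ samePerm u3 (comp t7 u2) = true ∧ samePerm u4 (comp t7 u3) = true ∧
    samePerm u5 (comp t7 u4) = true ∧ samePerm u6 (comp t7 u5) = true ∧ samePerm idP (comp t7 u6) = true := by
  decide +kernel

theorem ys_ok : (ysN t7).all repOK = true ∧ (ysN u2).all repOK = true ∧ (ysN u3).all repOK = true ∧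
    (ysN u4).all repOK = true ∧ (ysN u5).all repOK = true ∧ (ysN u6).all repOK = true := by
  decide +kernel

theorem NL1_eq : twFilter t7 t7 (ysN t7) = NL1 := by decide +kernel
theorem NL2_eq : twFilter t7 u2 (ysN u2) = NL2 := by decide +kernel
theorem NL3_eq : twFilter t7 u3 (ysN u3) = [] := by decide +kernel
theorem NL4_eq : twFilter t7 u4 (ysN u4) = NL4 := by decide +kernel
theorem NL5_eq : twFilter t7 u5 (ysN u5) = [] := by decide +kernel
theorem NL6_eq : twFilter t7 u6 (ysN u6) = [] := by decide +kernel

theorem NL_ok : listOK (NL1 ++ NL2 ++ NL4) = true ∧ (NL1 ++ NL2 ++ NL4).length = 126 ∧ listOK NL1 = true ∧ NL1.length = 42 := by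
  decide +kernel

theorem tri7_mem : tri7 ∈ trioKeys := by decide +kernel

theorem tri7_fix : ∀ x ∈ NL1 ++ NL2 ++ NL4, keyFix 3 x tri7 = true := by decide +kernel

/-- The element of order seven as an element of the group. -/
noncomputable def tt7 : ↥M24 := ⟨CfsgLib.Golay.mk t7, mk_mem_M24 t7_aut⟩

/-- The subgroup of order seven. -/
noncomputable def S7 : Subgroup ↥M24 := Subgroup.zpowers tt7

local notation "T" => (CfsgLib.Golay.mk t7)

theorem us_pow : CfsgLib.Golay.mk u2 = T ^ 2 ∧ CfsgLib.Golay.mk u3 = T ^ 3 ∧ CfsgLib.Golay.mk u4 = T ^ 4 ∧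
    CfsgLib.Golay.mk u5 = T ^ 5 ∧ CfsgLib.Golay.mk u6 = T ^ 6 ∧ T ^ 7 = 1 := by
  obtain ⟨h2, h3, h4, h5, h6⟩ := us_valid
  obtain ⟨e2, e3, e4, e5, e6, e7⟩ := us_mul
  have t := t7_valid
  have a2 := mk_eq_of_samePerm h2 (valid_comp t t) e2
  rw [mk_comp t t, ← pow_two] at a2
  have a3 := mk_eq_of_samePerm h3 (valid_comp t h2) e3
  rw [mk_comp t h2, a2, ← pow_succ'] at a3
  have a4 := mk_eq_of_samePerm h4 (valid_comp t h3) e4
  rw [mk_comp t h3, a3, ← pow_succ'] at a4
  have a5 := mk_eq_of_samePerm h5 (valid_comp t h4) e5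
  rw [mk_comp t h4, a4, ← pow_succ'] at a5
  have a6 := mk_eq_of_samePerm h6 (valid_comp t h5) e6
  rw [mk_comp t h5, a5, ← pow_succ'] at a6
  have a7 := mk_eq_of_samePerm valid_idP (valid_comp t h6) e7
  rw [mk_comp t h6, a6, ← pow_succ', mk_idP] at a7
  exact ⟨a2, a3, a4, a5, a6, a7.symm⟩

theorem tt7_order : orderOf tt7 = 7 := by
  have : Fact (Nat.Prime 7) := ⟨by norm_num⟩
  have h1 : orderOf T = 7 := orderOf_eq_prime us_pow.2.2.2.2.2 (mk_ne_one t7_valid (by decide +kernel))
  rw [← h1]
  exact Subgroup.orderOf_mk _ _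

theorem card_S7 : Nat.card S7 = 7 := by
  rw [S7, Nat.card_zpowers, tt7_order]

theorem t7_fix3 : ∀ i < 3, pa t7 i = i := by decide +kernel

/-- Normal form for elements conjugating `t7` to a power. -/
theorem twist_form {u : ℕ} (hu : valid u = true) (hr : (ysN u).all repOK = true)
    (hfix : ∀ j < 24, pa u j = j → j < 3) {n : Equiv.Perm GolayPt} (hn : n ∈ M24)
    (hc : n * T = CfsgLib.Golay.mk u * n) : ∃ x ∈ twFilter t7 u (ysN u), n = CfsgLib.Golay.mk x := by
  have hcomm : ∀ p, n (T p) = CfsgLib.Golay.mk u (n p) := fun p => by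
    rw [← Equiv.Perm.mul_apply, hc, Equiv.Perm.mul_apply]
  have h7 : ∀ i, i < 24 → T (pt i) = pt (pa t7 i) := fun i hi => mk_pt t7_valid hi
  have hf : ∀ i, i < 3 → idx (n (pt i)) < 3 := by
    intro i hi
    apply hfix _ (idx_lt _)
    have h1 := hcomm (pt i)
    have h2 : pa t7 i = i := t7_fix3 i hi
    rw [h7 i (by omega), h2] at h1
    rw [← idx_mk hu, ← h1]
  have hinj : ∀ i j, i < 24 → j < 24 → i ≠ j → idx (n (pt i)) ≠ idx (n (pt j)) := by
    intro i j hi hj hij he
    have := n.injective (idx_inj he)
    have h4 := congrArg idx this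
    rw [idx_pt hi, idx_pt hj] at h4
    exact hij h4
  have e34 : pa t7 3 = 4 := by decide +kernel
  have h4 : idx (n (pt 4)) = pa u (idx (n (pt 3))) := by
    have h1 := hcomm (pt 3)
    rw [h7 3 (by norm_num), e34] at h1
    rw [h1, idx_mk hu]
  have hp : ∀ a b c : ℕ, a < 3 → b < 3 → c < 3 → a ≠ b → a ≠ c → b ≠ c →
      [a, b, c] ∈ ([[0, 1, 2], [0, 2, 1], [1, 0, 2], [1, 2, 0], [2, 0, 1], [2, 1, 0]] : List (List ℕ)) := by
    intro a b c ha hb hc hab hac hbc
    interval_cases a <;> interval_cases b <;> interval_cases c <;> simp_all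
  have h00 := hf 0 (by norm_num)
  have h01 := hf 1 (by norm_num)
  have h02 := hf 2 (by norm_num)
  have hy := hinj 3 0 (by norm_num) (by norm_num) (by norm_num)
  have hy1 := hinj 3 1 (by norm_num) (by norm_num) (by norm_num)
  have hy2 := hinj 3 2 (by norm_num) (by norm_num) (by norm_num)
  have h3lt := idx_lt (n (pt 3))
  have h012 := hinj 0 1 (by norm_num) (by norm_num) (by norm_num)
  have h013 := hinj 0 2 (by norm_num) (by norm_num) (by norm_num)
  have h023 := hinj 1 2 (by norm_num) (by norm_num) (by norm_num)
  have hmem : [idx (n (pt 0)), idx (n (pt 1)), idx (n (pt 2)), idx (n (pt 3)), pa u (idx (n (pt 3)))] ∈ ysN u := by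
    refine List.mem_flatMap.mpr ⟨[idx (n (pt 0)), idx (n (pt 1)), idx (n (pt 2))], hp _ _ _ h00 h01 h02
      (hinj 0 1 (by norm_num) (by norm_num) (by norm_num)) (hinj 0 2 (by norm_num) (by norm_num) (by norm_num))
      (hinj 1 2 (by norm_num) (by norm_num) (by norm_num)), ?_⟩
    refine List.mem_map.mpr ⟨idx (n (pt 3)), List.mem_range'.mpr ⟨idx (n (pt 3)) - 3, by omega, by omega⟩, rfl⟩
  exact mem_twFilter hr t7_valid hu hn hc hmem rfl rfl rfl rfl h4

theorem fix_us : (∀ j < 24, pa t7 j = j → j < 3) ∧ (∀ j < 24, pa u2 j = j → j < 3) ∧ (∀ j < 24, pa u3 j = j → j < 3) ∧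
    (∀ j < 24, pa u4 j = j → j < 3) ∧ (∀ j < 24, pa u5 j = j → j < 3) ∧ (∀ j < 24, pa u6 j = j → j < 3) := by
  decide +kernel

/-- The normaliser of the subgroup of order seven. -/
theorem norm_S7_form {n : ↥M24} (h : n ∈ Subgroup.normalizer (S7 : Set ↥M24)) :
    ∃ x ∈ NL1 ++ NL2 ++ NL4, (n : Equiv.Perm GolayPt) = CfsgLib.Golay.mk x := by
  have h1 : n * tt7 * n⁻¹ ∈ S7 := (Subgroup.mem_normalizer_iff.mp h tt7).mp (Subgroup.mem_zpowers _)
  obtain ⟨m, hm⟩ := Subgroup.mem_zpowers_iff.mp h1
  rw [← zpow_mod_orderOf, tt7_order] at hm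
  have hm0 : 0 ≤ m % ((7 : ℕ) : ℤ) := Int.emod_nonneg _ (by norm_num)
  have hm7 : m % ((7 : ℕ) : ℤ) < 7 := Int.emod_lt_of_pos _ (by norm_num)
  obtain ⟨hv2, hv3, hv4, hv5, hv6⟩ := us_valid
  obtain ⟨hp2, hp3, hp4, hp5, hp6, hp7⟩ := us_pow
  obtain ⟨hr1, hr2, hr3, hr4, hr5, hr6⟩ := ys_ok
  obtain ⟨hf1, hf2, hf3, hf4, hf5, hf6⟩ := fix_us
  have hcases : ∀ j : ℕ, tt7 ^ j = n * tt7 * n⁻¹ → (j = 0 ∨ j = 1 ∨ j = 2 ∨ j = 3 ∨ j = 4 ∨ j = 5 ∨ j = 6) →
      ∃ x ∈ NL1 ++ NL2 ++ NL4, (n : Equiv.Perm GolayPt) = CfsgLib.Golay.mk x := by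
    intro j hj hjc
    have h2 : (n : Equiv.Perm GolayPt) * T = T ^ j * (n : Equiv.Perm GolayPt) := by
      have h3 := congrArg (Subtype.val) hj
      simp only [Subgroup.coe_pow, Subgroup.coe_mul, Subgroup.coe_inv] at h3
      have h4 : ((tt7 : ↥M24) : Equiv.Perm GolayPt) = T := rfl
      rw [h4] at h3
      rw [h3]
      group
    rcases hjc with rfl | rfl | rfl | rfl | rfl | rfl | rfl
    · exfalso
      rw [pow_zero] at hj
      have h3 : tt7 = 1 := by
        have : n⁻¹ * (n * tt7 * n⁻¹) * n = n⁻¹ * 1 * n := by rw [← hj]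
        simpa [mul_assoc] using this
      have h4 := tt7_order
      rw [h3, orderOf_one] at h4
      norm_num at h4
    · rw [pow_one] at h2
      obtain ⟨x, hx, hxe⟩ := twist_form t7_valid hr1 hf1 n.2 h2
      rw [NL1_eq] at hx
      exact ⟨x, by simp [hx], hxe⟩
    · rw [← hp2] at h2
      obtain ⟨x, hx, hxe⟩ := twist_form hv2 hr2 hf2 n.2 h2
      rw [NL2_eq] at hx
      exact ⟨x, by simp [hx], hxe⟩
    · rw [← hp3] at h2
      obtain ⟨x, hx, hxe⟩ := twist_form hv3 hr3 hf3 n.2 h2
      rw [NL3_eq] at hx
      simp at hx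
    · rw [← hp4] at h2
      obtain ⟨x, hx, hxe⟩ := twist_form hv4 hr4 hf4 n.2 h2
      rw [NL4_eq] at hx
      exact ⟨x, by simp [hx], hxe⟩
    · rw [← hp5] at h2
      obtain ⟨x, hx, hxe⟩ := twist_form hv5 hr5 hf5 n.2 h2
      rw [NL5_eq] at hx
      simp at hx
    · rw [← hp6] at h2
      obtain ⟨x, hx, hxe⟩ := twist_form hv6 hr6 hf6 n.2 h2
      rw [NL6_eq] at hx
      simp at hx
  obtain ⟨j, hj⟩ := Int.eq_ofNat_of_zero_le hm0
  rw [hj, zpow_natCast] at hm
  exact hcases j hm (by omega)

/-- Elements conjugating the generator to a power normalise the subgroup. -/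
theorem mem_norm_of_pow {n : ↥M24} {j : ℕ} (h : n * tt7 * n⁻¹ = tt7 ^ j) :
    n ∈ Subgroup.normalizer (S7 : Set ↥M24) := by
  rw [Subgroup.mem_normalizer_iff_map_conj_eq]
  have h1 : Subgroup.map (↑(MulAut.conj n) : ↥M24 →* ↥M24) S7 = Subgroup.zpowers (tt7 ^ j) := by
    rw [S7, MonoidHom.map_zpowers, ← h]
    rfl
  have hle : Subgroup.zpowers (tt7 ^ j) ≤ S7 := by
    rw [Subgroup.zpowers_le]
    exact pow_mem (Subgroup.mem_zpowers _) _
  refine Subgroup.eq_of_le_of_card_ge (by rw [h1]; exact hle) ?_
  rw [Subgroup.card_map_of_injective (MulAut.conj n).injective]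

theorem mk_of_NL {x : ℕ} (hx : x ∈ NL1 ++ NL2 ++ NL4) :
    ∃ (hm : CfsgLib.Golay.mk x ∈ M24), valid x = true ∧ (⟨CfsgLib.Golay.mk x, hm⟩ : ↥M24) ∈ Subgroup.normalizer (S7 : Set ↥M24) := by
  obtain ⟨hv2, hv3, hv4, hv5, hv6⟩ := us_valid
  obtain ⟨hp2, hp3, hp4, hp5, hp6, hp7⟩ := us_pow
  obtain ⟨hr1, hr2, hr3, hr4, hr5, hr6⟩ := ys_ok
  have key : ∀ (j : ℕ) (hv : valid x = true) (hm : CfsgLib.Golay.mk x ∈ M24), CfsgLib.Golay.mk x * T = T ^ j * CfsgLib.Golay.mk x →
      (⟨CfsgLib.Golay.mk x, hm⟩ : ↥M24) ∈ Subgroup.normalizer (S7 : Set ↥M24) := by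
    intro j hv hm he
    apply mem_norm_of_pow (j := j)
    apply Subtype.ext
    simp only [Subgroup.coe_pow, Subgroup.coe_mul, Subgroup.coe_inv]
    change CfsgLib.Golay.mk x * T * (CfsgLib.Golay.mk x)⁻¹ = T ^ j
    rw [he]
    group
  simp only [List.mem_append] at hx
  rcases hx with (hx | hx) | hx
  · rw [← NL1_eq] at hx
    obtain ⟨h1, h2, h3⟩ := twFilter_spec hr1 t7_valid t7_valid hx
    exact ⟨h2, h1, key 1 h1 h2 (by rw [pow_one]; exact h3)⟩
  · rw [← NL2_eq] at hx
    obtain ⟨h1, h2, h3⟩ := twFilter_spec hr2 t7_valid hv2 hx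
    exact ⟨h2, h1, key 2 h1 h2 (by rw [← hp2]; exact h3)⟩
  · rw [← NL4_eq] at hx
    obtain ⟨h1, h2, h3⟩ := twFilter_spec hr4 t7_valid hv4 hx
    exact ⟨h2, h1, key 4 h1 h2 (by rw [← hp4]; exact h3)⟩

theorem card_norm_S7 : Nat.card ↥(Subgroup.normalizer (S7 : Set ↥M24)) = 126 := by
  have h1 : {g : Equiv.Perm GolayPt | ∃ x ∈ NL1 ++ NL2 ++ NL4, g = CfsgLib.Golay.mk x} =
      Subtype.val '' ((Subgroup.normalizer (S7 : Set ↥M24) : Subgroup ↥M24) : Set ↥M24) := by
    ext g
    simp only [Set.mem_ofPred_eq, Set.mem_image, SetLike.mem_coe]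
    constructor
    · rintro ⟨x, hx, rfl⟩
      obtain ⟨hm, -, h3⟩ := mk_of_NL hx
      exact ⟨⟨_, hm⟩, h3, rfl⟩
    · rintro ⟨n, hn, rfl⟩
      exact norm_S7_form hn
  have h2 := ncard_mk_list NL_ok.1
  rw [h1, Set.ncard_image_of_injective _ Subtype.val_injective, NL_ok.2.1] at h2
  rw [← h2]
  exact (Nat.card_coe_set_eq _)

/-- The centraliser of the subgroup of order seven. -/
theorem mem_cent_S7 {n : ↥M24} : n ∈ Subgroup.centralizer (S7 : Set ↥M24) ↔ n * tt7 = tt7 * n := by
  rw [Subgroup.mem_centralizer_iff]
  constructor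
  · intro h
    exact (h tt7 (Subgroup.mem_zpowers _)).symm
  · intro h x hx
    obtain ⟨m, rfl⟩ := Subgroup.mem_zpowers_iff.mp hx
    have : Commute n tt7 := h
    exact (this.zpow_right m).symm.eq

theorem card_cent_S7 : Nat.card ↥(Subgroup.centralizer (S7 : Set ↥M24)) = 42 := by
  obtain ⟨hr1, -⟩ := ys_ok
  have h1 : {g : Equiv.Perm GolayPt | ∃ x ∈ NL1, g = CfsgLib.Golay.mk x} =
      Subtype.val '' ((Subgroup.centralizer (S7 : Set ↥M24) : Subgroup ↥M24) : Set ↥M24) := by
    ext g
    simp only [Set.mem_ofPred_eq, Set.mem_image, SetLike.mem_coe]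
    constructor
    · rintro ⟨x, hx, rfl⟩
      rw [← NL1_eq] at hx
      obtain ⟨h1, h2, h3⟩ := twFilter_spec hr1 t7_valid t7_valid hx
      refine ⟨⟨_, h2⟩, mem_cent_S7.mpr (Subtype.ext h3), rfl⟩
    · rintro ⟨n, hn, rfl⟩
      have h2 : (n : Equiv.Perm GolayPt) * T = T * (n : Equiv.Perm GolayPt) := congrArg Subtype.val (mem_cent_S7.mp hn)
      obtain ⟨x, hx, hxe⟩ := twist_form t7_valid hr1 fix_us.1 n.2 h2
      rw [NL1_eq] at hx
      exact ⟨x, hx, hxe⟩
  have h2 := ncard_mk_list NL_ok.2.2.1
  rw [h1, Set.ncard_image_of_injective _ Subtype.val_injective, NL_ok.2.2.2] at h2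
  rw [← h2]
  exact (Nat.card_coe_set_eq _)

theorem c7_ok : c7a ∈ NL1 ∧ c7b ∈ NL1 ∧ samePerm (comp c7a c7b) (comp c7b c7a) = false := by decide +kernel

theorem cent_S7_nonab : ∃ x ∈ Subgroup.centralizer (S7 : Set ↥M24), ∃ y ∈ Subgroup.centralizer (S7 : Set ↥M24), x * y ≠ y * x := by
  obtain ⟨hr1, -⟩ := ys_ok
  obtain ⟨ha, hb, hc⟩ := c7_ok
  rw [← NL1_eq] at ha hb
  obtain ⟨a1, a2, a3⟩ := twFilter_spec hr1 t7_valid t7_valid ha
  obtain ⟨b1, b2, b3⟩ := twFilter_spec hr1 t7_valid t7_valid hb
  refine ⟨⟨_, a2⟩, mem_cent_S7.mpr (Subtype.ext a3), ⟨_, b2⟩, mem_cent_S7.mpr (Subtype.ext b3), ?_⟩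
  intro he
  have h1 := congrArg Subtype.val he
  simp only [Subgroup.coe_mul] at h1
  rw [← mk_comp a1 b1, ← mk_comp b1 a1] at h1
  rw [samePerm_of_mk_eq (valid_comp a1 b1) (valid_comp b1 a1) h1] at hc
  exact absurd hc (by simp)

theorem tri7_ok : famDec 3 tri7 ∈ trios := by
  rw [trios_eq]
  exact ⟨tri7, tri7_mem, rfl⟩

theorem norm_S7_trio {n : ↥M24} (h : n ∈ Subgroup.normalizer (S7 : Set ↥M24)) :
    (n : Equiv.Perm GolayPt) • famDec 3 tri7 = famDec 3 tri7 := by
  obtain ⟨x, hx, hxe⟩ := norm_S7_form h
  obtain ⟨-, hv, -⟩ := mk_of_NL hx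
  rw [hxe]
  exact (keyFix_iff hv).mpr (tri7_fix x hx)

end CfsgLib.Golay
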