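/-
The graph on octads with adjacency disjointness: distances by brute force.
-/
import Cfsg.Agent.Lib.Golay.Code

set_option autoImplicit false
set_option maxRecDepth 100000

namespace CfsgLib.Golay

open Cfsg

/-- Octads disjoint from a given one. -/
def octN (c : ℕ) : List ℕ := octadList.filter fun n => Nat.beq (Nat.land n c) 0

/-- The check on a pair of octads. -/
def octPair (N : List ℕ) (c c' : ℕ) : Bool :=
  match pop (Nat.land c c') with
  | 8 => Nat.beq c c'
  | 4 => N.any fun n => Nat.beq (Nat.land n c') 0
  | 2 => !(N.any fun n => Nat.beq (Nat.land n c') 0) && N.any fun n => Nat.beq (pop (Nat.land n c')) 4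
  | 0 => true
  | _ => false

/-- A portion of the octads. -/
def octPart (i : ℕ) : List ℕ := (octadList.drop (48 * i)).take 48

set_option maxHeartbeats 0 in
theorem octPair_0 : (octPart 0).all (fun c => octadList.all (octPair (octN c) c)) = true := by decide +kernel

set_option maxHeartbeats 0 in
theorem octPair_1 : (octPart 1).all (fun c => octadList.all (octPair (octN c) c)) = true := by decide +kernel

set_option maxHeartbeats 0 in
theorem octPair_2 : (octPart 2).all (fun c => octadList.all (octPair (octN c) c)) = true := by decide +kernel

set_option maxHeartbeats 0 in
theorem octPair_3 : (octPart 3).all (fun c => octadList.all (octPair (octN c) c)) = true := by decide +kernel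

set_option maxHeartbeats 0 in
theorem octPair_4 : (octPart 4).all (fun c => octadList.all (octPair (octN c) c)) = true := by decide +kernel

set_option maxHeartbeats 0 in
theorem octPair_5 : (octPart 5).all (fun c => octadList.all (octPair (octN c) c)) = true := by decide +kernel

set_option maxHeartbeats 0 in
theorem octPair_6 : (octPart 6).all (fun c => octadList.all (octPair (octN c) c)) = true := by decide +kernel

set_option maxHeartbeats 0 in
theorem octPair_7 : (octPart 7).all (fun c => octadList.all (octPair (octN c) c)) = true := by decide +kernel

set_option maxHeartbeats 0 in
theorem octPair_8 : (octPart 8).all (fun c => octadList.all (octPair (octN c) c)) = true := by decide +kernel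

set_option maxHeartbeats 0 in
theorem octPair_9 : (octPart 9).all (fun c => octadList.all (octPair (octN c) c)) = true := by decide +kernel

set_option maxHeartbeats 0 in
theorem octPair_10 : (octPart 10).all (fun c => octadList.all (octPair (octN c) c)) = true := by decide +kernel

set_option maxHeartbeats 0 in
theorem octPair_11 : (octPart 11).all (fun c => octadList.all (octPair (octN c) c)) = true := by decide +kernel

set_option maxHeartbeats 0 in
theorem octPair_12 : (octPart 12).all (fun c => octadList.all (octPair (octN c) c)) = true := by decide +kernel

set_option maxHeartbeats 0 in
theorem octPair_13 : (octPart 13).all (fun c => octadList.all (octPair (octN c) c)) = true := by decide +kernel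

set_option maxHeartbeats 0 in
theorem octPair_14 : (octPart 14).all (fun c => octadList.all (octPair (octN c) c)) = true := by decide +kernel

set_option maxHeartbeats 0 in
theorem octPair_15 : (octPart 15).all (fun c => octadList.all (octPair (octN c) c)) = true := by decide +kernel

theorem octPair_parts : ∀ i < 16, (octPart i).all (fun c => octadList.all (octPair (octN c) c)) = true := by
  intro i hi
  interval_cases i
  · exact octPair_0
  · exact octPair_1
  · exact octPair_2
  · exact octPair_3
  · exact octPair_4
  · exact octPair_5
  · exact octPair_6
  · exact octPair_7
  · exact octPair_8
  · exact octPair_9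
  · exact octPair_10
  · exact octPair_11
  · exact octPair_12
  · exact octPair_13
  · exact octPair_14
  · exact octPair_15

set_option maxHeartbeats 0 in
theorem octPart_cover : ∀ c ∈ octadList, ∃ i < 16, c ∈ octPart i := by decide +kernel

end CfsgLib.Golay
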