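/-
The graph on octads with adjacency disjointness: distances.
-/
import Cfsg.Agent.Lib.Golay.OctGraphData

set_option autoImplicit false
set_option maxRecDepth 100000

namespace CfsgLib.Golay

open Cfsg

theorem walk_two_aux {V : Type*} {G : SimpleGraph V} {x y : V} (w : G.Walk x y) (h : w.length = 2) :
    ∃ v, G.Adj x v ∧ G.Adj v y := by
  cases w with
  | nil => simp at h
  | cons a w3 =>
    cases w3 with
    | nil => simp at h
    | cons b w4 =>
      cases w4 with
      | nil => exact ⟨_, a, b⟩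
      | cons _ _ => simp at h

theorem mem_octN {c n : ℕ} : n ∈ octN c ↔ n ∈ octadList ∧ Nat.land n c = 0 := by
  simp [octN, Nat.beq_eq]

theorem mem_octadList_iff {o : Finset GolayPt} : o ∈ octads ↔ ∃ c ∈ octadList, o = fs c := by
  rw [mem_octads_iff]
  constructor
  · rintro ⟨c, h1, h2, rfl⟩
    exact ⟨c, mem_octadList.mpr ⟨h1, h2⟩, rfl⟩
  · rintro ⟨c, h1, rfl⟩
    exact ⟨c, (mem_octadList.mp h1).1, (mem_octadList.mp h1).2, rfl⟩

theorem octad_fs_mem {c : ℕ} (h : c ∈ octadList) : fs c ∈ octads := mem_octadList_iff.mpr ⟨c, h, rfl⟩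

theorem octadList_lt {c : ℕ} (h : c ∈ octadList) : c < 2 ^ 24 := allCode_lt_aux c (mem_octadList.mp h).1

theorem disjoint_fs {a b : ℕ} : Disjoint (fs a) (fs b) ↔ (fs (Nat.land a b)) = ∅ := by
  rw [Finset.disjoint_iff_inter_eq_empty]
  have := fs_land a b
  constructor
  · intro h
    exact this.trans h
  · intro h
    exact this.symm.trans h

theorem land_lt {a b : ℕ} (h : a < 2 ^ 24) : Nat.land a b < 2 ^ 24 :=
  lt_of_le_of_lt Nat.and_le_left h

theorem disjoint_fs_iff {a b : ℕ} (ha : a < 2 ^ 24) : Disjoint (fs a) (fs b) ↔ Nat.land a b = 0 := by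
  rw [disjoint_fs]
  constructor
  · intro h
    refine eq_of_fs_eq (land_lt ha) (by norm_num) ?_
    rw [h, fs_zero]
  · intro h
    rw [h, fs_zero]

abbrev GO : SimpleGraph octads := blockGraph octads

theorem GO_adj {a b : octads} : GO.Adj a b ↔ a ≠ b ∧ Disjoint (a : Finset GolayPt) (b : Finset GolayPt) := by
  simp only [GO, blockGraph, SimpleGraph.fromRel_adj, ne_eq]
  constructor
  · rintro ⟨h, h2 | h2⟩
    · exact ⟨h, h2⟩
    · exact ⟨h, h2.symm⟩
  · rintro ⟨h, h2⟩
    exact ⟨h, Or.inl h2⟩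

theorem octPair_of {c c' : ℕ} (h : c ∈ octadList) (h' : c' ∈ octadList) : octPair (octN c) c c' = true := by
  obtain ⟨i, hi, hm⟩ := octPart_cover c h
  exact List.all_eq_true.mp (List.all_eq_true.mp (octPair_parts i hi) c hm) c' h'

/-- A vertex from a mask. -/
def vO (c : ℕ) (h : c ∈ octadList) : octads := ⟨fs c, octad_fs_mem h⟩

theorem adj_vO {c n : ℕ} (hc : c ∈ octadList) (hn : n ∈ octadList) (h : Nat.land n c = 0) :
    GO.Adj (vO c hc) (vO n hn) := by
  refine GO_adj.mpr ⟨?_, ?_⟩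
  · intro he
    have h1 : fs c = fs n := congrArg Subtype.val he
    have h2 : c = n := eq_of_fs_eq (octadList_lt hc) (octadList_lt hn) h1
    subst h2
    have h3 : Nat.land c c = c := by
      show c &&& c = c
      exact Nat.and_self c
    rw [h3] at h
    have := (mem_octadList.mp hc).2
    rw [h] at this
    revert this
    decide +kernel
  · show Disjoint (fs c) (fs n)
    rw [disjoint_comm, disjoint_fs_iff (octadList_lt hn)]
    exact h

theorem card_inter_fs' (a b : ℕ) : (fs a ∩ fs b).card = pop (Nat.land a b) := by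
  rw [← fs_land, card_fs]
  rfl

/-- The main classification of pairs of vertices. -/
theorem dist_cases {c c' : ℕ} (hc : c ∈ octadList) (hc' : c' ∈ octadList) (hne : c ≠ c') :
    (pop (Nat.land c c') = 0 ∧ GO.Reachable (vO c hc) (vO c' hc') ∧ GO.dist (vO c hc) (vO c' hc') = 1) ∨
    (pop (Nat.land c c') = 4 ∧ GO.Reachable (vO c hc) (vO c' hc') ∧ GO.dist (vO c hc) (vO c' hc') = 2) ∨
    (pop (Nat.land c c') = 2 ∧ GO.Reachable (vO c hc) (vO c' hc') ∧ GO.dist (vO c hc) (vO c' hc') = 3) := by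
  have hvne : vO c hc ≠ vO c' hc' := by
    intro he
    have h1 : fs c = fs c' := congrArg Subtype.val he
    exact hne (eq_of_fs_eq (octadList_lt hc) (octadList_lt hc') h1)
  have hadj_iff : GO.Adj (vO c hc) (vO c' hc') ↔ pop (Nat.land c c') = 0 := by
    rw [GO_adj]
    show (_ ∧ Disjoint (fs c) (fs c')) ↔ _
    rw [disjoint_fs_iff (octadList_lt hc)]
    constructor
    · rintro ⟨_, h⟩
      rw [h]
      rfl
    · intro h
      refine ⟨hvne, ?_⟩
      have h2 := card_inter_fs' c c'
      rw [h, Finset.card_eq_zero] at h2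
      refine eq_of_fs_eq (land_lt (octadList_lt hc)) (by norm_num) ?_
      rw [show fs (c.land c') = fs (c &&& c') from rfl, fs_land, h2, fs_zero]
  have hnot2 : ∀ n ∈ octadList, Nat.land n c = 0 → Nat.land n c' = 0 →
      (octN c).any (fun n => Nat.beq (Nat.land n c') 0) = true := by
    intro n hn h1 h2
    exact List.any_eq_true.mpr ⟨n, mem_octN.mpr ⟨hn, h1⟩, by rw [h2]; rfl⟩
  have hdist0 : GO.Reachable (vO c hc) (vO c' hc') → GO.dist (vO c hc) (vO c' hc') ≠ 0 := by
    intro hr h0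
    exact hvne (hr.dist_eq_zero_iff.mp h0)
  have hdist1 : ¬ GO.Adj (vO c hc) (vO c' hc') → GO.dist (vO c hc) (vO c' hc') ≠ 1 := by
    intro hn h1
    exact hn (SimpleGraph.dist_eq_one_iff_adj.mp h1)
  have h := octPair_of hc hc'
  unfold octPair at h
  generalize hp : pop (Nat.land c c') = p at h hadj_iff
  have hp8 : p = 8 → False := by
    intro e
    subst e
    exact hne (Nat.eq_of_beq_eq_true h)
  -- a walk of length 2 from the common neighbour
  have hwalk2 : ∀ n (hn : n ∈ octadList), Nat.land n c = 0 → Nat.land n c' = 0 →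
      ∃ w : GO.Walk (vO c hc) (vO c' hc'), w.length = 2 := by
    intro n hn h1 h2
    have a1 : GO.Adj (vO c hc) (vO n hn) := adj_vO hc hn h1
    have a2 : GO.Adj (vO n hn) (vO c' hc') := (adj_vO hc' hn h2).symm
    exact ⟨SimpleGraph.Walk.cons a1 (SimpleGraph.Walk.cons a2 SimpleGraph.Walk.nil), rfl⟩
  match p, h, hadj_iff, hp8 with
  | 8, _, _, hp8 => exact absurd rfl hp8
  | 0, _, hadj_iff, _ =>
    have ha := hadj_iff.mpr rfl
    exact Or.inl ⟨rfl, ha.reachable, SimpleGraph.dist_eq_one_iff_adj.mpr ha⟩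
  | 4, h, hadj_iff, _ =>
    obtain ⟨n, hn, hn2⟩ := List.any_eq_true.mp h
    obtain ⟨hn3, hn4⟩ := mem_octN.mp hn
    obtain ⟨w, hw⟩ := hwalk2 n hn3 hn4 (Nat.eq_of_beq_eq_true hn2)
    have hr := w.reachable
    refine Or.inr (Or.inl ⟨rfl, hr, ?_⟩)
    have h1 := SimpleGraph.dist_le w
    have h2 := hdist0 hr
    have h3 := hdist1 (fun ha => by have := hadj_iff.mp ha; omega)
    omega
  | 2, h, hadj_iff, _ =>
    simp only [Bool.and_eq_true, Bool.not_eq_true', List.any_eq_true] at h
    obtain ⟨h1, n, hn, hn2⟩ := h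
    obtain ⟨hn3, hn4⟩ := mem_octN.mp hn
    -- the second neighbour: use the check for the pair n, c'
    have h5 := octPair_of hn3 hc'
    unfold octPair at h5
    rw [Nat.eq_of_beq_eq_true hn2] at h5
    obtain ⟨m, hm, hm2⟩ := List.any_eq_true.mp h5
    obtain ⟨hm3, hm4⟩ := mem_octN.mp hm
    obtain ⟨w, hw⟩ : ∃ w : GO.Walk (vO c hc) (vO c' hc'), w.length = 3 := by
      have a1 : GO.Adj (vO c hc) (vO n hn3) := adj_vO hc hn3 hn4
      have a2 : GO.Adj (vO n hn3) (vO m hm3) := adj_vO hn3 hm3 hm4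
      have a3 : GO.Adj (vO m hm3) (vO c' hc') := (adj_vO hc' hm3 (Nat.eq_of_beq_eq_true hm2)).symm
      exact ⟨SimpleGraph.Walk.cons a1 (SimpleGraph.Walk.cons a2 (SimpleGraph.Walk.cons a3 SimpleGraph.Walk.nil)), rfl⟩
    have hr := w.reachable
    refine Or.inr (Or.inr ⟨rfl, hr, ?_⟩)
    have h6 := SimpleGraph.dist_le w
    have h7 := hdist0 hr
    have h8 := hdist1 (fun ha => by have := hadj_iff.mp ha; omega)
    have h9 : GO.dist (vO c hc) (vO c' hc') ≠ 2 := by
      intro h2
      obtain ⟨w2, hw2⟩ := hr.exists_walk_length_eq_dist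
      rw [h2] at hw2
      obtain ⟨v, a, b⟩ := walk_two_aux w2 hw2
      obtain ⟨n', hn'1, hn'2⟩ := mem_octadList_iff.mp v.2
      have hv : v = vO n' hn'1 := Subtype.ext hn'2
      subst hv
      have h10 : Nat.land n' c = 0 := by
        have := (GO_adj.mp a).2
        change Disjoint (fs c) (fs n') at this
        rw [disjoint_comm, disjoint_fs_iff (octadList_lt hn'1)] at this
        exact this
      have h11 : Nat.land n' c' = 0 := by
        have := (GO_adj.mp b).2
        change Disjoint (fs n') (fs c') at this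
        rwa [disjoint_fs_iff (octadList_lt hn'1)] at this
      have h12 := hnot2 n' hn'1 h10 h11
      rw [h1] at h12
      simp at h12
    omega
  | 1, h, _, _ => simp at h
  | 3, h, _, _ => simp at h
  | 5, h, _, _ => simp at h
  | 6, h, _, _ => simp at h
  | 7, h, _, _ => simp at h
  | _ + 9, h, _, _ => simp at h

end CfsgLib.Golay
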