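/-
Quartets of the base dodecad, second part.
-/
import Cfsg.Agent.Lib.Golay.QuartetData

set_option autoImplicit false
set_option maxRecDepth 100000

namespace CfsgLib.Golay

open Cfsg
open scoped Pointwise

theorem mem_hexadsOn_Dd0 {x : Finset GolayPt} : x ∈ hexadsOn Dd0 ↔ ∃ m ∈ hxD, x = fs m := by
  constructor
  · rintro ⟨h6, o, ho, rfl⟩
    obtain ⟨c, hc, h8, rfl⟩ := (mem_octads_iff _).mp ho
    have h1 := List.all_eq_true.mp hxD_chk1 c hc
    have hfs : fs c ∩ Dd0 = fs (Nat.land c dod0) := (fs_land c dod0).symm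
    rw [hfs, card_fs] at h6
    rw [hfs]
    have h8' : Nat.beq (pop c) 8 = true := by rw [h8]; rfl
    have h6' : Nat.beq (pop (Nat.land c dod0)) 6 = true := by rw [h6]; rfl
    rw [h8', h6'] at h1
    exact ⟨_, inL_iff.mp h1, rfl⟩
  · rintro ⟨m, hm, rfl⟩
    rw [← hxD_len] at hm
    obtain ⟨⟨m', c⟩, hmc, rfl⟩ := List.mem_map.mp hm
    have h2 := List.all_eq_true.mp hxD_chk2 _ hmc
    simp only [Bool.and_eq_true, Nat.beq_eq] at h2
    obtain ⟨⟨⟨h6, hc⟩, h8⟩, he⟩ := h2
    refine ⟨by rw [card_fs]; exact h6, fs c, (mem_octads_iff _).mpr ⟨c, mem_allCode_of_isCode hc, h8, rfl⟩, ?_⟩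
    rw [← he]
    exact (fs_land c dod0).symm

theorem compat_of_union {a b : ℕ} (ha : a ∈ Tr3) (hb : b ∈ Tr3) (h : fs a ∪ fs b ∈ hexadsOn Dd0) :
    compat a b = true := by
  obtain ⟨m, hm, he⟩ := mem_hexadsOn_Dd0.mp h
  have h6 : (fs a ∪ fs b).card = 6 := h.1
  have hd : Disjoint (fs a) (fs b) := by
    have h3a : (fs a).card = 3 := by rw [card_fs]; exact T3_pop a ha
    have h3b : (fs b).card = 3 := by rw [card_fs]; exact T3_pop b hb
    have := Finset.card_union_add_card_inter (fs a) (fs b)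
    rw [Finset.disjoint_iff_inter_eq_empty, ← Finset.card_eq_zero]
    omega
  have hl : Nat.land a b = 0 := by
    have h0 : fs (a &&& b) = fs 0 := by
      rw [fs_land, fs_zero]
      exact Finset.disjoint_iff_inter_eq_empty.mp hd
    refine eq_of_fs_eq ?_ (by norm_num) h0
    exact lt_of_le_of_lt Nat.and_le_left (T3_lt a ha)
  have hor : Nat.lor a b = m := by
    refine eq_of_fs_eq ?_ (hxD_lt m hm) ?_
    · exact Nat.or_lt_two_pow (T3_lt a ha) (T3_lt b hb)
    · rw [← he]; exact fs_lor a b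
  simp only [compat, Bool.and_eq_true, Nat.beq_eq]
  exact ⟨hl, inL_iff.mpr (hor ▸ hm)⟩

theorem union_of_compat {a b : ℕ} (h : compat a b = true) : fs a ∪ fs b ∈ hexadsOn Dd0 := by
  simp only [compat, Bool.and_eq_true, Nat.beq_eq] at h
  exact mem_hexadsOn_Dd0.mpr ⟨_, inL_iff.mp h.2, (fs_lor a b).symm⟩

theorem exists_T3_of_three {t : Finset GolayPt} (h3 : t.card = 3) (hs : t ⊆ Dd0) : ∃ a ∈ Tr3, t = fs a := by
  refine ⟨mask t, ?_, (fs_mask t).symm⟩
  obtain ⟨x, y, z, hxy, hxz, hyz, rfl⟩ := Finset.card_eq_three.mp h3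
  have hx : dod0.testBit (idx x) = true := mem_fs.mp (hs (by simp))
  have hy : dod0.testBit (idx y) = true := mem_fs.mp (hs (by simp))
  have hz : dod0.testBit (idx z) = true := mem_fs.mp (hs (by simp))
  have hm : mask {x, y, z} = 2 ^ idx x + 2 ^ idx y + 2 ^ idx z := by
    simp only [mask]
    rw [Finset.sum_insert (by simp [hxy, hxz]), Finset.sum_insert (by simp [hyz]), Finset.sum_singleton]
    ring
  rw [hm]
  have key : ∀ a : Fin 24, ∀ b : Fin 24, ∀ c : Fin 24, a ≠ b → a ≠ c → b ≠ c → dod0.testBit a = true →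
      dod0.testBit b = true → dod0.testBit c = true → 2 ^ a.val + 2 ^ b.val + 2 ^ c.val ∈ Tr3 := by
    decide +kernel
  exact key ⟨_, idx_lt x⟩ ⟨_, idx_lt y⟩ ⟨_, idx_lt z⟩ (fun h => hxy (idx_inj (Fin.mk.inj h)))
    (fun h => hxz (idx_inj (Fin.mk.inj h))) (fun h => hyz (idx_inj (Fin.mk.inj h))) hx hy hz

theorem subset_Dd0_of_hexad {x : Finset GolayPt} (h : x ∈ hexadsOn Dd0) : x ⊆ Dd0 := by
  obtain ⟨_, o, _, rfl⟩ := h
  exact Finset.inter_subset_right

/-- The quartet of a list of masks. -/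
def qOf (l : List ℕ) : Finset (Finset GolayPt) := (l.map fs).toFinset

theorem mem_qOf {l : List ℕ} {x : Finset GolayPt} : x ∈ qOf l ↔ ∃ a ∈ l, fs a = x := by
  simp [qOf]

theorem qlOK_of_mem {l : List ℕ} (hl : l ∈ QL) : l.length = 4 ∧ (∀ a ∈ l, a ∈ Tr3) ∧
    ∀ a ∈ l, ∀ b ∈ l, a ≠ b → compat a b = true := by
  have h := List.all_eq_true.mp qlChk_ok l hl
  simp only [Bool.and_eq_true, Nat.beq_eq, List.all_eq_true, inL_iff, Bool.or_eq_true] at h
  obtain ⟨⟨h1, h2⟩, h3⟩ := h
  refine ⟨h1, h2, fun a ha b hb hab => ?_⟩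
  rcases h3 a ha b hb with h | h
  · exact absurd h hab
  · exact h

theorem fs_injOn_T3 : Set.InjOn fs {a | a ∈ Tr3} := fun a ha b hb h => eq_of_fs_eq (T3_lt a ha) (T3_lt b hb) h

theorem qOf_card {l : List ℕ} (hl : l ∈ QL) : (qOf l).card = 4 := by
  have h := qlOK_of_mem hl
  rw [qOf, List.toFinset_card_of_nodup]
  · rw [List.length_map]; exact h.1
  · refine (List.nodup_map_iff_inj_on (QL_nodup4 l hl)).mpr ?_
    intro a ha b hb hab
    exact eq_of_fs_eq (T3_lt a (h.2.1 a ha)) (T3_lt b (h.2.1 b hb)) hab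

theorem qOf_mem {l : List ℕ} (hl : l ∈ QL) : qOf l ∈ quartets Dd0 := by
  have h := qlOK_of_mem hl
  refine ⟨qOf_card hl, ?_, ?_⟩
  · intro t ht
    obtain ⟨a, ha, rfl⟩ := mem_qOf.mp ht
    have ha3 := h.2.1 a ha
    refine ⟨by rw [card_fs]; exact T3_pop a ha3, ?_⟩
    intro p hp
    rw [← T3_sub a ha3] at hp
    have : fs (Nat.land a dod0) = fs a ∩ Dd0 := fs_land a dod0
    rw [this] at hp
    exact (Finset.mem_inter.mp hp).2
  · intro t ht u hu htu
    obtain ⟨a, ha, rfl⟩ := mem_qOf.mp ht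
    obtain ⟨b, hb, rfl⟩ := mem_qOf.mp hu
    exact union_of_compat (h.2.2 a ha b hb (fun e => htu (by rw [e])))

theorem mask_fs_T3 {a : ℕ} (ha : a ∈ Tr3) : mask (fs a) = a := mask_fs (T3_lt a ha)

/-- The core uniqueness on the base dodecad. -/
theorem base_core {a b : ℕ} (ha : a ∈ Tr3) (hb : b ∈ Tr3) (hab : compat a b = true) :
    ∃ l ∈ QL, a ∈ l ∧ b ∈ l ∧ ∀ Q ∈ quartets Dd0, fs a ∈ Q → fs b ∈ Q → Q = qOf l := by
  have h1 := List.all_eq_true.mp (baseChk_ok a ha) b
    (List.mem_filter.mpr ⟨hb, hab⟩)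
  unfold pairOK at h1
  generalize hf : (nbr a).filter (compat b) = F at h1
  match F, h1, hf with
  | [v, w], h1, hf =>
    simp only [List.any_eq_true, Bool.and_eq_true, inL_iff] at h1
    obtain ⟨l, hl, ⟨⟨hal, hbl⟩, hvl⟩, hwl⟩ := h1
    refine ⟨l, hl, hal, hbl, fun Q hQ hQa hQb => ?_⟩
    have hne : fs a ≠ fs b := by
      intro he
      have : a = b := eq_of_fs_eq (T3_lt a ha) (T3_lt b hb) he
      subst this
      have h6 := (union_of_compat hab).1
      rw [Finset.union_self, card_fs, T3_pop a ha] at h6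
      omega
    refine Finset.eq_of_subset_of_card_le ?_ ?_
    · intro x hx
      obtain ⟨c, hc, rfl⟩ := exists_T3_of_three (hQ.2.1 x hx).1 (hQ.2.1 x hx).2
      by_cases hca : fs c = fs a
      · rw [hca]; exact mem_qOf.mpr ⟨a, hal, rfl⟩
      by_cases hcb : fs c = fs b
      · rw [hcb]; exact mem_qOf.mpr ⟨b, hbl, rfl⟩
      have h2 : compat a c = true := compat_of_union ha hc (hQ.2.2 _ hQa _ hx (Ne.symm hca))
      have h3 : compat b c = true := compat_of_union hb hc (hQ.2.2 _ hQb _ hx (Ne.symm hcb))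
      have h4 : c ∈ (nbr a).filter (compat b) := List.mem_filter.mpr ⟨List.mem_filter.mpr ⟨hc, h2⟩, h3⟩
      rw [hf] at h4
      simp only [List.mem_cons, List.not_mem_nil, or_false] at h4
      rcases h4 with rfl | rfl
      · exact mem_qOf.mpr ⟨_, hvl, rfl⟩
      · exact mem_qOf.mpr ⟨_, hwl, rfl⟩
    · rw [qOf_card hl, hQ.1]
  | [], h1, _ => simp at h1
  | [_], h1, _ => simp at h1
  | _ :: _ :: _ :: _, h1, _ => simp at h1

theorem compat_symm_T3 {a b : ℕ} (ha : a ∈ Tr3) (hb : b ∈ Tr3) (h : compat a b = true) : compat b a = true := by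
  refine compat_of_union hb ha ?_
  rw [Finset.union_comm]
  exact union_of_compat h

/-- Existence and uniqueness on the base dodecad. -/
theorem base_exists_unique {t u : Finset GolayPt} (ht : t.card = 3) (hu : u.card = 3)
    (hh : t ∪ u ∈ hexadsOn Dd0) : ∃! Q : Finset (Finset GolayPt), Q ∈ quartets Dd0 ∧ t ∈ Q ∧ u ∈ Q := by
  have hs := subset_Dd0_of_hexad hh
  obtain ⟨a, ha, rfl⟩ := exists_T3_of_three ht (Finset.union_subset_left hs)
  obtain ⟨b, hb, rfl⟩ := exists_T3_of_three hu (Finset.union_subset_right hs)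
  obtain ⟨l, hl, hal, hbl, hU⟩ := base_core ha hb (compat_of_union ha hb hh)
  refine ⟨qOf l, ⟨qOf_mem hl, mem_qOf.mpr ⟨a, hal, rfl⟩, mem_qOf.mpr ⟨b, hbl, rfl⟩⟩, ?_⟩
  rintro Q ⟨h1, h2, h3⟩
  exact hU Q h1 h2 h3

/-- Any two distinct members of a quartet give a pair with the hypotheses above. -/
theorem exists_pair {d : Finset GolayPt} {Q : Finset (Finset GolayPt)} (hQ : Q ∈ quartets d) :
    ∃ t ∈ Q, ∃ u ∈ Q, t ≠ u := by
  have h1 : 1 < Q.card := by rw [hQ.1]; norm_num
  obtain ⟨t, ht, u, hu, hne⟩ := Finset.one_lt_card.mp h1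
  exact ⟨t, ht, u, hu, hne⟩

theorem quartets_Dd0_eq : quartets Dd0 = qOf '' {l | l ∈ QL} := by
  ext Q
  constructor
  · intro hQ
    obtain ⟨t, ht, u, hu, hne⟩ := exists_pair hQ
    have hh := hQ.2.2 t ht u hu hne
    have hs := subset_Dd0_of_hexad hh
    obtain ⟨a, ha, rfl⟩ := exists_T3_of_three (hQ.2.1 t ht).1 (Finset.union_subset_left hs)
    obtain ⟨b, hb, rfl⟩ := exists_T3_of_three (hQ.2.1 u hu).1 (Finset.union_subset_right hs)
    obtain ⟨l, hl, _, _, hU⟩ := base_core ha hb (compat_of_union ha hb hh)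
    exact ⟨l, hl, (hU Q hQ ht hu).symm⟩
  · rintro ⟨l, hl, rfl⟩
    exact qOf_mem hl

theorem qOf_injOn : Set.InjOn qOf {l | l ∈ QL} := by
  intro l hl l' hl' he
  by_contra hne
  obtain ⟨a, ha, hal⟩ := QL_sep l hl l' hl' hne
  have h1 : fs a ∈ qOf l' := by rw [← he]; exact mem_qOf.mpr ⟨a, ha, rfl⟩
  obtain ⟨b, hb, hbe⟩ := mem_qOf.mp h1
  have ha3 := (qlOK_of_mem hl).2.1 a ha
  have hb3 := (qlOK_of_mem hl').2.1 b hb
  have : b = a := eq_of_fs_eq (T3_lt b hb3) (T3_lt a ha3) hbe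
  exact hal (this ▸ hb)

theorem quartets_Dd0_ncard : (quartets Dd0).ncard = 220 := by
  rw [quartets_Dd0_eq, qOf_injOn.ncard_image]
  have : {l | l ∈ QL} = ((QL.toFinset : Finset (List ℕ)) : Set (List ℕ)) := by
    ext l; simp
  rw [this, Set.ncard_coe_finset, List.toFinset_card_of_nodup QL_nodup, QL_length]

/-- Transport of hexads. -/
theorem hexadsOn_smul {g : Equiv.Perm GolayPt} (hg : g ∈ M24) {d x : Finset GolayPt}
    (hx : x ∈ hexadsOn d) : g • x ∈ hexadsOn (g • d) := by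
  obtain ⟨h6, o, ho, rfl⟩ := hx
  refine ⟨by rw [Finset.card_smul_finset]; exact h6, g • o, M24_smul_octad hg ho, ?_⟩
  exact Finset.smul_finset_inter.symm

/-- Transport of quartets. -/
theorem quartets_smul {g : Equiv.Perm GolayPt} (hg : g ∈ M24) {d : Finset GolayPt}
    {Q : Finset (Finset GolayPt)} (hQ : Q ∈ quartets d) : g • Q ∈ quartets (g • d) := by
  refine ⟨by rw [Finset.card_smul_finset]; exact hQ.1, ?_, ?_⟩
  · intro t ht
    obtain ⟨t', ht', rfl⟩ := Finset.mem_smul_finset.mp ht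
    refine ⟨by rw [Finset.card_smul_finset]; exact (hQ.2.1 t' ht').1, ?_⟩
    exact Finset.smul_finset_subset_smul_finset_iff.mpr (hQ.2.1 t' ht').2
  · intro t ht u hu hne
    obtain ⟨t', ht', rfl⟩ := Finset.mem_smul_finset.mp ht
    obtain ⟨u', hu', rfl⟩ := Finset.mem_smul_finset.mp hu
    have hne' : t' ≠ u' := fun e => hne (by rw [e])
    have := hexadsOn_smul hg (hQ.2.2 t' ht' u' hu' hne')
    rwa [Finset.smul_finset_union] at this

/-- Transitivity on the base dodecad. -/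
theorem base_trans {Q Q' : Finset (Finset GolayPt)} (hQ : Q ∈ quartets Dd0) (hQ' : Q' ∈ quartets Dd0) :
    ∃ g ∈ stabS Dd0, g • Q = Q' := by
  obtain ⟨t, ht, u, hu, hne⟩ := exists_pair hQ
  obtain ⟨t', ht', u', hu', hne'⟩ := exists_pair hQ'
  have hh := hQ.2.2 t ht u hu hne
  have hh' := hQ'.2.2 t' ht' u' hu' hne'
  have h3t := (hQ.2.1 t ht).1
  have h3u := (hQ.2.1 u hu).1
  have h3t' := (hQ'.2.1 t' ht').1
  have h3u' := (hQ'.2.1 u' hu').1
  have hdisj : Disjoint t u := by
    have h6 := hh.1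
    have := Finset.card_union_add_card_inter t u
    rw [Finset.disjoint_iff_inter_eq_empty, ← Finset.card_eq_zero]
    omega
  have hdisj' : Disjoint t' u' := by
    have h6 := hh'.1
    have := Finset.card_union_add_card_inter t' u'
    rw [Finset.disjoint_iff_inter_eq_empty, ← Finset.card_eq_zero]
    omega
  obtain ⟨a, b, c, hab, hac, hbc, rfl⟩ := Finset.card_eq_three.mp h3t
  obtain ⟨e, f, w, hef, hew, hfw, rfl⟩ := Finset.card_eq_three.mp h3u
  obtain ⟨a', b', c', hab', hac', hbc', rfl⟩ := Finset.card_eq_three.mp h3t'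
  obtain ⟨e', f', w', hef', hew', hfw', rfl⟩ := Finset.card_eq_three.mp h3u'
  have hsep : ∀ {p q : GolayPt} {T U : Finset GolayPt}, Disjoint T U → p ∈ T → q ∈ U → p ≠ q :=
    fun hD hp hq he => Finset.disjoint_left.mp hD hp (he ▸ hq)
  have hae := hsep hdisj (p := a) (q := e) (by simp) (by simp)
  have haf := hsep hdisj (p := a) (q := f) (by simp) (by simp)
  have hbe := hsep hdisj (p := b) (q := e) (by simp) (by simp)
  have hbf := hsep hdisj (p := b) (q := f) (by simp) (by simp)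
  have hce := hsep hdisj (p := c) (q := e) (by simp) (by simp)
  have hcf := hsep hdisj (p := c) (q := f) (by simp) (by simp)
  have hae' := hsep hdisj' (p := a') (q := e') (by simp) (by simp)
  have haf' := hsep hdisj' (p := a') (q := f') (by simp) (by simp)
  have hbe' := hsep hdisj' (p := b') (q := e') (by simp) (by simp)
  have hbf' := hsep hdisj' (p := b') (q := f') (by simp) (by simp)
  have hce' := hsep hdisj' (p := c') (q := e') (by simp) (by simp)
  have hcf' := hsep hdisj' (p := c') (q := f') (by simp) (by simp)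
  let x : Fin 5 ↪ GolayPt := ⟨![a, b, c, e, f], by
    intro i j hij
    fin_cases i <;> fin_cases j <;> simp_all⟩
  let y : Fin 5 ↪ GolayPt := ⟨![a', b', c', e', f'], by
    intro i j hij
    fin_cases i <;> fin_cases j <;> simp_all⟩
  have hS := subset_Dd0_of_hexad hh
  have hS' := subset_Dd0_of_hexad hh'
  have hx : ∀ i, x i ∈ Dd0 := by
    have h0 : a ∈ Dd0 := hS (by simp)
    have h1 : b ∈ Dd0 := hS (by simp)
    have h2 : c ∈ Dd0 := hS (by simp)
    have h3 : e ∈ Dd0 := hS (by simp)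
    have h4 : f ∈ Dd0 := hS (by simp)
    intro i
    fin_cases i
    · exact h0
    · exact h1
    · exact h2
    · exact h3
    · exact h4
  have hy : ∀ i, y i ∈ Dd0 := by
    have h0 : a' ∈ Dd0 := hS' (by simp)
    have h1 : b' ∈ Dd0 := hS' (by simp)
    have h2 : c' ∈ Dd0 := hS' (by simp)
    have h3 : e' ∈ Dd0 := hS' (by simp)
    have h4 : f' ∈ Dd0 := hS' (by simp)
    intro i
    fin_cases i
    · exact h0
    · exact h1
    · exact h2
    · exact h3
    · exact h4
  obtain ⟨⟨g, hg, hgx⟩, _⟩ := dod_sharp Dd0_mem x y hx hy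
  have hg0 : g a = a' := hgx 0
  have hg1 : g b = b' := hgx 1
  have hg2 : g c = c' := hgx 2
  have hg3 : g e = e' := hgx 3
  have hg4 : g f = f' := hgx 4
  have hgm := (mem_stabS.mp hg).1
  have hgd := (mem_stabS.mp hg).2
  have hgT : g • ({a, b, c} : Finset GolayPt) = {a', b', c'} := by
    ext p
    simp only [Finset.mem_smul_finset, Finset.mem_insert, Finset.mem_singleton]
    constructor
    · rintro ⟨q, (rfl | rfl | rfl), rfl⟩
      · exact Or.inl hg0
      · exact Or.inr (Or.inl hg1)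
      · exact Or.inr (Or.inr hg2)
    · rintro (rfl | rfl | rfl)
      · exact ⟨a, Or.inl rfl, hg0⟩
      · exact ⟨b, Or.inr (Or.inl rfl), hg1⟩
      · exact ⟨c, Or.inr (Or.inr rfl), hg2⟩
  have hgH : g • (({a, b, c} : Finset GolayPt) ∪ {e, f, w}) ∈ hexadsOn Dd0 := by
    have := hexadsOn_smul hgm hh
    rwa [hgd] at this
  -- two hexads with five common points coincide
  have hEq : g • (({a, b, c} : Finset GolayPt) ∪ {e, f, w}) = ({a', b', c'} : Finset GolayPt) ∪ {e', f', w'} := by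
    obtain ⟨m1, hm1, he1⟩ := mem_hexadsOn_Dd0.mp hgH
    obtain ⟨m2, hm2, he2⟩ := mem_hexadsOn_Dd0.mp hh'
    have hsep2 := List.all_eq_true.mp (List.all_eq_true.mp hxD_sep m1 hm1) m2 hm2
    simp only [Bool.or_eq_true, Nat.beq_eq, Nat.ble_eq] at hsep2
    rcases hsep2 with h | h
    · rw [he1, he2, h]
    · exfalso
      have hsub : ({a', b', c', e', f'} : Finset GolayPt) ⊆ fs m1 ∩ fs m2 := by
        have h1 : ∀ q, q ∈ ({a, b, c} : Finset GolayPt) ∪ {e, f, w} → g q ∈ fs m1 := by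
          intro q hq
          rw [← he1]
          exact Finset.mem_smul_finset.mpr ⟨q, hq, rfl⟩
        have h2 : ∀ q, q ∈ ({a', b', c'} : Finset GolayPt) ∪ {e', f', w'} → q ∈ fs m2 := by
          intro q hq
          rw [← he2]
          exact hq
        intro p hp
        simp only [Finset.mem_insert, Finset.mem_singleton] at hp
        rw [Finset.mem_inter]
        rcases hp with rfl | rfl | rfl | rfl | rfl
        · exact ⟨hg0 ▸ h1 a (by simp), h2 _ (by simp)⟩
        · exact ⟨hg1 ▸ h1 b (by simp), h2 _ (by simp)⟩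
        · exact ⟨hg2 ▸ h1 c (by simp), h2 _ (by simp)⟩
        · exact ⟨hg3 ▸ h1 e (by simp), h2 _ (by simp)⟩
        · exact ⟨hg4 ▸ h1 f (by simp), h2 _ (by simp)⟩
      have hc5 : ({a', b', c', e', f'} : Finset GolayPt).card = 5 := by
        rw [Finset.card_insert_of_notMem, Finset.card_insert_of_notMem, Finset.card_insert_of_notMem,
          Finset.card_insert_of_notMem, Finset.card_singleton]
        · simp [hef']
        · simp [hce', hcf']
        · simp [hbc', hbe', hbf']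
        · simp [hab', hac', hae', haf']
      have hle := Finset.card_le_card hsub
      rw [hc5, ← fs_land, card_fs] at hle
      have : pop (m1 &&& m2) = pop (Nat.land m1 m2) := rfl
      omega
  have hgU : g • ({e, f, w} : Finset GolayPt) = {e', f', w'} := by
    rw [Finset.smul_finset_union, hgT] at hEq
    have hd2 : Disjoint ({a', b', c'} : Finset GolayPt) (g • ({e, f, w} : Finset GolayPt)) := by
      rw [← hgT]
      rw [Finset.disjoint_left]
      intro p hp hp'
      obtain ⟨q, hq, rfl⟩ := Finset.mem_smul_finset.mp hp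
      obtain ⟨q', hq', he⟩ := Finset.mem_smul_finset.mp hp'
      have : q' = q := smul_left_cancel g he
      exact Finset.disjoint_left.mp hdisj hq (this ▸ hq')
    calc g • ({e, f, w} : Finset GolayPt) = ({a', b', c'} ∪ g • ({e, f, w} : Finset GolayPt)) \ {a', b', c'} := by
          rw [Finset.union_sdiff_cancel_left hd2]
      _ = ({a', b', c'} ∪ {e', f', w'}) \ {a', b', c'} := by rw [hEq]
      _ = {e', f', w'} := Finset.union_sdiff_cancel_left hdisj'
  have hgQ : g • Q ∈ quartets Dd0 := by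
    have := quartets_smul hgm hQ
    rwa [hgd] at this
  refine ⟨g, hg, ?_⟩
  refine ExistsUnique.unique (base_exists_unique h3t' h3u' hh') ⟨hgQ, ?_, ?_⟩ ⟨hQ', ht', hu'⟩
  · rw [← hgT]; exact Finset.smul_mem_smul_finset ht
  · rw [← hgU]; exact Finset.smul_mem_smul_finset hu

end CfsgLib.Golay
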