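/-
The stabiliser of a quartet of the base dodecad.
-/
import Cfsg.Agent.Lib.Golay.Quartet
import Cfsg.Agent.Lib.Golay.SixSets
import Cfsg.Agent.Lib.Golay.Elems

set_option autoImplicit false
set_option maxRecDepth 100000

namespace CfsgLib.Golay

open Cfsg
open scoped Pointwise

def q0L : List ℕ := [7, 336, 34304, 131112]

def L432 : List ℕ := [984818244535754528103549039458486304, 596693935057177821627616253167372320, 858949410588062151349278852544333856, 596738379696408251190632149984348192, 983114479500887568959290245577345056, 610567220055306514578258606788085792, 610976555568331023305579807391287328, 845928067797247604214473723502331936, 609272950840352688830935139408414752, 859801155349116146019819546429622304, 970531819526550031117983620406741024, 860195471863206499356624230234228768, 984404951986650291017642929327245344, 858491673708910280360910572945213472, 983553010088178266402939871779325984, 845957262214500392360261753352194080, 970579874927688723303984334079821856, 609715322407751129443753868486281248, 591136556062433155862379789704266816, 972770454313256898457466314500375616, 598722252692302998178934078279156800,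 971269592446826249552146775608034368, 846646745263722491324627717235115072, 972560062960302233497009465070158912, 971505260020869350488598722740814912, 840399843800311347720180883405472832, 598928803026502070368537425133962304, 840370725864806064189421606690620480, 597427985333579389271031480610653248, 847956229377126131392304359171884096, 965022493459746283130018686207886400, 597667610020997922381123017658958912, 964974399875705615325766390902981696, 848147759978081943805796113091691584, 591181039000509114460386348240077888, 846901619747992316774654313814426688, 605702933635904684076033736277428225, 852337470003381727236094242944387073, 603102983375552319840938429108488193, 979544901671084333352236659828623361, 606957076169413783371160169849391105, 976907791134299798555324425644902401, 980794409305067894951507433892579329, 852285458145881012660375932150188033, 606879710681528775808386636636620801, 854811489625132098795722588518746113, 605577819794658574390684514725824513, 980721307978335900412416918884091905, 854922197635450901583981357999392769, 976941133965916389441363389261875201, 856191075925301287504909676255119361, 603066643607047715395881109111965697,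 856098153824674469786593651624019969, 979415640149783516098849983600822273, 597671100670118979734175074078556225, 840411374857891591962548504613748801, 591140547224599682376397640229453889, 848159281257756536293752232419262529, 972762573864762153586935444227260481, 840359439907264702268100786647236673, 847944626400662281940577788978757697, 971262072881389705926992319880855617, 591176925291949813550590598633848897, 971513106385551811268274842029359169, 598925203048552406941866190539620417, 964981735524310634923823374881292353, 846657959727506568290833557104033857, 598726220319102096180136554136797249, 846890323587418982832680152566399041, 965015116963955523988200829065953345, 597424331288462040120734110929027137, 972567739163197169138287573865758785, 856109394153540286501847150965687298, 605581268870710381978974270264574978, 854933205118063563998607814142657538, 603106846936883557395550753921369090, 976948186344841724045049627893335042, 605699198559437141862463954151310338, 603062248947679638713382739519833090, 980802043934893580828023241807332354, 854799910194879079859377681923867650, 980713346498490962478613636166484994, 852325655292061102881207361377469442,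 979536730493875160954591667688899586, 606960273345823183709188139717493762, 852296537511147210839683224487330818, 606875533061443844830348101889983490, 979422871732920675250316816534373378, 856179345348002149093777580349686786, 976900207657337624861927184777315330, 858937713402540676746085862070517794, 970572135512556111406870088699576354, 596697566043999724900424852168704034, 860206671073142756509293539025420322, 983560489475494801155575929522126882, 596734135914760251852344227367780386, 984810155754622566520256189283205154, 845916452272285317130373071103098914, 610972587221692859730369045112913954, 970538946146856546923441370142179362, 983106632416366042605605839868067874, 859789384193957310195503319695556642, 984412305424145604281972015788884002, 609268896465948486061081152298582050, 610570779855136169132411443398049826, 858502717250002141478614662101860386, 845968387493447135589829617686544418, 609718682288122201288476497554833442, 970336682684048732801970663004849315, 591298695146988358113678685722657955, 840318831414743103608677902590428323, 976616306970362203275351094900049059, 596494798976469523490704380645393571, 840532949585578024452109929118221475,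 602778740679612393099648527000192163, 964941248575302246203397661319546019, 852012902133823887472843633769923747, 591099866385877100100005274063291555, 596126219313105771413223030831269027, 976461845323241972481642702568506531, 602620399830834593909834460162409635, 845359961103339917430153222800524451, 851838926799234277794169667111306403, 969963878549699983226137718068298915, 965136773931465616925129569423475875, 845713827424224605017872700168881315, 859830192473106067357669481463944739, 980551411413820476645396888617752099, 598032458845367078876474742136673827, 980964550149177068589314224634762787, 847133605990290796727033437498840611, 984729274522053799569222053861201443, 984453233584383157389244514461357603, 606713518248909132046939897506895395, 971756134492011198022845242941642275, 610891819688408784217528559055410723, 855947382626563641556967868223231523, 610611554318401007975941467197969955, 860125747368781018340581339380913699, 597914874619206996085934368655480355, 847266824470375641971950533229385251, 607122777898551685953061234162505251, 856341928817783594850410306052691491, 971870415158631999726392395057731107, 840654439291023075058729460605919428,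 609597585563546798807553371110645956, 858341053232303566422141735445536964, 606514417877716356542029351860904132, 980355881419500132895615579224252612, 609106774833597488657856821816959172, 607078407652876271235018602484900036, 965347247601236768409428578051334340, 858816076899424519363848911248203972, 965258281415902087855112709630107844, 855733500276694711425617576981602500, 982944416253684714792229634965676228, 591505327140537250915043403690451140, 856312585687127682245767020926771396, 591420740438018483765690546422882500, 983438915348077370668854349248405700, 840724275318413447199260715905032388, 980916528640613986194705305022079172, 847093190075421693936419414209566980, 970410002324461023397214905502374148, 845551499934624819266002338735233284, 979253025126433763479071990647134468, 605415606774656274784314934303168772, 970174104377627086162015728203766020, 979220412059865858038537459889150212, 597586355048181144830729105798666500, 845806527807516001892523838372059396, 597873996335470810137656518662691076, 854649416968519172756602630404380932, 596332885972602650981982937482860804, 971424364656260168540162978159433988, 854597328281440331360707675881117956,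 971715693728275494347747543122155780, 596572126898608990617924155313985796, 846820299231373315651913972892866820, 605378614070681111719388895207528708, 984445427237148273329856210567171621, 855935723550275121676286990951386661, 607119084720015129593565162932047397, 971877582593520852435700628694535717, 859841361581167308027819719329615397, 606717047985511617408749340253785637, 847255016952390384797644915518606885, 980956502530458069562196453593583141, 598036363570320167907899865928535589, 856352934256895834803451888042216997, 860114251420371637027609058263371301, 971748435968756617615386413093817893, 847144923269513843604655873179586085, 610895059922184589264715603551522341, 597910520505095214182198502540447269, 984736794878544060401435030200520229, 980558805395363195730696062860594725, 610607456199431335931607272944373285, 599171980482448776457796067537699941, 858787021435010212042125212783199333, 983195320618161850129151978523149413, 605455922185779802850663230565598309, 848391023616196209385649588612121701, 983390385499278442452768545117062245, 854689623358335263035388362783802469, 609353953076044501416865559619126373, 979293503471819532281253988433806437,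 858572442982367772352393848101684325, 848523935280390539120814275766305893, 605783898885682124469103553358906469, 855002886290632189525897898801448037, 973127837731424013535816914485593189, 979625819500595563487962469229446245, 599289718174525885650946686078469221, 609552782030395018968161392554689637, 973013403714829722713117644784944229, 605419279172702705091335649387155718, 845563088143983906057435260058145030, 596328974419032667041777938064511238, 979260392575001302702978859656319238, 597870499421771645371131272749355270, 970417719834689199387137633647300870, 971708205730914386600844617043775750, 845794531092450629555244785056452870, 597589811102605680782412221481259270, 854608980876942617793757595409879302, 605374451467721361057042926761480454, 971431934343157199695168180070977798, 854638213708984466462658988470735110, 970166264308917246547771748458729734, 847104011573561229686831528360808710, 596576242690525450202264422644191494, 846809110077131011782209597458256134, 979212758654402585504817450965963014, 977070429371745834977517048229765254, 599330753726175376084708410711842950, 860004178623010775775561291542831238, 599090706939851307811337114592747654,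 984493251779809922887430873762046086, 602859987024967349977228992943825030, 603228796249517168206223515480793222, 848564347537957286403078709256953990, 610652220114875082434447955620601990, 852093944771929413735380675210584198, 973168615433098712983297598880784518, 852447158968948328968874507407761542, 976697202674717379229542423017398406, 859870999176080559309819883654586502, 984607800924827848816590086751821958, 848310087071946941897415272104632454, 972932755939701666296333043564322950, 610769574895792669784011026101215366, 609110367032449630861675037625225416, 855744745064569777228550849851101384, 980923697283257252205221447490375880, 591501710376123582541251586041352392, 858329483517167171756380706458210504, 980348222557436879409712109319262408, 840735523120820673572984349579579592, 607082402086812146942512492444684488, 965339208030941368501956617424703688, 856301014078246698620216843897508040, 858827401492762031017562872946364616, 591424152930236786552898451990909128, 840642946366816965704589509177938120, 983431387189520699022838778272714952, 965265953315588052514504610888880328, 609593380596464116892314835786993864, 606510423419602702317459404295213256,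 982951985237667125346632303543554248, 610648303805201960302406935556462728, 976704994422700069651582941009352840, 602863662125945384625157063901780104, 859882079372293809260541025541232776, 599334284018354426468509316241463432, 852458993471594044290612377112582280, 848553363324976078805380022598670472, 977062433361238890389902342715119752, 599087054084355038071441142909802632, 984615373314656484312502644537333896, 610773532040562642213818118790191240, 848321152969628517218343186595846280, 984485842773888689924226665178830984, 852082232803587583520887999499966600, 973175824234519765052671293248739464, 603224712637997292327576264529909896, 972925097778135255570777013995346056, 859992403969031062705317554307635336, 596616600945338305503330466958720329, 848443196571034105060088438602644809, 980510652004931414095222444540345673, 848106923738065429300658722429779273, 606757658890406663177514063512059209, 845603472370074549384413126244547913, 845835644156041657821747922797083977, 973046560712938241068064533663202633, 855976645908348693052226375694499145, 970207374898818636409794735740370249, 599208957514513540530115861803121993, 970458024602920707898587938439773513,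 596369255689676025958000107591974217, 980599579659533466854596201602497865, 606673071260339536722358016342768969, 972729801644734683719612983909039433, 598888433754710494332165114179009865, 855906772277774052432382524993486153, 605212392460448045085186514349140457, 984250221430151101261628614666037737, 860084954839819860486365207320439273, 591383750398100310756738142212041193, 979050307382963699932265858066360809, 859627677740053490059474251865467369, 965225508233116213076855370884065769, 610851049496958620260704585518426601, 840602426001134198123774093345958377, 984689020302599696835606853165525481, 979666232379285433084711655273802217, 591542398642486326814981402742893033, 965379816066488783755607519584627177, 855043666196631980941783192582531561, 840776247753863251032597899850066409, 605825012892386464006310084808845801, 610408486435332577200359934501497321, 854446794760563484308319499542768105, 609471965788847605671437125213633834, 971634354845996043448098887065287978, 852407059412285530881326549517253930, 971829649558833613385710513813503274, 602819095210857818402703067878538538, 983155077852977423993317821395516714, 983309424023843389435488281344097578,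 847011710752153546089524611071884586, 976657103117676017032956607334530346, 858532032721681431484855548880436522, 597793098761209406856057158166035754, 858705777683480199113689028333059370, 609313279091024699064959242700635434, 852053078078920710882511440512073002, 603187904821886085373066932331330858, 847226174540146525161757309543759146, 597991812548488407417407481193905450, 977029562291880119312454104038718762, 605216222457313494090861960855987690, 859639006744081256353725095235200490, 984696303228249499308163405263939050, 591380053949003294151706823327229418, 854435302846036996111156590260856298, 984242407445148905319047743992309226, 840613791642150019351298648370685418, 610854973019272698288516278676202986, 965217593921816303309838047983445482, 860073503272474874841472875303544298, 855054953848634214977734776346682858, 591545809129852054439505835229488618, 840764718699926693027877985468851690, 979658897265705866750070352080053738, 965387689513678508991278914718541290, 605820815234582691160475717477737962, 610404726296925901704165875044787690, 979057724181243633979229234080720362, 970214874599224462893232958395786575, 606753658683434730330769822668957007,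 855895607860572546286928601085420879, 972721851512887103665009041089799503, 596372862932212306501777412225869135, 855988300515956852438397056396141903, 598884672925478087493361192440964431, 980517897911950244368609733483177295, 848118552992685047812558558066812239, 606676908064061844212916622387750223, 596612871149155917004834941707691343, 973054551689553782829446403152094543, 599212840887720943916807581115917647, 845846506003780438244420446457472335, 848431240514750791530506820880704847, 970450810844903947592902911110161743, 980591843552436871933661732823704911, 845592283720672073975689570034984271, 858543730079891030814128138866960687, 602822674132946796352819039440513327, 977022158013085288663194239587363119, 847214300885984867079341673566742831, 609309237346041295302394947879315759, 976664834202970098391315594878396719, 597996050357816632756614785881188655, 852418001768401377759745157344897327, 971837448816587782891934902943689007, 603184530157485805906924246795495727, 609475721596277498947665565716752687, 847023461867175763347100540017486127, 597789269457587467045244537451718959, 983316875384216442233636372517890351, 971626596447516502764351636674455855,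 858694733928597989802328554496600367, 852041931484458388337052539246684463, 983147585652671965189625584070764847, 596129954518778035349253978143034545, 851850297472932612937070593423412401, 976624155344732794911274274875542705, 591095836386212964898508795465993393, 845348513795720464030878504666205361, 976454405447324332818446031533575345, 840330281468777564343752686915882161, 602782303829752542937492315777076401, 964933869374162104860573370051464369, 852001531462543330189830679477619889, 845725274734261836265037519809449137, 591302847697880823404551835411057841, 840521581233168376390765100186864817, 970328725483271549938352995266858161, 965144030586212983886355263126506673, 596491349720439659297911243202890929, 602616509886284082620884219345308849, 969971631504877356880135503350926513, 983188050384721874112141343845389425, 854678425923782275124583650549699697, 605780578151991475434876495468729457, 973135303680169259647292717005837425, 858584053751226921217355407919748209, 605459978258271544500438840648209521, 848512965667870414095808161984484465, 979618065371512666448183822325585009, 599293998049674264188803272082232433, 855014737364779235224229878337672305,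 858775737508916981667875797723255921, 973006387157660947333840556607673457, 848402565169103357381068839818073201, 609556632347603093278849342527476849, 599168231698083903465980179251205233, 983398595319537098140656284946404465, 979301421045254278166609365327484017, 609350388751998828193240909221008497]

def L9q : List ℕ := [984818244535754528103549039458486304, 983114479500887568959290245577345056, 970579874927688723303984334079821856, 971513106385551811268274842029359169, 964981735524310634923823374881292353, 972567739163197169138287573865758785, 976948186344841724045049627893335042, 980802043934893580828023241807332354, 979422871732920675250316816534373378]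

def gqTab : List ℕ := [0, 0, 0, 0, 0, 0, 0, 0, 0, 0, 0, 0, 591298695146988358113678685722657955, 840654439291023075058729460605919428, 965217593921816303309838047983445482, 973013403714829722713117644784944229, 599090706939851307811337114592747654, 848431240514750791530506820880704847, 0, 0, 0, 964941248575302246203397661319546019, 840764718699926693027877985468851690, 591505327140537250915043403690451140, 599289718174525885650946686078469221, 972721851512887103665009041089799503, 848564347537957286403078709256953990, 0, 984818244535754528103549039458486304, 610567220055306514578258606788085792, 0, 596738379696408251190632149984348192, 845928067797247604214473723502331936, 0, 858491673708910280360910572945213472, 983553010088178266402939871779325984, 0, 859870999176080559309819883654586502, 859639006744081256353725095235200490, 969963878549699983226137718068298915, 0, 970214874599224462893232958395786575, 609353953076044501416865559619126373, 609106774833597488657856821816959172, 0, 0, 610854973019272698288516278676202986, 984607800924827848816590086751821958, 845713827424224605017872700168881315, 596612871149155917004834941707691343,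 0, 858787021435010212042125212783199333, 0, 983438915348077370668854349248405700, 0, 606957076169413783371160169849391105, 980721307978335900412416918884091905, 0, 976941133965916389441363389261875201, 852285458145881012660375932150188033, 0, 854811489625132098795722588518746113, 605702933635904684076033736277428225, 0, 980916528640613986194705305022079172, 606676908064061844212916622387750223, 852012902133823887472843633769923747, 977070429371745834977517048229765254, 0, 855002886290632189525897898801448037, 0, 605820815234582691160475717477737962, 0, 855988300515956852438397056396141903, 855733500276694711425617576981602500, 602620399830834593909834460162409635, 0, 602859987024967349977228992943825030, 979293503471819532281253988433806437, 979057724181243633979229234080720362, 0]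

/-- The base quartet. -/
abbrev Q0 : Finset (Finset GolayPt) := qOf q0L

theorem q0L_mem : q0L ∈ QL := by decide +kernel

theorem Q0_mem : Q0 ∈ quartets Dd0 := qOf_mem q0L_mem

/-- The stabiliser of the base quartet. -/
abbrev Hq : Subgroup (Equiv.Perm GolayPt) := stabS Dd0 ⊓ MulAction.stabilizer (Equiv.Perm GolayPt) Q0

def inHq (c : ℕ) : Bool :=
  isAut c && Nat.beq (img c dod0) dod0 && q0L.all (fun a => inL (img c a) q0L)

theorem smul_qOf {c : ℕ} (hv : valid c = true) (l : List ℕ) : mk c • qOf l = qOf (l.map (img c)) := by
  ext x
  rw [Finset.mem_smul_finset, mem_qOf]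
  constructor
  · rintro ⟨y, hy, rfl⟩
    obtain ⟨a, ha, rfl⟩ := mem_qOf.mp hy
    exact ⟨img c a, List.mem_map.mpr ⟨a, ha, rfl⟩, fs_img hv a⟩
  · rintro ⟨b, hb, rfl⟩
    obtain ⟨a, ha, rfl⟩ := List.mem_map.mp hb
    exact ⟨fs a, mem_qOf.mpr ⟨a, ha, rfl⟩, (fs_img hv a).symm⟩

theorem mem_Hq_of {c : ℕ} (h : inHq c = true) : isAut c = true ∧ mk c ∈ Hq := by
  simp only [inHq, Bool.and_eq_true] at h
  obtain ⟨⟨hA, hd⟩, h0⟩ := h
  have hv := isAut_valid hA
  refine ⟨hA, Subgroup.mem_inf.mpr ⟨mem_stabS.mpr ⟨mk_mem_M24 hA, ?_⟩, MulAction.mem_stabilizer_iff.mpr ?_⟩⟩
  · rw [← fs_img hv, Nat.eq_of_beq_eq_true hd]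
  · apply Finset.eq_of_subset_of_card_le
    · rw [smul_qOf hv]
      intro x hx
      obtain ⟨b, hb, rfl⟩ := mem_qOf.mp hx
      obtain ⟨a, ha, rfl⟩ := List.mem_map.mp hb
      exact mem_qOf.mpr ⟨_, inL_iff.mp (List.all_eq_true.mp h0 a ha), rfl⟩
    · rw [Finset.card_smul_finset]

theorem card_Hq : Nat.card ↥Hq = 432 := by
  have h1 := card_set_step (stabS Dd0) Q0 (quartets Dd0)
    (fun g hg => by
      have := quartets_smul (mem_stabS.mp hg).1 Q0_mem
      rwa [(mem_stabS.mp hg).2] at this)
    (fun y hy => base_trans Q0_mem hy)
  rw [card_stabS_Dd0, quartets_Dd0_ncard] at h1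
  change Nat.card ↥(stabS Dd0 ⊓ MulAction.stabilizer (Equiv.Perm GolayPt) Q0) = 432
  omega

theorem L432_in : L432.all inHq = true := by decide +kernel

theorem L432_mem {c : ℕ} (h : c ∈ L432) : valid c = true ∧ mk c ∈ Hq := by
  have h1 := mem_Hq_of (List.all_eq_true.mp L432_in c h)
  exact ⟨isAut_valid h1.1, h1.2⟩

theorem L432_data : (L432.map keyP).Nodup ∧ L432.length = 432 := by
  constructor <;> decide +kernel

/-- A list of distinct elements of the right length covers a subgroup. -/
theorem cover_of_card {K : Subgroup (Equiv.Perm GolayPt)} {L : List ℕ} (hv : ∀ c ∈ L, valid c = true)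
    (hm : ∀ c ∈ L, mk c ∈ K) (hkey : (L.map keyP).Nodup) (hc : Nat.card K = L.length)
    {g : Equiv.Perm GolayPt} (hg : g ∈ K) : ∃ c ∈ L, g = mk c := by
  have hnd : L.Nodup := List.Nodup.of_map _ hkey
  have hinj : ∀ a ∈ L, ∀ b ∈ L, mk a = mk b → a = b := by
    intro a ha b hb hab
    refine List.inj_on_of_nodup_map hkey ha hb ?_
    have h1 := mk_inj_of_valid (hv a ha) (hv b hb) hab
    exact List.map_congr_left fun i hi => h1 i (List.mem_range.mp hi)
  have hnd2 : (L.map mk).Nodup := List.Nodup.map_on (fun a ha b hb e => hinj a ha b hb e) hnd
  have hsub : (↑(L.map mk).toFinset : Set (Equiv.Perm GolayPt)) ⊆ (K : Set (Equiv.Perm GolayPt)) := by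
    intro x hx
    obtain ⟨c, hc, rfl⟩ := List.mem_map.mp (List.mem_toFinset.mp (Finset.mem_coe.mp hx))
    exact hm c hc
  have hle : (K : Set (Equiv.Perm GolayPt)).ncard ≤ (↑(L.map mk).toFinset : Set (Equiv.Perm GolayPt)).ncard := by
    rw [Set.ncard_coe_finset, List.toFinset_card_of_nodup hnd2, List.length_map, ← hc]
    exact (Nat.card_coe_set_eq (K : Set (Equiv.Perm GolayPt))).symm.le
  have heq := Set.eq_of_subset_of_ncard_le hsub hle (Set.toFinite _)
  have hg' : g ∈ (↑(L.map mk).toFinset : Set (Equiv.Perm GolayPt)) := by
    rw [heq]
    exact hg
  obtain ⟨c, hc, rfl⟩ := List.mem_map.mp (List.mem_toFinset.mp (Finset.mem_coe.mp hg'))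
  exact ⟨c, hc, rfl⟩

theorem L432_cover {g : Equiv.Perm GolayPt} (hg : g ∈ Hq) : ∃ c ∈ L432, g = mk c :=
  cover_of_card (fun c hc => (L432_mem hc).1) (fun c hc => (L432_mem hc).2) L432_data.1
    (by rw [card_Hq, L432_data.2]) hg

/-! ### The normal subgroup of order nine -/

theorem L9q_in : L9q.all inHq = true := by decide +kernel
theorem L9q_data : (L9q.map keyP).Nodup ∧ L9q.length = 9 := by constructor <;> decide +kernel
theorem L9q_mul : L9q.all (fun a => L9q.all fun b => L9q.any fun c => samePerm (comp a b) c) = true := by decide +kernel
theorem L9q_one : L9q.any (fun c => samePerm c idP) = true := by decide +kernel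
theorem L9q_norm : L432.all (fun c => L9q.all fun a => L9q.any fun b => samePerm (comp c a) (comp b c)) = true := by
  decide +kernel
theorem L9q_invs : L9q.all (fun a => L9q.any fun b => samePerm (comp a b) idP) = true := by decide +kernel

theorem L9q_mem {c : ℕ} (h : c ∈ L9q) : valid c = true ∧ mk c ∈ Hq := by
  have h1 := mem_Hq_of (List.all_eq_true.mp L9q_in c h)
  exact ⟨isAut_valid h1.1, h1.2⟩

theorem idP_valid3 : valid idP = true := by decide +kernel

/-- The normal subgroup of order nine. -/
def Nq : Subgroup ↥Hq where
  carrier := {g | ∃ c ∈ L9q, g.1 = mk c}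
  mul_mem' := by
    rintro a b ⟨x, hx, hax⟩ ⟨y, hy, hby⟩
    obtain ⟨z, hz, hxyz⟩ := List.any_eq_true.mp (List.all_eq_true.mp (List.all_eq_true.mp L9q_mul x hx) y hy)
    refine ⟨z, hz, ?_⟩
    show a.1 * b.1 = mk z
    rw [hax, hby, ← mk_comp (L9q_mem hx).1 (L9q_mem hy).1,
      mk_eq_of_samePerm (valid_comp (L9q_mem hx).1 (L9q_mem hy).1) (L9q_mem hz).1 hxyz]
  one_mem' := by
    obtain ⟨z, hz, h1⟩ := List.any_eq_true.mp L9q_one
    refine ⟨z, hz, ?_⟩
    rw [mk_eq_of_samePerm (L9q_mem hz).1 idP_valid3 h1, mk_idP]
    rfl
  inv_mem' := by
    rintro a ⟨x, hx, hax⟩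
    obtain ⟨z, hz, hxz⟩ := List.any_eq_true.mp (List.all_eq_true.mp L9q_invs x hx)
    refine ⟨z, hz, ?_⟩
    have e : mk x * mk z = 1 := by
      rw [← mk_comp (L9q_mem hx).1 (L9q_mem hz).1,
        mk_eq_of_samePerm (valid_comp (L9q_mem hx).1 (L9q_mem hz).1) idP_valid3 hxz, mk_idP]
    show (a.1)⁻¹ = mk z
    rw [hax]
    exact inv_eq_of_mul_eq_one_right e

instance Nq_normal : Nq.Normal := by
  refine ⟨fun a ha g => ?_⟩
  obtain ⟨x, hx, hax⟩ := ha
  obtain ⟨c, hc, hgc⟩ := L432_cover g.2
  obtain ⟨b, hb, h1⟩ := List.any_eq_true.mp (List.all_eq_true.mp (List.all_eq_true.mp L9q_norm c hc) x hx)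
  refine ⟨b, hb, ?_⟩
  have hvc : valid c = true := (L432_mem hc).1
  have hvx := (L9q_mem hx).1
  have hvb := (L9q_mem hb).1
  have e : mk c * mk x = mk b * mk c := by
    rw [← mk_comp hvc hvx, ← mk_comp hvb hvc, mk_eq_of_samePerm (valid_comp hvc hvx) (valid_comp hvb hvc) h1]
  show g.1 * a.1 * (g.1)⁻¹ = mk b
  rw [hax, hgc, e]
  group

theorem card_Nq : Nat.card Nq = 9 := by
  have h1 : Nat.card {g : Equiv.Perm GolayPt // ∃ c ∈ L9q, g = mk c} = L9q.length :=
    card_of_list (fun c hc => (L9q_mem hc).1) L9q_data.1 (fun g => Iff.rfl)
  rw [L9q_data.2] at h1
  rw [← h1]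
  refine Nat.card_congr ⟨fun a => ⟨a.1.1, a.2⟩, fun g => ⟨⟨g.1, ?_⟩, g.2⟩, ?_, ?_⟩
  · obtain ⟨c, hc, hgc⟩ := g.2
    rw [hgc]
    exact (L9q_mem hc).2
  · intro a
    rfl
  · intro g
    rfl

/-! ### The complement -/

def Ftq (a b c d : ZMod 3) : ℕ := gqTab.getD (a.val + 3 * b.val + 9 * c.val + 27 * d.val) 0

theorem chkGq1 : ∀ a b c d : ZMod 3, a * d - b * c ≠ 0 → (inHq (Ftq a b c d) = true ∧
    (L9q.any (fun x => samePerm (Ftq a b c d) x) = true → a = 1 ∧ b = 0 ∧ c = 0 ∧ d = 1)) := by
  decide +kernel

theorem chkGq2 : ∀ a b c d e f g h : ZMod 3, a * d - b * c ≠ 0 → e * h - f * g ≠ 0 →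
    samePerm (Ftq (a * e + b * g) (a * f + b * h) (c * e + d * g) (c * f + d * h))
      (comp (Ftq a b c d) (Ftq e f g h)) = true := by
  decide +kernel

theorem glq_det (A : Matrix.GeneralLinearGroup (Fin 2) (ZMod 3)) : A.1 0 0 * A.1 1 1 - A.1 0 1 * A.1 1 0 ≠ 0 := by
  have h := (Matrix.isUnit_iff_isUnit_det _).mp A.isUnit
  rw [Matrix.det_fin_two] at h
  exact h.ne_zero

def qGq (A : Matrix.GeneralLinearGroup (Fin 2) (ZMod 3)) : ℕ := Ftq (A.1 0 0) (A.1 0 1) (A.1 1 0) (A.1 1 1)

theorem qGq_parts (A : Matrix.GeneralLinearGroup (Fin 2) (ZMod 3)) : inHq (qGq A) = true ∧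
    (L9q.any (fun x => samePerm (qGq A) x) = true → A.1 0 0 = 1 ∧ A.1 0 1 = 0 ∧ A.1 1 0 = 0 ∧ A.1 1 1 = 1) :=
  chkGq1 _ _ _ _ (glq_det A)

theorem qGq_valid (A : Matrix.GeneralLinearGroup (Fin 2) (ZMod 3)) : valid (qGq A) = true :=
  isAut_valid (mem_Hq_of (qGq_parts A).1).1

noncomputable def phiGq : Matrix.GeneralLinearGroup (Fin 2) (ZMod 3) →* ↥Hq :=
  MonoidHom.mk' (fun A => ⟨mk (qGq A), (mem_Hq_of (qGq_parts A).1).2⟩)
  (fun A B => by
    apply Subtype.ext
    show mk (qGq (A * B)) = mk (qGq A) * mk (qGq B)
    rw [← mk_comp (qGq_valid A) (qGq_valid B)]
    have h := chkGq2 _ _ _ _ _ _ _ _ (glq_det A) (glq_det B)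
    have e : qGq (A * B) = Ftq (A.1 0 0 * B.1 0 0 + A.1 0 1 * B.1 1 0) (A.1 0 0 * B.1 0 1 + A.1 0 1 * B.1 1 1)
        (A.1 1 0 * B.1 0 0 + A.1 1 1 * B.1 1 0) (A.1 1 0 * B.1 0 1 + A.1 1 1 * B.1 1 1) := by
      simp [qGq, Matrix.mul_apply, Fin.sum_univ_two]
    have hv := qGq_valid (A * B)
    rw [e] at hv ⊢
    exact mk_eq_of_samePerm hv (valid_comp (qGq_valid A) (qGq_valid B)) h)

theorem card_GL23 : Nat.card (Matrix.GeneralLinearGroup (Fin 2) (ZMod 3)) = 48 := by
  have h := Matrix.card_GL_field (n := 2) (𝔽 := ZMod 3)
  rw [ZMod.card, Fin.prod_univ_two] at h
  simpa using h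

noncomputable def phiGqQ : Matrix.GeneralLinearGroup (Fin 2) (ZMod 3) →* ↥Hq ⧸ Nq :=
  (QuotientGroup.mk' Nq).comp phiGq

theorem phiGqQ_inj : Function.Injective phiGqQ := by
  rw [injective_iff_map_eq_one]
  intro A hA
  have h1 : phiGq A ∈ Nq := (QuotientGroup.eq_one_iff _).mp hA
  obtain ⟨c, hc, hcA⟩ := h1
  have hcA' : mk (qGq A) = mk c := hcA
  have h2 : L9q.any (fun x => samePerm (qGq A) x) = true := by
    refine List.any_eq_true.mpr ⟨c, hc, ?_⟩
    have h4 := mk_inj_of_valid (qGq_valid A) (L9q_mem hc).1 hcA'
    exact List.all_eq_true.mpr fun i hi => by
      rw [h4 i (List.mem_range.mp hi)]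
      exact Nat.beq_refl _
  obtain ⟨ha, hb, hc, hd⟩ := (qGq_parts A).2 h2
  apply Units.ext
  ext i j
  fin_cases i <;> fin_cases j <;> simp [ha, hb, hc, hd]

theorem phiGqQ_bij : Function.Bijective phiGqQ := by
  apply phiGqQ_inj.bijective_of_nat_card_le
  have h := Subgroup.card_eq_card_quotient_mul_card_subgroup Nq
  rw [card_Hq, card_Nq] at h
  rw [card_GL23]
  omega

noncomputable def eGq : Matrix.GeneralLinearGroup (Fin 2) (ZMod 3) ≃* ↥Hq ⧸ Nq :=
  MulEquiv.ofBijective phiGqQ phiGqQ_bij

/-! ### Transitivity on the dodecad -/

theorem chk_Hq_trans : DK0.all (fun y => L432.any fun c => Nat.beq (pa c 0) y) = true := by decide +kernel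

theorem Hq_from_zero {y : GolayPt} (hy : y ∈ Dd0) : ∃ g ∈ Hq, g (pt 0) = y := by
  have h1 : idx y ∈ DK0 := by
    rw [DK0_eq]
    exact mem_offMask.mpr ⟨idx_lt _, mem_fs.mp hy, by simp⟩
  obtain ⟨c, hc, hcy⟩ := List.any_eq_true.mp (List.all_eq_true.mp chk_Hq_trans _ h1)
  refine ⟨mk c, (L432_mem hc).2, ?_⟩
  apply idx_inj
  rw [idx_mk (L432_mem hc).1, idx_pt (by norm_num)]
  exact Nat.eq_of_beq_eq_true hcy

/-! ### Conjugation -/

theorem mem_Hq_conj {u : Equiv.Perm GolayPt} (hu : u ∈ M24) (g : M24) :
    g ∈ (MulAction.stabilizer M24 (u • Dd0) ⊓ MulAction.stabilizer M24 (u • Q0)) ↔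
      u⁻¹ * (g : Equiv.Perm GolayPt) * u ∈ Hq := by
  simp only [Subgroup.mem_inf, MulAction.mem_stabilizer_iff]
  rw [mem_stabS]
  have hgm : u⁻¹ * (g : Equiv.Perm GolayPt) * u ∈ M24 := M24.mul_mem (M24.mul_mem (M24.inv_mem hu) g.2) hu
  have e2 : g • (u • Dd0) = u • Dd0 ↔ (u⁻¹ * (g : Equiv.Perm GolayPt) * u) • Dd0 = Dd0 := by
    change (g : Equiv.Perm GolayPt) • (u • Dd0) = u • Dd0 ↔ _
    rw [mul_smul, mul_smul, inv_smul_eq_iff]
  have e3 : g • (u • Q0) = u • Q0 ↔ (u⁻¹ * (g : Equiv.Perm GolayPt) * u) • Q0 = Q0 := by
    change (g : Equiv.Perm GolayPt) • (u • Q0) = u • Q0 ↔ _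
    rw [mul_smul, mul_smul, inv_smul_eq_iff]
  rw [e2, e3]
  constructor
  · rintro ⟨h1, h2⟩
    exact ⟨⟨hgm, h1⟩, h2⟩
  · rintro ⟨⟨-, h1⟩, h2⟩
    exact ⟨h1, h2⟩

/-- The isomorphism of a stabiliser with the base subgroup. -/
noncomputable def eHq {u : Equiv.Perm GolayPt} (hu : u ∈ M24) :
    ↥(MulAction.stabilizer M24 (u • Dd0) ⊓ MulAction.stabilizer M24 (u • Q0)) ≃* ↥Hq where
  toFun g := ⟨u⁻¹ * (g.1 : Equiv.Perm GolayPt) * u, (mem_Hq_conj hu g.1).mp g.2⟩
  invFun a := ⟨⟨u * a.1 * u⁻¹, M24.mul_mem (M24.mul_mem hu (mem_stabS.mp a.2.1).1) (M24.inv_mem hu)⟩,
    (mem_Hq_conj hu _).mpr (by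
      have e : u⁻¹ * (u * a.1 * u⁻¹) * u = a.1 := by group
      show u⁻¹ * (u * a.1 * u⁻¹) * u ∈ Hq
      rw [e]
      exact a.2)⟩
  left_inv g := by
    apply Subtype.ext
    apply Subtype.ext
    show u * (u⁻¹ * (g.1 : Equiv.Perm GolayPt) * u) * u⁻¹ = _
    group
  right_inv a := by
    apply Subtype.ext
    show u⁻¹ * (u * a.1 * u⁻¹) * u = a.1
    group
  map_mul' x y := by
    apply Subtype.ext
    show u⁻¹ * ((x.1 : Equiv.Perm GolayPt) * (y.1 : Equiv.Perm GolayPt)) * u =
      (u⁻¹ * (x.1 : Equiv.Perm GolayPt) * u) * (u⁻¹ * (y.1 : Equiv.Perm GolayPt) * u)
    group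

/-- Moving a dodecad with a quartet to the base configuration. -/
theorem exists_conj_Q0 {d : Finset GolayPt} (hd : d ∈ dodecads) {Q : Finset (Finset GolayPt)} (hQ : Q ∈ quartets d) :
    ∃ u ∈ M24, u • Dd0 = d ∧ u • Q0 = Q := by
  obtain ⟨h, hh, rfl⟩ := exists_conj_Dd0 hd
  have h1 := quartets_smul (M24.inv_mem hh) hQ
  rw [inv_smul_smul] at h1
  obtain ⟨g, hg, hgQ⟩ := base_trans Q0_mem h1
  refine ⟨h * g, M24.mul_mem hh (mem_stabS.mp hg).1, ?_, ?_⟩
  · rw [mul_smul, (mem_stabS.mp hg).2]
  · rw [mul_smul, hgQ, smul_inv_smul]

theorem result_1598 (d : Finset GolayPt) (hd : d ∈ dodecads) (Q : Finset (Finset GolayPt)) (hQ : Q ∈ quartets d) :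
    Nat.card ↥(MulAction.stabilizer M24 d ⊓ MulAction.stabilizer M24 Q) = 432 ∧
    (∃ (N : Subgroup ↥(MulAction.stabilizer M24 d ⊓ MulAction.stabilizer M24 Q)) (_ : N.Normal), Nat.card N = 9 ∧
      Nonempty (↥(MulAction.stabilizer M24 d ⊓ MulAction.stabilizer M24 Q) ⧸ N ≃* GL (Fin 2) (ZMod 3))) ∧
    ∀ p ∈ d, ∀ q ∈ d, ∃ g ∈ (MulAction.stabilizer M24 d ⊓ MulAction.stabilizer M24 Q),
      ((g : ↥M24) : Equiv.Perm GolayPt) p = q := by
  obtain ⟨u, hu, rfl, rfl⟩ := exists_conj_Q0 hd hQ
  let e := eHq hu
  refine ⟨?_, ⟨Nq.map e.symm.toMonoidHom, Subgroup.Normal.map Nq_normal _ e.symm.surjective, ?_, ?_⟩, ?_⟩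
  · rw [Nat.card_congr e.toEquiv, card_Hq]
  · rw [Subgroup.card_map_of_injective e.symm.injective, card_Nq]
  · haveI hN' : (Nq.map e.symm.toMonoidHom).Normal := Subgroup.Normal.map Nq_normal _ e.symm.surjective
    have he : (Nq.map e.symm.toMonoidHom).map e.toMonoidHom = Nq := by
      rw [Subgroup.map_map]
      have : (e.toMonoidHom.comp e.symm.toMonoidHom) = MonoidHom.id _ := by
        ext x
        simp
      rw [this, Subgroup.map_id]
    exact ⟨(QuotientGroup.congr _ _ e he).trans eGq.symm⟩
  · intro p hp q hq
    obtain ⟨p0, hp0, rfl⟩ := Finset.mem_smul_finset.mp hp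
    obtain ⟨q0, hq0, rfl⟩ := Finset.mem_smul_finset.mp hq
    obtain ⟨g1, hg1, h1⟩ := Hq_from_zero hp0
    obtain ⟨g2, hg2, h2⟩ := Hq_from_zero hq0
    have hg : g2 * g1⁻¹ ∈ Hq := Hq.mul_mem hg2 (Hq.inv_mem hg1)
    let a : ↥Hq := ⟨_, hg⟩
    refine ⟨(e.symm a).1, (e.symm a).2, ?_⟩
    show (u * (g2 * g1⁻¹) * u⁻¹) (u p0) = u q0
    have h3 : g1⁻¹ p0 = pt 0 := by rw [← h1]; simp
    have h4 : u⁻¹ (u p0) = p0 := by simp
    rw [Equiv.Perm.mul_apply, Equiv.Perm.mul_apply, Equiv.Perm.mul_apply, h4, h3, h2]

/-! ### Orbits on quartets -/

/-- The invariant distinguishing the orbits. -/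
def qInvF (Q X : Finset (Finset GolayPt)) : ℕ := ∑ t ∈ X, ∑ v ∈ Q, (t ∩ v).card ^ 4

theorem qInvF_smul (g : Equiv.Perm GolayPt) (Q X : Finset (Finset GolayPt)) :
    qInvF (g • Q) (g • X) = qInvF Q X := by
  unfold qInvF
  rw [← Finset.image_smul, Finset.sum_image (fun a _ b _ h => MulAction.injective g h)]
  refine Finset.sum_congr rfl fun t _ => ?_
  rw [← Finset.image_smul, Finset.sum_image (fun a _ b _ h => MulAction.injective g h)]
  refine Finset.sum_congr rfl fun v _ => ?_
  rw [card_smul_inter]

def qIL (l : List ℕ) : ℕ := (l.map fun a => (q0L.map fun b => pop (a &&& b) ^ 4).sum).sum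

theorem qOf_map_nodup {l : List ℕ} (hl : l ∈ QL) : (l.map fs).Nodup := by
  refine List.Nodup.map_on (fun a ha b hb e => ?_) (QL_nodup4 l hl)
  exact fs_injOn_T3 ((qlOK_of_mem hl).2.1 a ha) ((qlOK_of_mem hl).2.1 b hb) e

theorem qInvF_qOf {l : List ℕ} (hl : l ∈ QL) : qInvF Q0 (qOf l) = qIL l := by
  unfold qInvF qIL qOf
  rw [List.sum_toFinset _ (qOf_map_nodup hl), List.map_map]
  congr 1
  refine List.map_congr_left fun a ha => ?_
  simp only [Function.comp]
  show ∑ v ∈ (q0L.map fs).toFinset, (fs a ∩ v).card ^ 4 = _
  rw [List.sum_toFinset _ (qOf_map_nodup q0L_mem), List.map_map]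
  congr 1
  refine List.map_congr_left fun b hb => ?_
  simp only [Function.comp]
  rw [card_inter_fs]

/-- The class of quartets with a given value of the invariant. -/
def qCl (v : ℕ) : List (List ℕ) := QL.filter fun l => Nat.beq (qIL l) v

theorem chk_qCl : qCl 324 = [q0L] ∧ (qCl 90).length = 12 ∧ (qCl 68).length = 27 ∧ (qCl 54).length = 72 ∧
    (qCl 26).length = 108 := by
  refine ⟨?_, ?_, ?_, ?_, ?_⟩ <;> decide +kernel

theorem chk_qAll : QL.all (fun l => [324, 90, 68, 54, 26].contains (qIL l)) = true := by decide +kernel

def qWit (X : List ℕ) (v : ℕ) : Bool :=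
  (qCl v).all fun l => L432.any fun c => (X.map (img c)).all fun a => inL a l

def x90 : List ℕ := [7, 560, 33032, 132160]
def x68 : List ℕ := [11, 1344, 33296, 131108]
def x54 : List ℕ := [11, 112, 33028, 132608]
def x26 : List ℕ := [11, 800, 1044, 163904]

theorem x_data : x90 ∈ QL ∧ x68 ∈ QL ∧ x54 ∈ QL ∧ x26 ∈ QL ∧ qIL x90 = 90 ∧ qIL x68 = 68 ∧ qIL x54 = 54 ∧ qIL x26 = 26 := by
  refine ⟨?_, ?_, ?_, ?_, ?_, ?_, ?_, ?_⟩ <;> decide +kernel

theorem wit90 : qWit x90 90 = true := by decide +kernel
theorem wit68 : qWit x68 68 = true := by decide +kernel
theorem wit54 : qWit x54 54 = true := by decide +kernel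
theorem wit26 : qWit x26 26 = true := by decide +kernel

theorem orbit_base {X : List ℕ} {v : ℕ} (hX : X ∈ QL) (hv : qIL X = v) (hw : qWit X v = true) :
    MulAction.orbit ↥Hq (qOf X) = qOf '' {l | l ∈ qCl v} := by
  ext y
  constructor
  · rintro ⟨⟨g, hg⟩, rfl⟩
    have hg1 := Subgroup.mem_inf.mp hg
    have hg2 : g • Q0 = Q0 := MulAction.mem_stabilizer_iff.mp hg1.2
    have h1 : g • qOf X ∈ quartets Dd0 := by
      have := quartets_smul (mem_stabS.mp hg1.1).1 (qOf_mem hX)
      rwa [(mem_stabS.mp hg1.1).2] at this
    rw [quartets_Dd0_eq] at h1
    obtain ⟨l, hl, hle⟩ := h1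
    refine ⟨l, List.mem_filter.mpr ⟨hl, ?_⟩, hle⟩
    have h2 : qIL l = qIL X := by
      rw [← qInvF_qOf hl, ← qInvF_qOf hX, hle, ← qInvF_smul g Q0 (qOf X), hg2]
    rw [h2, hv]
    exact Nat.beq_refl v
  · rintro ⟨l, hl, rfl⟩
    have hlQ : l ∈ QL := (List.mem_filter.mp hl).1
    obtain ⟨c, hc, hcl⟩ := List.any_eq_true.mp (List.all_eq_true.mp hw l hl)
    have hvc := (L432_mem hc).1
    refine ⟨⟨mk c, (L432_mem hc).2⟩, ?_⟩
    show mk c • qOf X = qOf l
    apply Finset.eq_of_subset_of_card_le
    · rw [smul_qOf hvc]
      intro x hx
      obtain ⟨b, hb, rfl⟩ := mem_qOf.mp hx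
      exact mem_qOf.mpr ⟨_, inL_iff.mp (List.all_eq_true.mp hcl b hb), rfl⟩
    · rw [Finset.card_smul_finset, qOf_card hX, qOf_card hlQ]

theorem qCl_image_ncard (v : ℕ) : (qOf '' {l | l ∈ qCl v}).ncard = (qCl v).length := by
  have hsub : {l | l ∈ qCl v} ⊆ {l | l ∈ QL} := fun l hl => (List.mem_filter.mp hl).1
  rw [(qOf_injOn.mono hsub).ncard_image]
  have hnd : (qCl v).Nodup := List.Nodup.filter _ QL_nodup
  have : {l | l ∈ qCl v} = (((qCl v).toFinset : Finset (List ℕ)) : Set (List ℕ)) := by
    ext l; simp
  rw [this, Set.ncard_coe_finset, List.toFinset_card_of_nodup hnd]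

theorem quartets_base_split : quartets Dd0 = {Q0} ∪ qOf '' {l | l ∈ qCl 90} ∪ qOf '' {l | l ∈ qCl 68} ∪
    qOf '' {l | l ∈ qCl 54} ∪ qOf '' {l | l ∈ qCl 26} := by
  rw [quartets_Dd0_eq]
  ext y
  constructor
  · rintro ⟨l, hl, rfl⟩
    have h := List.all_eq_true.mp chk_qAll l hl
    have hcl : ∀ {v : ℕ}, qIL l = v → l ∈ qCl v := fun {v} hv =>
      List.mem_filter.mpr ⟨hl, by rw [hv]; exact Nat.beq_refl v⟩
    have h2 : qIL l = 324 ∨ qIL l = 90 ∨ qIL l = 68 ∨ qIL l = 54 ∨ qIL l = 26 := by
      simpa using h
    rcases h2 with h2 | h2 | h2 | h2 | h2
    · have : l ∈ qCl 324 := hcl h2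
      rw [chk_qCl.1] at this
      rw [List.mem_singleton.mp this]
      exact Or.inl (Or.inl (Or.inl (Or.inl rfl)))
    · exact Or.inl (Or.inl (Or.inl (Or.inr ⟨l, hcl h2, rfl⟩)))
    · exact Or.inl (Or.inl (Or.inr ⟨l, hcl h2, rfl⟩))
    · exact Or.inl (Or.inr ⟨l, hcl h2, rfl⟩)
    · exact Or.inr ⟨l, hcl h2, rfl⟩
  · rintro (((( h | ⟨l, hl, rfl⟩) | ⟨l, hl, rfl⟩) | ⟨l, hl, rfl⟩) | ⟨l, hl, rfl⟩)
    · rw [Set.mem_singleton_iff.mp h]
      exact ⟨q0L, q0L_mem, rfl⟩
    · exact ⟨l, (List.mem_filter.mp hl).1, rfl⟩
    · exact ⟨l, (List.mem_filter.mp hl).1, rfl⟩
    · exact ⟨l, (List.mem_filter.mp hl).1, rfl⟩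
    · exact ⟨l, (List.mem_filter.mp hl).1, rfl⟩

theorem quartets_image {u : Equiv.Perm GolayPt} (hu : u ∈ M24) :
    quartets (u • Dd0) = (fun Q : Finset (Finset GolayPt) => u • Q) '' quartets Dd0 := by
  ext Q
  constructor
  · intro hQ
    refine ⟨u⁻¹ • Q, ?_, smul_inv_smul u Q⟩
    have := quartets_smul (M24.inv_mem hu) hQ
    rwa [inv_smul_smul] at this
  · rintro ⟨Q0', hQ0, rfl⟩
    exact quartets_smul hu hQ0

theorem orbit_conj {u : Equiv.Perm GolayPt} (hu : u ∈ M24) (X : Finset (Finset GolayPt)) :
    MulAction.orbit ↥(MulAction.stabilizer M24 (u • Dd0) ⊓ MulAction.stabilizer M24 (u • Q0)) (u • X) =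
      (fun Y : Finset (Finset GolayPt) => u • Y) '' MulAction.orbit ↥Hq X := by
  ext y
  constructor
  · rintro ⟨g, rfl⟩
    refine ⟨eHq hu g • X, ⟨eHq hu g, rfl⟩, ?_⟩
    show u • ((u⁻¹ * (g.1 : Equiv.Perm GolayPt) * u) • X) = (g.1 : Equiv.Perm GolayPt) • (u • X)
    rw [mul_smul, mul_smul, smul_inv_smul]
  · rintro ⟨_, ⟨a, rfl⟩, rfl⟩
    refine ⟨(eHq hu).symm a, ?_⟩
    show (u * a.1 * u⁻¹) • (u • X) = u • (a.1 • X)
    rw [mul_smul, mul_smul, inv_smul_smul]

theorem result_1599 (d : Finset GolayPt) (hd : d ∈ dodecads) (Q : Finset (Finset GolayPt)) (hQ : Q ∈ quartets d) :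
    ∃ X₁ ∈ quartets d, ∃ X₂ ∈ quartets d, ∃ X₃ ∈ quartets d, ∃ X₄ ∈ quartets d,
      (MulAction.orbit ↥(MulAction.stabilizer M24 d ⊓ MulAction.stabilizer M24 Q) X₁).ncard = 12 ∧
      (MulAction.orbit ↥(MulAction.stabilizer M24 d ⊓ MulAction.stabilizer M24 Q) X₂).ncard = 27 ∧
      (MulAction.orbit ↥(MulAction.stabilizer M24 d ⊓ MulAction.stabilizer M24 Q) X₃).ncard = 72 ∧
      (MulAction.orbit ↥(MulAction.stabilizer M24 d ⊓ MulAction.stabilizer M24 Q) X₄).ncard = 108 ∧
      quartets d = {Q} ∪ MulAction.orbit ↥(MulAction.stabilizer M24 d ⊓ MulAction.stabilizer M24 Q) X₁ ∪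
        MulAction.orbit ↥(MulAction.stabilizer M24 d ⊓ MulAction.stabilizer M24 Q) X₂ ∪
        MulAction.orbit ↥(MulAction.stabilizer M24 d ⊓ MulAction.stabilizer M24 Q) X₃ ∪
        MulAction.orbit ↥(MulAction.stabilizer M24 d ⊓ MulAction.stabilizer M24 Q) X₄ := by
  obtain ⟨u, hu, rfl, rfl⟩ := exists_conj_Q0 hd hQ
  obtain ⟨h1, h2, h3, h4, h5, h6, h7, h8⟩ := x_data
  have hm : ∀ {l : List ℕ}, l ∈ QL → u • qOf l ∈ quartets (u • Dd0) := fun hl => quartets_smul hu (qOf_mem hl)
  have hinj : Function.Injective (fun Y : Finset (Finset GolayPt) => u • Y) := MulAction.injective u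
  refine ⟨_, hm h1, _, hm h2, _, hm h3, _, hm h4, ?_, ?_, ?_, ?_, ?_⟩
  · rw [orbit_conj hu, Set.ncard_image_of_injective _ hinj, orbit_base h1 h5 wit90, qCl_image_ncard, chk_qCl.2.1]
  · rw [orbit_conj hu, Set.ncard_image_of_injective _ hinj, orbit_base h2 h6 wit68, qCl_image_ncard, chk_qCl.2.2.1]
  · rw [orbit_conj hu, Set.ncard_image_of_injective _ hinj, orbit_base h3 h7 wit54, qCl_image_ncard, chk_qCl.2.2.2.1]
  · rw [orbit_conj hu, Set.ncard_image_of_injective _ hinj, orbit_base h4 h8 wit26, qCl_image_ncard, chk_qCl.2.2.2.2]
  · rw [orbit_conj hu, orbit_conj hu, orbit_conj hu, orbit_conj hu, orbit_base h1 h5 wit90, orbit_base h2 h6 wit68,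
      orbit_base h3 h7 wit54, orbit_base h4 h8 wit26, quartets_image hu, quartets_base_split]
    simp only [Set.image_union, Set.image_singleton]

end CfsgLib.Golay
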