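/-
Two stabilisers in the stabiliser of the dodecad of squares: isomorphic but not conjugate.
-/
import Cfsg.Agent.Lib.Golay.Dodecad
import Cfsg.Agent.Lib.Golay.Class
import Cfsg.Agent.S0372
import Cfsg.Prelude.Def_Spor_Mathieu

set_option autoImplicit false
set_option maxRecDepth 100000

namespace CfsgLib.Golay

open Cfsg
open scoped Pointwise

/-- The mask of the dodecad of squares. -/
def dsq : ℕ := 340831

theorem squareDodecad_eq : Spor.squareDodecad = fs dsq := by
  decide +kernel

theorem mem_SporM12 {x : Equiv.Perm GolayPt} : x ∈ Spor.M12 ↔ x ∈ M24 ∧ x • Spor.squareDodecad = Spor.squareDodecad := by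
  simp only [Spor.M12, Subgroup.mem_inf, MulAction.mem_stabilizer_iff]

theorem mem_SporM11 {x : Equiv.Perm GolayPt} :
    x ∈ Spor.M11 ↔ (x ∈ M24 ∧ x • Spor.squareDodecad = Spor.squareDodecad) ∧ x (some 0) = some 0 := by
  simp only [Spor.M11, Spor.M12, Subgroup.mem_inf, MulAction.mem_stabilizer_iff]
  exact Iff.rfl

theorem mem_T {x : Equiv.Perm GolayPt} :
    x ∈ Spor.M12 ⊓ MulAction.stabilizer (Equiv.Perm GolayPt) (none : GolayPt) ↔
      (x ∈ M24 ∧ x • Spor.squareDodecad = Spor.squareDodecad) ∧ x none = none := by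
  simp only [Spor.M12, Subgroup.mem_inf, MulAction.mem_stabilizer_iff]
  exact Iff.rfl

theorem projInv_dod : projInv • Spor.squareDodecad = Finset.univ \ Spor.squareDodecad := by
  decide +kernel

theorem projInv_zero : projInv (some 0) = none := by
  decide +kernel

theorem projInv_none : projInv none = some 0 := by
  decide +kernel

theorem smul_compl_iff {x : Equiv.Perm GolayPt} {s : Finset GolayPt} :
    x • (Finset.univ \ s) = Finset.univ \ s ↔ x • s = s := by
  rw [Finset.smul_finset_sdiff, Finset.smul_finset_univ]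
  constructor
  · intro h
    have h2 : Finset.univ \ (Finset.univ \ (x • s)) = Finset.univ \ (Finset.univ \ s) := by rw [h]
    simpa using h2
  · intro h
    rw [h]

theorem conj_projInv : MulAut.conj projInv • Spor.M11 =
    Spor.M12 ⊓ MulAction.stabilizer (Equiv.Perm GolayPt) (none : GolayPt) := by
  ext x
  rw [Subgroup.mem_pointwise_smul_iff_inv_smul_mem, mem_SporM11, mem_T]
  have hs : (MulAut.conj projInv)⁻¹ • x = projInv⁻¹ * x * projInv := by
    rw [MulAut.smul_def, MulAut.conj_inv_apply]
  rw [hs]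
  have hz : projInv⁻¹ none = some 0 := by rw [Equiv.Perm.inv_eq_iff_eq, projInv_zero]
  have hM : projInv⁻¹ * x * projInv ∈ M24 ↔ x ∈ M24 := by
    rw [Subgroup.mul_mem_cancel_right _ projInv_mem, Subgroup.mul_mem_cancel_left _ (inv_mem projInv_mem)]
  have hS : (projInv⁻¹ * x * projInv) • Spor.squareDodecad = Spor.squareDodecad ↔
      x • Spor.squareDodecad = Spor.squareDodecad := by
    rw [mul_smul, mul_smul, projInv_dod, inv_smul_eq_iff, projInv_dod, smul_compl_iff]
  have hP : (projInv⁻¹ * x * projInv) (some 0) = some 0 ↔ x none = none := by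
    simp only [Equiv.Perm.mul_apply, projInv_zero]
    rw [Equiv.Perm.inv_eq_iff_eq, projInv_zero]
  rw [hM, hS, hP]

/-- An explicit element of the second group, without fixed points on the dodecad. -/
def t12 : ℕ := 975066191117879521243864151533594032

theorem t12_chk : isAut t12 = true ∧ img t12 dsq = dsq ∧ pa t12 23 = 23 ∧
    ((List.range 24).all fun i => !Nat.testBit dsq i || !Nat.beq (pa t12 i) i) = true := by
  refine ⟨?_, ?_, ?_, ?_⟩ <;> decide +kernel

theorem S12_result : Nonempty (↥(Spor.M12 ⊓ MulAction.stabilizer (Equiv.Perm GolayPt) (none : GolayPt)) ≃* ↥Spor.M11) ∧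
    (¬ ∃ k ∈ Spor.M12, MulAut.conj k • Spor.M11 = Spor.M12 ⊓ MulAction.stabilizer (Equiv.Perm GolayPt) (none : GolayPt)) ∧
    ∃ g ∈ M24, g • Spor.squareDodecad = Finset.univ \ Spor.squareDodecad ∧
      MulAut.conj g • Spor.M11 = Spor.M12 ⊓ MulAction.stabilizer (Equiv.Perm GolayPt) (none : GolayPt) := by
  refine ⟨?_, ?_, projInv, projInv_mem, projInv_dod, conj_projInv⟩
  · rw [← conj_projInv]
    exact ⟨(Subgroup.equivSMul (MulAut.conj projInv) Spor.M11).symm⟩
  · rintro ⟨k, hk, he⟩
    obtain ⟨h1, h2, h3, h4⟩ := t12_chk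
    have hv := isAut_valid h1
    have hm : mk t12 ∈ Spor.M12 ⊓ MulAction.stabilizer (Equiv.Perm GolayPt) (none : GolayPt) := by
      rw [mem_T]
      refine ⟨⟨mk_mem_M24 h1, ?_⟩, ?_⟩
      · rw [squareDodecad_eq, ← fs_img hv, h2]
      · apply idx_inj
        rw [idx_mk hv]
        exact h3
    rw [← he, Subgroup.mem_pointwise_smul_iff_inv_smul_mem, MulAut.smul_def, MulAut.conj_inv_apply, mem_SporM11] at hm
    have hfix := hm.2
    simp only [Equiv.Perm.mul_apply] at hfix
    rw [Equiv.Perm.inv_eq_iff_eq] at hfix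
    obtain ⟨hk1, hk2⟩ := mem_SporM12.mp hk
    have hy : k (some 0) ∈ Spor.squareDodecad := by
      rw [← hk2]
      exact Finset.mem_smul_finset.mpr ⟨some 0, by decide +kernel, rfl⟩
    rw [squareDodecad_eq] at hy
    have h5 := List.all_eq_true.mp h4 (idx (k (some 0))) (List.mem_range.mpr (idx_lt _))
    simp only [Bool.or_eq_true, Bool.not_eq_true'] at h5
    rcases h5 with h5 | h5
    · rw [mem_fs.mp hy] at h5
      simp at h5
    · have h6 : pa t12 (idx (k (some 0))) = idx (k (some 0)) := by
        rw [← idx_mk hv, hfix]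
      rw [h6] at h5
      simp at h5

end CfsgLib.Golay
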