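/-
Simplicity of the stabilisers in `M24`: the two base cases and induction up the chains.
-/
import Cfsg.Agent.Lib.Golay.SimpleData
import Cfsg.Agent.Lib.Simple.Basic
import Cfsg.Agent.Lib.Golay.Trans

set_option autoImplicit false

namespace CfsgLib.Golay

open Cfsg
open scoped Pointwise

/-- Powers of a packed permutation. -/
def powP (a : ℕ) : ℕ → ℕ
  | 0 => idP
  | n + 1 => comp a (powP a n)

theorem valid_powP {a : ℕ} (ha : valid a = true) (n : ℕ) : valid (powP a n) = true := by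
  induction n with
  | zero => exact valid_idP
  | succ n ih => exact valid_comp ha ih

theorem mk_powP {a : ℕ} (ha : valid a = true) (n : ℕ) :
    CfsgLib.Golay.mk (powP a n) = (CfsgLib.Golay.mk a) ^ n := by
  induction n with
  | zero => exact mk_idP
  | succ n ih => rw [powP, mk_comp ha (valid_powP ha n), ih, pow_succ']

/-- A certificate for a factorisation into tenth powers. -/
def certOK (inK : ℕ → Bool) (c : ℕ) (g : ℕ × ℕ) : Bool :=
  valid c && inK g.1 && inK g.2 && samePerm c (comp (powP g.1 10) (powP g.2 10))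

/-- Certificates for a list. -/
def certAll (inK : ℕ → Bool) : List ℕ → List (ℕ × ℕ) → Bool
  | [], _ => true
  | _ :: _, [] => false
  | c :: cs, g :: gs => certOK inK c g && certAll inK cs gs

theorem cert_sound {K : Subgroup (Equiv.Perm GolayPt)} {N : Subgroup K} {inK : ℕ → Bool}
    (hK : ∀ g, inK g = true → valid g = true ∧ CfsgLib.Golay.mk g ∈ K) (hN : ∀ g : K, g ^ 10 ∈ N) :
    ∀ (ts : List ℕ) (gs : List (ℕ × ℕ)), certAll inK ts gs = true → ∀ c ∈ ts,
      ∃ h : CfsgLib.Golay.mk c ∈ K, (⟨CfsgLib.Golay.mk c, h⟩ : K) ∈ N := by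
  intro ts
  induction ts with
  | nil => intro gs _ c hc; simp at hc
  | cons c0 cs ih =>
    intro gs h c hc
    cases gs with
    | nil => simp [certAll] at h
    | cons g gs =>
      simp only [certAll, Bool.and_eq_true] at h
      rcases List.mem_cons.mp hc with rfl | hc
      · obtain ⟨h1, -⟩ := h
        simp only [certOK, Bool.and_eq_true] at h1
        obtain ⟨⟨⟨hv, h1⟩, h2⟩, h3⟩ := h1
        obtain ⟨v1, m1⟩ := hK _ h1
        obtain ⟨v2, m2⟩ := hK _ h2
        have h4 := mk_eq_of_samePerm hv (valid_comp (valid_powP v1 10) (valid_powP v2 10)) h3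
        rw [mk_comp (valid_powP v1 10) (valid_powP v2 10), mk_powP v1, mk_powP v2] at h4
        have hm : CfsgLib.Golay.mk c ∈ K := by
          rw [h4]
          exact K.mul_mem (K.pow_mem m1 10) (K.pow_mem m2 10)
        refine ⟨hm, ?_⟩
        have h5 : (⟨CfsgLib.Golay.mk c, hm⟩ : K) =
            (⟨CfsgLib.Golay.mk g.1, m1⟩ : K) ^ 10 * (⟨CfsgLib.Golay.mk g.2, m2⟩ : K) ^ 10 := by
          apply Subtype.ext
          simp only [Subgroup.coe_mul, Subgroup.coe_pow]
          exact h4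
        rw [h5]
        exact N.mul_mem (hN _) (hN _)
      · exact ih gs h.2 c hc

/-- Membership in the first base group. -/
def inK22 (g : ℕ) : Bool := isAut g && Nat.beq (pa g 0) 0 && Nat.beq (pa g 1) 1

theorem inK22_sound {g : ℕ} (h : inK22 g = true) :
    valid g = true ∧ CfsgLib.Golay.mk g ∈ fixIn M24 [1, 0] := by
  simp only [inK22, Bool.and_eq_true] at h
  obtain ⟨⟨h1, h2⟩, h3⟩ := h
  have hv := isAut_valid h1
  refine ⟨hv, mem_fixIn.mpr ⟨mk_mem_M24 h1, fun q hq => ?_⟩⟩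
  apply idx_inj
  rw [idx_mk hv]
  simp only [List.mem_cons, List.not_mem_nil, or_false] at hq
  rcases hq with hq | hq
  · rw [hq]; exact Nat.eq_of_beq_eq_true h3
  · rw [hq]; exact Nat.eq_of_beq_eq_true h2

/-- Membership in the second base group. -/
def inK11 (g : ℕ) : Bool := isAut g && Nat.beq (img g dod0) dod0 && Nat.beq (pa g 0) 0

theorem inK11_sound {g : ℕ} (h : inK11 g = true) :
    valid g = true ∧ CfsgLib.Golay.mk g ∈ fixIn (stabS Dd0) [0] := by
  simp only [inK11, Bool.and_eq_true] at h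
  obtain ⟨⟨h1, h2⟩, h3⟩ := h
  have hv := isAut_valid h1
  refine ⟨hv, mem_fixIn.mpr ⟨mem_stabS.mpr ⟨mk_mem_M24 h1, ?_⟩, fun q hq => ?_⟩⟩
  · rw [Dd0, ← fs_img hv, Nat.eq_of_beq_eq_true h2]
  · apply idx_inj
    rw [idx_mk hv]
    simp only [List.mem_cons, List.not_mem_nil, or_false] at hq
    rw [hq]
    exact Nat.eq_of_beq_eq_true h3

theorem cert22_ok : certAll inK22 (T2 ++ T3 ++ T4 ++ E48lit) cert22 = true := by decide +kernel

theorem cert11_ok : certAll inK11 (TK1 ++ TK2 ++ TK3 ++ TK4) cert11 = true := by decide +kernel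

/-- Factorisation in the first base group. -/
theorem factor22 {g : Equiv.Perm GolayPt} (hg : g ∈ fixIn M24 [1, 0]) :
    ∃ a ∈ T2, ∃ b ∈ T3, ∃ c ∈ T4, ∃ e ∈ E48lit, g = CfsgLib.Golay.mk a * CfsgLib.Golay.mk b *
      CfsgLib.Golay.mk c * CfsgLib.Golay.mk e := by
  obtain ⟨a, ha, -, h1⟩ := level2.factor (by norm_num)
    (fun g hg => by rw [D2_eq]; exact mem_offList_of_fix (by norm_num) (by simp) hg) hg
  obtain ⟨b, hb, -, h2⟩ := level3.factor (by norm_num)
    (fun g hg => by rw [D3_eq]; exact mem_offList_of_fix (by norm_num) (by simp) hg) h1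
  obtain ⟨c, hc, -, h3⟩ := level4.factor (by norm_num)
    (fun g hg => by rw [D4_eq]; exact mem_offList_of_fix (by norm_num) (by simp) hg) h2
  obtain ⟨e, he, h4⟩ := mem_E48_of_fix h3
  refine ⟨a, ha, b, hb, c, hc, e, by rw [E48lit_eq]; exact he, ?_⟩
  rw [← h4]
  group

/-- Factorisation in the second base group. -/
theorem factor11 {g : Equiv.Perm GolayPt} (hg : g ∈ fixIn (stabS Dd0) [0]) :
    ∃ a ∈ TK1, ∃ b ∈ TK2, ∃ c ∈ TK3, ∃ e ∈ TK4, g = CfsgLib.Golay.mk a * CfsgLib.Golay.mk b *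
      CfsgLib.Golay.mk c * CfsgLib.Golay.mk e := by
  have hg' : g ∈ fixIn (fixIn (stabS Dd0) []) [0] := by rw [fixIn_nil]; exact hg
  obtain ⟨a, ha, -, h1⟩ := lvK1.factor (by norm_num)
    (fun g hg => by rw [DK1_eq]; exact mem_offMask_of_fix (by norm_num) (by simp) (by decide +kernel) hg) hg'
  obtain ⟨b, hb, -, h2⟩ := lvK2.factor (by norm_num)
    (fun g hg => by rw [DK2_eq]; exact mem_offMask_of_fix (by norm_num) (by simp) (by decide +kernel) hg) h1
  obtain ⟨c, hc, -, h3⟩ := lvK3.factor (by norm_num)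
    (fun g hg => by rw [DK3_eq]; exact mem_offMask_of_fix (by norm_num) (by simp) (by decide +kernel) hg) h2
  obtain ⟨e, he, -, h4⟩ := lvK4.factor (by norm_num)
    (fun g hg => by rw [DK4_eq]; exact mem_offMask_of_fix (by norm_num) (by simp) (by decide +kernel) hg) h3
  rw [fixIn_nil, fixIn_Dd0_bot] at h4
  refine ⟨a, ha, b, hb, c, hc, e, he, ?_⟩
  have h5 := Subgroup.mem_bot.mp h4
  have h6 : (CfsgLib.Golay.mk a)⁻¹ * g = CfsgLib.Golay.mk b * (CfsgLib.Golay.mk c * CfsgLib.Golay.mk e) := by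
    rw [inv_mul_eq_iff_eq_mul] at h5
    rw [mul_one] at h5
    rw [inv_mul_eq_iff_eq_mul] at h5
    rw [inv_mul_eq_iff_eq_mul] at h5
    exact h5
  rw [inv_mul_eq_iff_eq_mul] at h6
  rw [h6]
  group

/-- The normal-form lists for centralisers. -/
def ys22 : List (List ℕ) := (List.range' 2 22).map fun y => [0, 1, y, pa s22 y, pa s22 (pa s22 y)]

def ys11 : List (List ℕ) :=
  DK1.map fun y => [0, y, pa s11 y, pa s11 (pa s11 y), pa s11 (pa s11 (pa s11 y))]

theorem s22_chk : isAut s22 = true ∧ pa s22 0 = 0 ∧ pa s22 1 = 1 ∧ pa s22 2 = 3 ∧ pa s22 3 = 4 ∧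
    samePerm idP (powP s22 11) = true ∧ ys22.all repOK = true := by decide +kernel

theorem s11_chk : isAut s11 = true ∧ inK11 s11 = true ∧ pa s11 1 = 2 ∧ pa s11 2 = 3 ∧ pa s11 3 = 4 ∧
    samePerm idP (powP s11 11) = true ∧ ys11.all repOK = true := by decide +kernel

theorem cent22_chk : (twFilter s22 s22 ys22).all (fun x => valid x &&
    (List.range 11).any fun k => samePerm x (powP s22 k)) = true := by decide +kernel

theorem cent11_chk : (twFilter s11 s11 ys11).all (fun x => valid x &&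
    (List.range 11).any fun k => samePerm x (powP s11 k)) = true := by decide +kernel

theorem s22_ne : CfsgLib.Golay.mk s22 ≠ 1 := mk_ne_one (isAut_valid s22_chk.1) (by decide +kernel)

theorem s11_ne : CfsgLib.Golay.mk s11 ≠ 1 := mk_ne_one (isAut_valid s11_chk.1) (by decide +kernel)

/-- A fact used for the order. -/
instance fact_p11 : Fact (Nat.Prime 11) := ⟨by norm_num⟩

theorem pt_ne {i j : ℕ} (hi : i < 24) (hj : j < 24) (h : i ≠ j) : pt i ≠ pt j := by
  intro he
  have := congrArg idx he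
  rw [idx_pt hi, idx_pt hj] at this
  exact h this

theorem card_fix10 : Nat.card ↥(fixIn M24 [1, 0]) = 443520 := by
  have h0 := card_level level0 (by norm_num) (by decide +kernel)
    (fun g hg => by rw [D0_eq]; exact mem_offList_of_fix (by norm_num) (by simp) hg)
  have h1 := card_level level1 (by norm_num) (by decide +kernel)
    (fun g hg => by rw [D1_eq]; exact mem_offList_of_fix (by norm_num) (by simp) hg)
  rw [fixIn_nil, card_M24] at h0
  rw [h1] at h0
  have hl0 : D0.length = 24 := by decide +kernel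
  have hl1 : D1.length = 23 := by decide +kernel
  rw [hl0, hl1] at h0
  omega

theorem card_fixK0 : Nat.card ↥(fixIn (stabS Dd0) [0]) = 7920 := by
  have h1 := fixIn_cons (stabS Dd0) [] (b := 0) (by norm_num)
  rw [fixIn_nil] at h1
  rw [h1]
  exact card_stab_dod_pt Dd0_mem ((mem_fs_pt (by norm_num)).mpr (by decide +kernel))

theorem ncard_off2 : ({q : GolayPt | q ≠ pt 0 ∧ q ≠ pt 1} : Set GolayPt).ncard = 22 := by
  have h : ({q : GolayPt | q ≠ pt 0 ∧ q ≠ pt 1} : Set GolayPt) =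
      (↑((Finset.univ.erase (pt 0)).erase (pt 1)) : Set GolayPt) := by
    ext q
    simp
  rw [h, Set.ncard_coe_finset, Finset.card_erase_of_mem, Finset.card_erase_of_mem (Finset.mem_univ _),
    Finset.card_univ]
  · decide +kernel
  · simp [pt_ne (i := 1) (j := 0) (by norm_num) (by norm_num) (by norm_num)]

theorem ncard_Dd0_off : ({q : GolayPt | q ∈ Dd0 ∧ q ≠ pt 0} : Set GolayPt).ncard = 11 := by
  have h : ({q : GolayPt | q ∈ Dd0 ∧ q ≠ pt 0} : Set GolayPt) = (↑(Dd0.erase (pt 0)) : Set GolayPt) := by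
    ext q
    simp
  rw [h, Set.ncard_coe_finset, Finset.card_erase_of_mem ((mem_fs_pt (by norm_num)).mpr (by decide +kernel)),
    Dd0_mem.2]

theorem ncard_off1 : ({q : GolayPt | q ≠ pt 0} : Set GolayPt).ncard = 23 := by
  have h : ({q : GolayPt | q ≠ pt 0} : Set GolayPt) = (↑(Finset.univ.erase (pt 0)) : Set GolayPt) := by
    ext q
    simp
  rw [h, Set.ncard_coe_finset, Finset.card_erase_of_mem (Finset.mem_univ _), Finset.card_univ]
  decide +kernel

theorem ncard_univ_pts : (Set.univ : Set GolayPt).ncard = 24 := by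
  rw [Set.ncard_univ, Nat.card_eq_fintype_card]
  decide +kernel

/-- An element of `M24` fixing a dodecad pointwise is trivial. -/
theorem fix_le_eight_or_one {g : Equiv.Perm GolayPt} (hm : g ∈ M24) (hfix : ∀ x ∈ Dd0, g x = x) : g = 1 := by
  by_contra hne
  have h1 := fix_le_eight hm hne
  have h2 : Dd0 ⊆ Finset.univ.filter fun p => g p = p := fun x hx => by
    simp [hfix x hx]
  have h3 := Finset.card_le_card h2
  rw [Dd0_mem.2] at h3
  omega

/-- Images of tuples in the base dodecad. -/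
theorem Dd0_map_list (xs ys : List GolayPt) (hlen : xs.length = ys.length) (h5 : xs.length ≤ 5)
    (hx : xs.Nodup) (hy : ys.Nodup) (hxD : ∀ a ∈ xs, a ∈ Dd0) (hyD : ∀ a ∈ ys, a ∈ Dd0) :
    ∃ g ∈ stabS Dd0, xs.map (fun a => g a) = ys := by
  have hkd : ∀ g ∈ stabS Dd0, g • Dd0 = Dd0 := fun g hg => stabS_inv hg
  have hch : ∀ n ≤ 5, ChainLv (stabS Dd0) Dd0 [] (List.range n) := by
    have h0 := chain_Dd0
    obtain ⟨a0, a1, a2, a3, h1⟩ := h0
    obtain ⟨b0, b1, b2, b3, h2⟩ := h1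
    obtain ⟨c0, c1, c2, c3, h3⟩ := h2
    obtain ⟨d0, d1, d2, d3, h4⟩ := h3
    obtain ⟨e0, e1, e2, e3, -⟩ := h4
    intro n hn
    interval_cases n
    · trivial
    · exact ⟨a0, a1, a2, a3, trivial⟩
    · exact ⟨a0, a1, a2, a3, b0, b1, b2, b3, trivial⟩
    · exact ⟨a0, a1, a2, a3, b0, b1, b2, b3, c0, c1, c2, c3, trivial⟩
    · exact ⟨a0, a1, a2, a3, b0, b1, b2, b3, c0, c1, c2, c3, d0, d1, d2, d3, trivial⟩
    · exact ⟨a0, a1, a2, a3, b0, b1, b2, b3, c0, c1, c2, c3, d0, d1, d2, d3, e0, e1, e2, e3, trivial⟩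
  have key : ∀ zs : List GolayPt, zs.length ≤ 5 → zs.Nodup → (∀ a ∈ zs, a ∈ Dd0) →
      ∃ g ∈ stabS Dd0, (List.range zs.length).map (fun b => g (pt b)) = zs := by
    intro zs hz hn hd
    obtain ⟨g, hg, hgm⟩ := chain_tuple hkd (List.range zs.length) [] (hch _ hz) zs (by simp) hn hd (by simp)
    exact ⟨g, (mem_fixIn.mp hg).1, hgm⟩
  obtain ⟨g1, hg1, h1⟩ := key xs h5 hx hxD
  obtain ⟨g2, hg2, h2⟩ := key ys (by omega) hy hyD
  refine ⟨g2 * g1⁻¹, (stabS Dd0).mul_mem hg2 ((stabS Dd0).inv_mem hg1), ?_⟩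
  conv_lhs => rw [← h1]
  conv_rhs => rw [← h2, ← hlen]
  rw [List.map_map]
  apply List.map_congr_left
  intro a _
  simp

/-- Simplicity of the stabiliser of two points. -/
theorem simple_fix10 : IsSimpleGroup ↥(fixIn M24 [1, 0]) := by
  have hsv := isAut_valid s22_chk.1
  have hsK : CfsgLib.Golay.mk s22 ∈ fixIn M24 [1, 0] :=
    (inK22_sound (by
      simp only [inK22, Bool.and_eq_true]
      exact ⟨⟨s22_chk.1, by rw [s22_chk.2.1]; rfl⟩, by rw [s22_chk.2.2.1]; rfl⟩)).2
  have hpow : (CfsgLib.Golay.mk s22) ^ 11 = 1 := by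
    have h1 := mk_eq_of_samePerm valid_idP (valid_powP hsv 11) s22_chk.2.2.2.2.2.1
    rw [mk_powP hsv, mk_idP] at h1
    exact h1.symm
  have h0 : ∀ {g : Equiv.Perm GolayPt}, g ∈ fixIn M24 [1, 0] → g (pt 0) = pt 0 := fun hg =>
    (mem_fixIn.mp hg).2 _ (by rw [idx_pt (by norm_num)]; simp)
  have h1 : ∀ {g : Equiv.Perm GolayPt}, g ∈ fixIn M24 [1, 0] → g (pt 1) = pt 1 := fun hg =>
    (mem_fixIn.mp hg).2 _ (by rw [idx_pt (by norm_num)]; simp)
  have hne01 : pt 0 ≠ pt 1 := pt_ne (by norm_num) (by norm_num) (by norm_num)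
  refine Simple.simple_of_frattini (S := {q : GolayPt | q ≠ pt 0 ∧ q ≠ pt 1}) (x0 := pt 2) (p := 11)
    ⟨pt_ne (by norm_num) (by norm_num) (by norm_num), pt_ne (by norm_num) (by norm_num) (by norm_num)⟩
    ?_ ?_ ?_ ?_ ⟨CfsgLib.Golay.mk s22, hsK⟩ ?_ ?_ ?_ ?_
  · intro g hg hS
    ext1 q
    by_cases hq : q = pt 0
    · rw [hq, h0 hg]; rfl
    by_cases hq1 : q = pt 1
    · rw [hq1, h1 hg]; rfl
    exact hS q ⟨hq, hq1⟩
  · rintro g hg x ⟨hx0, hx1⟩
    constructor
    · intro h
      rw [← h0 hg] at h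
      exact hx0 (g.injective h)
    · intro h
      rw [← h1 hg] at h
      exact hx1 (g.injective h)
  · rintro a b y z ⟨ha0, ha1⟩ ⟨hb0, hb1⟩ ⟨hy0, hy1⟩ ⟨hz0, hz1⟩ hab hyz
    obtain ⟨g, hg, hm⟩ := M24_map_list [pt 0, pt 1, a, b] [pt 0, pt 1, y, z] rfl (by simp)
      (by simp only [List.nodup_cons, List.mem_cons, List.not_mem_nil, or_false, not_or, not_false_eq_true,
            List.nodup_nil, and_true]; exact ⟨⟨hne01, Ne.symm ha0, Ne.symm hb0⟩, ⟨Ne.symm ha1, Ne.symm hb1⟩, hab⟩)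
      (by simp only [List.nodup_cons, List.mem_cons, List.not_mem_nil, or_false, not_or, not_false_eq_true,
            List.nodup_nil, and_true]; exact ⟨⟨hne01, Ne.symm hy0, Ne.symm hz0⟩, ⟨Ne.symm hy1, Ne.symm hz1⟩, hyz⟩)
    simp only [List.map_cons, List.map_nil, List.cons.injEq, and_true] at hm
    obtain ⟨e0, e1, e2, e3⟩ := hm
    refine ⟨g, mem_fixIn.mpr ⟨hg, fun q hq => ?_⟩, e2, e3⟩
    simp only [List.mem_cons, List.not_mem_nil, or_false] at hq
    rcases hq with hq | hq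
    · rw [← pt_idx q, hq]; exact e1
    · rw [← pt_idx q, hq]; exact e0
  · rw [ncard_off2]; norm_num
  · rw [orderOf_eq_prime_iff]
    exact ⟨Subtype.ext hpow, fun h => s22_ne (congrArg Subtype.val h)⟩
  · rw [card_fix10]; norm_num
  · intro g hcomm
    have hc : (g : Equiv.Perm GolayPt) * CfsgLib.Golay.mk s22 = CfsgLib.Golay.mk s22 * (g : Equiv.Perm GolayPt) :=
      congrArg Subtype.val hcomm.eq
    have hcp : ∀ p, (g : Equiv.Perm GolayPt) (CfsgLib.Golay.mk s22 p) = CfsgLib.Golay.mk s22 ((g : Equiv.Perm GolayPt) p) := fun p => by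
      rw [← Equiv.Perm.mul_apply, hc, Equiv.Perm.mul_apply]
    set y := idx ((g : Equiv.Perm GolayPt) (pt 2)) with hy
    have hs2 : CfsgLib.Golay.mk s22 (pt 2) = pt 3 := by
      rw [mk_pt hsv (by norm_num), s22_chk.2.2.2.1]
    have hs3 : CfsgLib.Golay.mk s22 (pt 3) = pt 4 := by
      rw [mk_pt hsv (by norm_num), s22_chk.2.2.2.2.1]
    have h3 : idx ((g : Equiv.Perm GolayPt) (pt 3)) = pa s22 y := by
      rw [← hs2, hcp, idx_mk hsv]
    have h4 : idx ((g : Equiv.Perm GolayPt) (pt 4)) = pa s22 (pa s22 y) := by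
      rw [← hs3, hcp, idx_mk hsv, h3]
    have hm : [0, 1, y, pa s22 y, pa s22 (pa s22 y)] ∈ ys22 := by
      refine List.mem_map.mpr ⟨y, List.mem_range'.mpr ⟨y - 2, ?_, ?_⟩, rfl⟩
      · have := idx_lt ((g : Equiv.Perm GolayPt) (pt 2))
        have h5 := moved_of_fix (K := M24) (F := [1, 0]) (b := 2) (by norm_num) (by simp) g.2
        simp only [List.mem_cons, List.not_mem_nil, or_false, not_or] at h5
        omega
      · have h5 := moved_of_fix (K := M24) (F := [1, 0]) (b := 2) (by norm_num) (by simp) g.2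
        simp only [List.mem_cons, List.not_mem_nil, or_false, not_or] at h5
        omega
    obtain ⟨x, hx, hgx⟩ := mem_twFilter s22_chk.2.2.2.2.2.2 hsv hsv (mem_fixIn.mp g.2).1 hc hm
      (by rw [h0 g.2, idx_pt (by norm_num)]) (by rw [h1 g.2, idx_pt (by norm_num)]) rfl h3 h4
    have hall := List.all_eq_true.mp cent22_chk x hx
    simp only [Bool.and_eq_true, List.any_eq_true] at hall
    obtain ⟨hvx, k, -, hk⟩ := hall
    have h5 := mk_eq_of_samePerm hvx (valid_powP hsv k) hk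
    rw [mk_powP hsv] at h5
    rw [Subgroup.mem_zpowers_iff]
    refine ⟨(k : ℤ), ?_⟩
    rw [zpow_natCast]
    apply Subtype.ext
    simp only [Subgroup.coe_pow]
    rw [hgx, h5]
  · intro N _ hN
    have hall := cert_sound (K := fixIn M24 [1, 0]) (N := N) (inK := inK22) (fun g h => inK22_sound h) hN _ _ cert22_ok
    rw [eq_top_iff]
    intro g _
    obtain ⟨a, ha, b, hb, c, hc, e, he, hf⟩ := factor22 g.2
    obtain ⟨ma, ia⟩ := hall a (by simp [ha])
    obtain ⟨mb, ib⟩ := hall b (by simp [hb])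
    obtain ⟨mc, ic⟩ := hall c (by simp [hc])
    obtain ⟨me, ie⟩ := hall e (by simp [he])
    have h5 : g = ⟨_, ma⟩ * ⟨_, mb⟩ * ⟨_, mc⟩ * ⟨_, me⟩ := Subtype.ext hf
    rw [h5]
    exact N.mul_mem (N.mul_mem (N.mul_mem ia ib) ic) ie

/-- Simplicity of the stabiliser of the base dodecad and a point on it. -/
theorem simple_fixK0 : IsSimpleGroup ↥(fixIn (stabS Dd0) [0]) := by
  have hsv := isAut_valid s11_chk.1
  have hsK : CfsgLib.Golay.mk s11 ∈ fixIn (stabS Dd0) [0] := (inK11_sound s11_chk.2.1).2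
  have hpow : (CfsgLib.Golay.mk s11) ^ 11 = 1 := by
    have h1 := mk_eq_of_samePerm valid_idP (valid_powP hsv 11) s11_chk.2.2.2.2.2.1
    rw [mk_powP hsv, mk_idP] at h1
    exact h1.symm
  have h0 : ∀ {g : Equiv.Perm GolayPt}, g ∈ fixIn (stabS Dd0) [0] → g (pt 0) = pt 0 := fun hg =>
    (mem_fixIn.mp hg).2 _ (by rw [idx_pt (by norm_num)]; simp)
  have hD : ∀ {g : Equiv.Perm GolayPt}, g ∈ fixIn (stabS Dd0) [0] → g • Dd0 = Dd0 := fun hg =>
    (mem_stabS.mp (mem_fixIn.mp hg).1).2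
  have hp0 : pt 0 ∈ Dd0 := (mem_fs_pt (by norm_num)).mpr (by decide +kernel)
  have hp1 : pt 1 ∈ Dd0 := (mem_fs_pt (by norm_num)).mpr (by decide +kernel)
  refine Simple.simple_of_frattini (S := {q : GolayPt | q ∈ Dd0 ∧ q ≠ pt 0}) (x0 := pt 1) (p := 11)
    ⟨hp1, pt_ne (by norm_num) (by norm_num) (by norm_num)⟩
    ?_ ?_ ?_ ?_ ⟨CfsgLib.Golay.mk s11, hsK⟩ ?_ ?_ ?_ ?_
  · intro g hg hS
    have hm : g ∈ M24 := (mem_stabS.mp (mem_fixIn.mp hg).1).1
    have hD' := hD hg
    -- an element fixing a dodecad pointwise is trivial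
    have hfixd : ∀ x ∈ Dd0, g x = x := by
      intro x hx
      by_cases hx0 : x = pt 0
      · rw [hx0, h0 hg]
      · exact hS x ⟨hx, hx0⟩
    have h5 := fix_le_eight_or_one hm hfixd
    exact h5
  · rintro g hg x ⟨hx, hx0⟩
    constructor
    · exact (mem_of_smul_eq (hD hg) x).mpr hx
    · intro h
      rw [← h0 hg] at h
      exact hx0 (g.injective h)
  · rintro a b y z ⟨ha, ha0⟩ ⟨hb, hb0⟩ ⟨hy, hy0⟩ ⟨hz, hz0⟩ hab hyz
    obtain ⟨g, hg, hm⟩ := Dd0_map_list [pt 0, a, b] [pt 0, y, z] rfl (by simp)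
      (by simp only [List.nodup_cons, List.mem_cons, List.not_mem_nil, or_false, not_or, not_false_eq_true,
            List.nodup_nil, and_true]; exact ⟨⟨Ne.symm ha0, Ne.symm hb0⟩, hab⟩)
      (by simp only [List.nodup_cons, List.mem_cons, List.not_mem_nil, or_false, not_or, not_false_eq_true,
            List.nodup_nil, and_true]; exact ⟨⟨Ne.symm hy0, Ne.symm hz0⟩, hyz⟩)
      (by
        intro c hc
        simp only [List.mem_cons, List.not_mem_nil, or_false] at hc
        rcases hc with rfl | rfl | rfl <;> assumption)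
      (by
        intro c hc
        simp only [List.mem_cons, List.not_mem_nil, or_false] at hc
        rcases hc with rfl | rfl | rfl <;> assumption)
    simp only [List.map_cons, List.map_nil, List.cons.injEq, and_true] at hm
    obtain ⟨e0, e1, e2⟩ := hm
    refine ⟨g, mem_fixIn.mpr ⟨hg, fun q hq => ?_⟩, e1, e2⟩
    simp only [List.mem_cons, List.not_mem_nil, or_false] at hq
    rw [← pt_idx q, hq]; exact e0
  · rw [ncard_Dd0_off]
  · rw [orderOf_eq_prime_iff]
    exact ⟨Subtype.ext hpow, fun h => s11_ne (congrArg Subtype.val h)⟩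
  · rw [card_fixK0]; norm_num
  · intro g hcomm
    have hc : (g : Equiv.Perm GolayPt) * CfsgLib.Golay.mk s11 = CfsgLib.Golay.mk s11 * (g : Equiv.Perm GolayPt) :=
      congrArg Subtype.val hcomm.eq
    have hcp : ∀ p, (g : Equiv.Perm GolayPt) (CfsgLib.Golay.mk s11 p) = CfsgLib.Golay.mk s11 ((g : Equiv.Perm GolayPt) p) := fun p => by
      rw [← Equiv.Perm.mul_apply, hc, Equiv.Perm.mul_apply]
    set y := idx ((g : Equiv.Perm GolayPt) (pt 1)) with hy
    have hs1 : CfsgLib.Golay.mk s11 (pt 1) = pt 2 := by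
      rw [mk_pt hsv (by norm_num), s11_chk.2.2.1]
    have hs2 : CfsgLib.Golay.mk s11 (pt 2) = pt 3 := by
      rw [mk_pt hsv (by norm_num), s11_chk.2.2.2.1]
    have hs3 : CfsgLib.Golay.mk s11 (pt 3) = pt 4 := by
      rw [mk_pt hsv (by norm_num), s11_chk.2.2.2.2.1]
    have h2 : idx ((g : Equiv.Perm GolayPt) (pt 2)) = pa s11 y := by
      rw [← hs1, hcp, idx_mk hsv]
    have h3 : idx ((g : Equiv.Perm GolayPt) (pt 3)) = pa s11 (pa s11 y) := by
      rw [← hs2, hcp, idx_mk hsv, h2]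
    have h4 : idx ((g : Equiv.Perm GolayPt) (pt 4)) = pa s11 (pa s11 (pa s11 y)) := by
      rw [← hs3, hcp, idx_mk hsv, h3]
    have hm : [0, y, pa s11 y, pa s11 (pa s11 y), pa s11 (pa s11 (pa s11 y))] ∈ ys11 := by
      refine List.mem_map.mpr ⟨y, ?_, rfl⟩
      rw [DK1_eq]
      have hg' : (g : Equiv.Perm GolayPt) ∈ fixIn (fixIn (stabS Dd0) []) [0] := by rw [fixIn_nil]; exact g.2
      exact mem_offMask_of_fix (by norm_num) (by simp) (by decide +kernel) hg'
    obtain ⟨x, hx, hgx⟩ := mem_twFilter s11_chk.2.2.2.2.2.2 hsv hsv (mem_stabS.mp (mem_fixIn.mp g.2).1).1 hc hm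
      (by rw [h0 g.2, idx_pt (by norm_num)]) rfl h2 h3 h4
    have hall := List.all_eq_true.mp cent11_chk x hx
    simp only [Bool.and_eq_true, List.any_eq_true] at hall
    obtain ⟨hvx, k, -, hk⟩ := hall
    have h5 := mk_eq_of_samePerm hvx (valid_powP hsv k) hk
    rw [mk_powP hsv] at h5
    rw [Subgroup.mem_zpowers_iff]
    refine ⟨(k : ℤ), ?_⟩
    rw [zpow_natCast]
    apply Subtype.ext
    simp only [Subgroup.coe_pow]
    rw [hgx, h5]
  · intro N _ hN
    have hall := cert_sound (K := fixIn (stabS Dd0) [0]) (N := N) (inK := inK11) (fun g h => inK11_sound h) hN _ _ cert11_ok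
    rw [eq_top_iff]
    intro g _
    obtain ⟨a, ha, b, hb, c, hc, e, he, hf⟩ := factor11 g.2
    obtain ⟨ma, ia⟩ := hall a (by simp [ha])
    obtain ⟨mb, ib⟩ := hall b (by simp [hb])
    obtain ⟨mc, ic⟩ := hall c (by simp [hc])
    obtain ⟨me, ie⟩ := hall e (by simp [he])
    have h5 : g = ⟨_, ma⟩ * ⟨_, mb⟩ * ⟨_, mc⟩ * ⟨_, me⟩ := Subtype.ext hf
    rw [h5]
    exact N.mul_mem (N.mul_mem (N.mul_mem ia ib) ic) ie

/-- Simplicity of the stabiliser of a point. -/
theorem simple_fix0 : IsSimpleGroup ↥(fixIn M24 [0]) := by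
  have h0 : ∀ {g : Equiv.Perm GolayPt}, g ∈ fixIn M24 [0] → g (pt 0) = pt 0 := fun hg =>
    (mem_fixIn.mp hg).2 _ (by rw [idx_pt (by norm_num)]; simp)
  have hfixof : ∀ {g : Equiv.Perm GolayPt}, g ∈ M24 → g (pt 0) = pt 0 → g ∈ fixIn M24 [0] := fun hg h =>
    mem_fixIn.mpr ⟨hg, fun q hq => by
      simp only [List.mem_cons, List.not_mem_nil, or_false] at hq
      rw [← pt_idx q, hq]; exact h⟩
  refine Simple.simple_of_stab (S := {q : GolayPt | q ≠ pt 0}) (x0 := pt 1)
    (pt_ne (by norm_num) (by norm_num) (by norm_num)) ?_ ?_ ?_ ?_ ?_ ?_ ?_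
  · intro g hg hS
    ext1 q
    by_cases hq : q = pt 0
    · rw [hq, h0 hg]; rfl
    · exact hS q hq
  · intro g hg x hx h
    rw [← h0 hg] at h
    exact hx (g.injective h)
  · intro a b y z ha hb hy hz hab hyz
    obtain ⟨g, hg, hm⟩ := M24_map_list [pt 0, a, b] [pt 0, y, z] rfl (by simp)
      (by simp only [List.nodup_cons, List.mem_cons, List.not_mem_nil, or_false, not_or, not_false_eq_true,
            List.nodup_nil, and_true]; exact ⟨⟨Ne.symm ha, Ne.symm hb⟩, hab⟩)
      (by simp only [List.nodup_cons, List.mem_cons, List.not_mem_nil, or_false, not_or, not_false_eq_true,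
            List.nodup_nil, and_true]; exact ⟨⟨Ne.symm hy, Ne.symm hz⟩, hyz⟩)
    simp only [List.map_cons, List.map_nil, List.cons.injEq, and_true] at hm
    obtain ⟨e0, e1, e2⟩ := hm
    exact ⟨g, hfixof hg e0, e1, e2⟩
  · intro y z w hy hz hw hy1 hz1 hw1 hzy hwy
    have hne01 : pt 0 ≠ pt 1 := pt_ne (by norm_num) (by norm_num) (by norm_num)
    obtain ⟨g, hg, hm⟩ := M24_map_list [pt 0, pt 1, y, z] [pt 0, pt 1, y, w] rfl (by simp)
      (by simp only [List.nodup_cons, List.mem_cons, List.not_mem_nil, or_false, not_or, not_false_eq_true,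
            List.nodup_nil, and_true]; exact ⟨⟨hne01, Ne.symm hy, Ne.symm hz⟩, ⟨Ne.symm hy1, Ne.symm hz1⟩, Ne.symm hzy⟩)
      (by simp only [List.nodup_cons, List.mem_cons, List.not_mem_nil, or_false, not_or, not_false_eq_true,
            List.nodup_nil, and_true]; exact ⟨⟨hne01, Ne.symm hy, Ne.symm hw⟩, ⟨Ne.symm hy1, Ne.symm hw1⟩, Ne.symm hwy⟩)
    simp only [List.map_cons, List.map_nil, List.cons.injEq, and_true] at hm
    obtain ⟨e0, e1, e2, e3⟩ := hm
    exact ⟨g, hfixof hg e0, e1, e2, e3⟩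
  · have h1 := fixIn_cons M24 [0] (b := 1) (by norm_num)
    rw [← h1]
    exact simple_fix10
  · rw [ncard_off1]
    rintro ⟨k, hk⟩
    have : k < 5 := by
      by_contra h5
      have h6 : 2 ^ 5 ≤ 2 ^ k := Nat.pow_le_pow_right (by norm_num) (by omega)
      omega
    interval_cases k <;> omega
  · rw [ncard_off1]; norm_num

/-- Simplicity of the group of the code. -/
theorem simple_M24 : IsSimpleGroup ↥M24 := by
  refine Simple.simple_of_stab (S := Set.univ) (x0 := pt 0) (Set.mem_univ _) ?_ ?_ ?_ ?_ ?_ ?_ ?_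
  · intro g _ hS
    ext1 q
    exact hS q (Set.mem_univ _)
  · intro g _ x _
    exact Set.mem_univ _
  · intro a b y z _ _ _ _ hab hyz
    exact M24_pair_trans hab hyz
  · intro y z w _ _ _ hy hz hw hzy hwy
    obtain ⟨g, hg, hm⟩ := M24_map_list [pt 0, y, z] [pt 0, y, w] rfl (by simp)
      (by simp only [List.nodup_cons, List.mem_cons, List.not_mem_nil, or_false, not_or, not_false_eq_true,
            List.nodup_nil, and_true]; exact ⟨⟨Ne.symm hy, Ne.symm hz⟩, Ne.symm hzy⟩)
      (by simp only [List.nodup_cons, List.mem_cons, List.not_mem_nil, or_false, not_or, not_false_eq_true,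
            List.nodup_nil, and_true]; exact ⟨⟨Ne.symm hy, Ne.symm hw⟩, Ne.symm hwy⟩)
    simp only [List.map_cons, List.map_nil, List.cons.injEq, and_true] at hm
    obtain ⟨e0, e1, e2⟩ := hm
    exact ⟨g, hg, e0, e1, e2⟩
  · have h1 := fixIn_cons M24 [] (b := 0) (by norm_num)
    rw [fixIn_nil] at h1
    rw [← h1]
    exact simple_fix0
  · rw [ncard_univ_pts]
    rintro ⟨k, hk⟩
    have : k < 5 := by
      by_contra h5
      have h6 : 2 ^ 5 ≤ 2 ^ k := Nat.pow_le_pow_right (by norm_num) (by omega)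
      omega
    interval_cases k <;> omega
  · rw [ncard_univ_pts]; norm_num

/-- Simplicity of the stabiliser of the base dodecad. -/
theorem simple_stabDd0 : IsSimpleGroup ↥(stabS Dd0) := by
  have hp0 : pt 0 ∈ Dd0 := (mem_fs_pt (by norm_num)).mpr (by decide +kernel)
  refine Simple.simple_of_stab (S := (↑Dd0 : Set GolayPt)) (x0 := pt 0) hp0 ?_ ?_ ?_ ?_ ?_ ?_ ?_
  · intro g hg hS
    exact fix_le_eight_or_one (mem_stabS.mp hg).1 hS
  · intro g hg x hx
    exact (mem_of_smul_eq (mem_stabS.mp hg).2 x).mpr hx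
  · intro a b y z ha hb hy hz hab hyz
    obtain ⟨g, hg, hm⟩ := Dd0_map_list [a, b] [y, z] rfl (by simp)
      (by simpa using hab) (by simpa using hyz)
      (by
        intro c hc
        simp only [List.mem_cons, List.not_mem_nil, or_false] at hc
        rcases hc with rfl | rfl <;> assumption)
      (by
        intro c hc
        simp only [List.mem_cons, List.not_mem_nil, or_false] at hc
        rcases hc with rfl | rfl <;> assumption)
    simp only [List.map_cons, List.map_nil, List.cons.injEq, and_true] at hm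
    exact ⟨g, hg, hm.1, hm.2⟩
  · intro y z w hy' hz' hw' hy hz hw hzy hwy
    obtain ⟨g, hg, hm⟩ := Dd0_map_list [pt 0, y, z] [pt 0, y, w] rfl (by simp)
      (by simp only [List.nodup_cons, List.mem_cons, List.not_mem_nil, or_false, not_or, not_false_eq_true,
            List.nodup_nil, and_true]; exact ⟨⟨Ne.symm hy, Ne.symm hz⟩, Ne.symm hzy⟩)
      (by simp only [List.nodup_cons, List.mem_cons, List.not_mem_nil, or_false, not_or, not_false_eq_true,
            List.nodup_nil, and_true]; exact ⟨⟨Ne.symm hy, Ne.symm hw⟩, Ne.symm hwy⟩)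
      (by
        intro c hc
        simp only [List.mem_cons, List.not_mem_nil, or_false] at hc
        rcases hc with rfl | rfl | rfl <;> assumption)
      (by
        intro c hc
        simp only [List.mem_cons, List.not_mem_nil, or_false] at hc
        rcases hc with rfl | rfl | rfl <;> assumption)
    simp only [List.map_cons, List.map_nil, List.cons.injEq, and_true] at hm
    obtain ⟨e0, e1, e2⟩ := hm
    exact ⟨g, hg, e0, e1, e2⟩
  · have h1 := fixIn_cons (stabS Dd0) [] (b := 0) (by norm_num)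
    rw [fixIn_nil] at h1
    rw [← h1]
    exact simple_fixK0
  · rw [Set.ncard_coe_finset, Dd0_mem.2]
    rintro ⟨k, hk⟩
    have : k < 4 := by
      by_contra h5
      have h6 : 2 ^ 4 ≤ 2 ^ k := Nat.pow_le_pow_right (by norm_num) (by omega)
      omega
    interval_cases k <;> omega
  · rw [Set.ncard_coe_finset, Dd0_mem.2]; norm_num

end CfsgLib.Golay
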