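/-
The simple stabilisers in `M24`, for arbitrary points and dodecads.
-/
import Cfsg.Agent.Lib.Golay.SimpleBase
import Cfsg.Agent.Lib.Simple.Transfer

set_option autoImplicit false

namespace CfsgLib.Golay

open Cfsg
open scoped Pointwise

theorem fix0_iff {g : Equiv.Perm GolayPt} : g ∈ fixIn M24 [0] ↔ g ∈ M24 ∧ g (pt 0) = pt 0 := by
  rw [mem_fixIn]
  constructor
  · rintro ⟨h1, h2⟩
    exact ⟨h1, h2 _ (by rw [idx_pt (by norm_num)]; simp)⟩
  · rintro ⟨h1, h2⟩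
    refine ⟨h1, fun q hq => ?_⟩
    simp only [List.mem_cons, List.not_mem_nil, or_false] at hq
    rw [← pt_idx q, hq]; exact h2

theorem fix10_iff {g : Equiv.Perm GolayPt} :
    g ∈ fixIn M24 [1, 0] ↔ g ∈ M24 ∧ g (pt 0) = pt 0 ∧ g (pt 1) = pt 1 := by
  rw [mem_fixIn]
  constructor
  · rintro ⟨h1, h2⟩
    exact ⟨h1, h2 _ (by rw [idx_pt (by norm_num)]; simp), h2 _ (by rw [idx_pt (by norm_num)]; simp)⟩
  · rintro ⟨h1, h2, h3⟩
    refine ⟨h1, fun q hq => ?_⟩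
    simp only [List.mem_cons, List.not_mem_nil, or_false] at hq
    rcases hq with hq | hq
    · rw [← pt_idx q, hq]; exact h3
    · rw [← pt_idx q, hq]; exact h2

theorem simple_stab_pt (p : GolayPt) : IsSimpleGroup (MulAction.stabilizer M24 p) := by
  obtain ⟨h, hh, hp⟩ := M24_pt_trans p (pt 0)
  refine Simple.simple_transfer _ (fixIn M24 [0]) h ?_ ?_ simple_fix0
  · intro a ha
    have ha' : (a : Equiv.Perm GolayPt) p = p := ha
    refine fix0_iff.mpr ⟨M24.mul_mem (M24.mul_mem hh a.2) (M24.inv_mem hh), ?_⟩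
    simp only [Equiv.Perm.mul_apply]
    rw [← hp]
    simp [ha']
  · intro b hb
    obtain ⟨hb1, hb2⟩ := fix0_iff.mp hb
    refine ⟨⟨h⁻¹ * b * h, M24.mul_mem (M24.mul_mem (M24.inv_mem hh) hb1) hh⟩, ?_, by simp [mul_assoc]⟩
    change (h⁻¹ * b * h) p = p
    simp only [Equiv.Perm.mul_apply]
    rw [hp, hb2, ← hp]
    simp

theorem simple_stab_pair {p q : GolayPt} (hpq : p ≠ q) :
    IsSimpleGroup ↥(MulAction.stabilizer M24 p ⊓ MulAction.stabilizer M24 q) := by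
  obtain ⟨h, hh, hp, hq⟩ := M24_pair_trans hpq (pt_ne (i := 0) (j := 1) (by norm_num) (by norm_num) (by norm_num))
  refine Simple.simple_transfer _ (fixIn M24 [1, 0]) h ?_ ?_ simple_fix10
  · rintro a ⟨ha1, ha2⟩
    have ha1' : (a : Equiv.Perm GolayPt) p = p := ha1
    have ha2' : (a : Equiv.Perm GolayPt) q = q := ha2
    refine fix10_iff.mpr ⟨M24.mul_mem (M24.mul_mem hh a.2) (M24.inv_mem hh), ?_, ?_⟩
    · simp only [Equiv.Perm.mul_apply]
      rw [← hp]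
      simp [ha1']
    · simp only [Equiv.Perm.mul_apply]
      rw [← hq]
      simp [ha2']
  · intro b hb
    obtain ⟨hb1, hb2, hb3⟩ := fix10_iff.mp hb
    refine ⟨⟨h⁻¹ * b * h, M24.mul_mem (M24.mul_mem (M24.inv_mem hh) hb1) hh⟩, ⟨?_, ?_⟩, by simp [mul_assoc]⟩
    · change (h⁻¹ * b * h) p = p
      simp only [Equiv.Perm.mul_apply]
      rw [hp, hb2, ← hp]
      simp
    · change (h⁻¹ * b * h) q = q
      simp only [Equiv.Perm.mul_apply]
      rw [hq, hb3, ← hq]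
      simp

theorem simple_stab_dodecad {d : Finset GolayPt} (hd : d ∈ dodecads) :
    IsSimpleGroup (MulAction.stabilizer M24 d) := by
  obtain ⟨k, hk, hkd⟩ := exists_conj_Dd0 hd
  refine Simple.simple_transfer _ (stabS Dd0) k⁻¹ ?_ ?_ simple_stabDd0
  · intro a ha
    have ha' : (a : Equiv.Perm GolayPt) • d = d := ha
    refine mem_stabS.mpr ⟨M24.mul_mem (M24.mul_mem (M24.inv_mem hk) a.2) (M24.inv_mem (M24.inv_mem hk)), ?_⟩
    rw [mul_smul, mul_smul, inv_inv, hkd, ha', ← hkd, inv_smul_smul]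
  · intro b hb
    obtain ⟨hb1, hb2⟩ := mem_stabS.mp hb
    refine ⟨⟨k * b * k⁻¹, M24.mul_mem (M24.mul_mem hk hb1) (M24.inv_mem hk)⟩, ?_, by simp [mul_assoc]⟩
    change (k * b * k⁻¹) • d = d
    rw [mul_smul, mul_smul, ← hkd, inv_smul_smul, hb2]

theorem simple_stab_dodecad_pt {d : Finset GolayPt} (hd : d ∈ dodecads) {p : GolayPt} (hp : p ∈ d) :
    IsSimpleGroup ↥(MulAction.stabilizer M24 d ⊓ MulAction.stabilizer M24 p) := by
  obtain ⟨k, hk, hkd, hkp⟩ := exists_conj_Dd0_pt hd hp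
  have hf0 : ∀ {g : Equiv.Perm GolayPt}, g ∈ stabS Dd0 → g (pt 0) = pt 0 → g ∈ fixIn (stabS Dd0) [0] := fun hg h =>
    mem_fixIn.mpr ⟨hg, fun q hq => by
      simp only [List.mem_cons, List.not_mem_nil, or_false] at hq
      rw [← pt_idx q, hq]; exact h⟩
  refine Simple.simple_transfer _ (fixIn (stabS Dd0) [0]) k⁻¹ ?_ ?_ simple_fixK0
  · rintro a ⟨ha1, ha2⟩
    have ha' : (a : Equiv.Perm GolayPt) • d = d := ha1
    have ha2' : (a : Equiv.Perm GolayPt) p = p := ha2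
    refine hf0 (mem_stabS.mpr ⟨M24.mul_mem (M24.mul_mem (M24.inv_mem hk) a.2) (M24.inv_mem (M24.inv_mem hk)), ?_⟩) ?_
    · rw [mul_smul, mul_smul, inv_inv, hkd, ha', ← hkd, inv_smul_smul]
    · simp only [Equiv.Perm.mul_apply, inv_inv]
      rw [hkp, ha2', ← hkp]
      simp
  · intro b hb
    obtain ⟨hb1, hb2⟩ := mem_fixIn.mp hb
    obtain ⟨hb3, hb4⟩ := mem_stabS.mp hb1
    have hb0 : b (pt 0) = pt 0 := hb2 _ (by rw [idx_pt (by norm_num)]; simp)
    refine ⟨⟨k * b * k⁻¹, M24.mul_mem (M24.mul_mem hk hb3) (M24.inv_mem hk)⟩, ⟨?_, ?_⟩, by simp [mul_assoc]⟩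
    · change (k * b * k⁻¹) • d = d
      rw [mul_smul, mul_smul, ← hkd, inv_smul_smul, hb4]
    · change (k * b * k⁻¹) p = p
      simp only [Equiv.Perm.mul_apply]
      rw [← hkp]
      simp [hb0]

end CfsgLib.Golay
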